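import Cfsg.Agent.W7.V5

/-! Groups all of whose elements have order at most `8`: basic facts. -/

set_option autoImplicit false
set_option linter.unusedSectionVars false

namespace CF.W8

open Subgroup Cfsg CF.Loc CF.W7
open scoped commutatorElement

variable {G : Type*} [Group G] [Finite G] {A B D E K L N Q T U V X : Subgroup G} {a b c g u v w x y : G}

/-- all element orders are at most `8` -/
def W8 (G : Type*) [Group G] : Prop := ∀ g : G, orderOf g ≤ 8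

/-- an element of order `5` or `7` -/
def P57 (x : G) : Prop := orderOf x = 5 ∨ orderOf x = 7

/-- order prime to `35` -/
def T23 (K : Subgroup G) : Prop := ¬ 5 ∣ Nat.card K ∧ ¬ 7 ∣ Nat.card K

namespace P57
variable (o : P57 x)
include o

theorem pr : (orderOf x).Prime := o.elim (· ▸ Nat.prime_five) (· ▸ by decide)

theorem five : 5 ≤ orderOf x := o.elim (·.ge) fun e => by omega

theorem nd {q : ℕ} (hq : q = 2 ∨ q = 3) (k : IsPGroup q K) : ¬ orderOf x ∣ Nat.card K := fun d => by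
  have := o.five
  rcases hq with rfl | rfl
  · obtain ⟨n, e⟩ := k.exists_card_eq
    have := (Nat.prime_dvd_prime_iff_eq o.pr Nat.prime_two).1 (o.pr.dvd_of_dvd_pow (e ▸ d)); omega
  · obtain ⟨n, e⟩ := k.exists_card_eq
    have := (Nat.prime_dvd_prime_iff_eq o.pr Nat.prime_three).1 (o.pr.dvd_of_dvd_pow (e ▸ d)); omega

theorem nd2 (k : IsPGroup 2 K) : ¬ orderOf x ∣ Nat.card K := o.nd (.inl rfl) k

theorem pz : IsPGroup (orderOf x) (zpowers x) := isPGroup_zpowers_of_orderOf (k := 1) (pow_one _).symm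

theorem x1 : zpowers x ≠ ⊥ := fun e => by
  have := o.five
  rw [zpowers_eq_bot.1 e, orderOf_one] at this
  omega

theorem conj (g : G) : P57 (g * x * g⁻¹) := by
  unfold P57 at *
  rwa [← MulAut.conj_apply, MulEquiv.orderOf_eq]

theorem nd_sup (a : ¬ orderOf x ∣ Nat.card K) (b : ¬ orderOf x ∣ Nat.card L) (n : K ≤ 𝐍(L)) :
    ¬ orderOf x ∣ Nat.card ↥(K ⊔ L) := fun d => (o.pr.dvd_mul.1 (card_sup_mul_card_inf n ▸ d.mul_right _)).elim a b

end P57

namespace T23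

theorem nd (t : T23 K) (o : P57 x) : ¬ orderOf x ∣ Nat.card K := o.elim (· ▸ t.1) (· ▸ t.2)

theorem not_mem (t : T23 K) (o : P57 x) : x ∉ K := fun m => t.nd o (K.orderOf_dvd_natCard m)

theorem of (k : ∀ x ∈ K, ¬ P57 x) : T23 K :=
  have : Fact (Nat.Prime 5) := ⟨Nat.prime_five⟩
  have : Fact (Nat.Prime 7) := ⟨by decide⟩
  ⟨fun d => let ⟨x, m, o⟩ := exists_orderOf_eq_of_dvd_card d; k x m (.inl o),
    fun d => let ⟨x, m, o⟩ := exists_orderOf_eq_of_dvd_card d; k x m (.inr o)⟩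

theorem mono (t : T23 K) (l : L ≤ K) : T23 L := of fun _ m o => t.not_mem o (l m)

theorem of_p {q : ℕ} (hq : q = 2 ∨ q = 3) (k : IsPGroup q K) : T23 K := of fun _ m o => o.nd hq k (K.orderOf_dvd_natCard m)

theorem sup (a : T23 K) (b : T23 L) (n : K ≤ 𝐍(L)) : T23 (K ⊔ L) :=
  of fun _ m o => o.nd_sup (a.nd o) (b.nd o) n ((K ⊔ L).orderOf_dvd_natCard m)

end T23

theorem exists_p57 (t : ¬ T23 K) : ∃ x ∈ K, P57 x := by_contra fun k => t (.of fun x m o => k ⟨x, m, o⟩)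

theorem card_mul_le (a : A ≤ V) (b : B ≤ V) (i : A ⊓ B = ⊥) : Nat.card A * Nat.card B ≤ Nat.card V := by
  rw [← Nat.card_prod]
  refine Nat.card_le_card_of_injective (fun p : A × B => (⟨p.1 * p.2, mul_mem (a p.1.2) (b p.2.2)⟩ : V)) fun p q e => ?_
  have e' : ((q.1 : G)⁻¹ * p.1) = q.2 * (p.2 : G)⁻¹ := by
    rw [inv_mul_eq_iff_eq_mul, ← mul_assoc, eq_mul_inv_iff_mul_eq]; exact congrArg Subtype.val e
  have e1 : ((q.1 : G)⁻¹ * p.1) = 1 := i.le (mem_inf.2 ⟨A.mul_mem (A.inv_mem q.1.2) p.1.2, e' ▸ B.mul_mem q.2.2 (B.inv_mem p.2.2)⟩)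
  exact Prod.ext (Subtype.ext (inv_mul_eq_one.1 e1).symm) (Subtype.ext (mul_inv_eq_one.1 (e' ▸ e1)).symm)

/-- if a fixed point free `e` lies in the group generated by `a` and a conjugate, then `|C_V(a)| ^ 2 ≤ |V|` -/
theorem sq_le (n : g ∈ 𝐍(V)) {e : G} (m : e ∈ zpowers a ⊔ zpowers (g * a * g⁻¹)) (f : ∀ v ∈ V, e * v = v * e → v = 1) :
    Nat.card ↥(V ⊓ centralizer {a}) * Nat.card ↥(V ⊓ centralizer {a}) ≤ Nat.card V := by
  have := card_mul_le (V := V) (A := V ⊓ centralizer {a}) (B := cj[g] (V ⊓ centralizer {a})) inf_le_left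
    (cj_le_of_mem_normalizer n inf_le_left) (eq_bot_iff.2 fun v hv => f v hv.1.1 ?_)
  · rwa [card_cj] at this
  have h2 := hv.2
  rw [cj_inf, cj_centralizer_singleton] at h2
  exact mem_centralizer_singleton_iff.1 ((sup_le (zpowers_le.2 (mem_centralizer_singleton_iff.2
    (mem_centralizer_singleton_iff.1 hv.1.2).symm)) (zpowers_le.2 (mem_centralizer_singleton_iff.2
      (mem_centralizer_singleton_iff.1 h2.2).symm)) : _ ≤ centralizer {v}) m)

/-- an element centralizing `y` modulo a normal `2`-subgroup lifts to an element centralizing `y` -/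
theorem lift_c (q : IsPGroup 2 Q) (o : orderOf y = 3) (ny : y ∈ 𝐍(Q)) (ng : g ∈ 𝐍(Q)) (c : ⁅g, y⁆ ∈ Q) :
    ∃ u ∈ Q, y * (u * g) = u * g * y := by
  have s : ∀ t, orderOf t = 3 → t ∈ Q ⊔ zpowers y → IsSyl 3 (zpowers t) (Q ⊔ zpowers y) := fun t ot m =>
    isSyl_of_not_dvd_relIndex (p3 ot) (zpowers_le.2 m) fun d => by
      have e := card_mul_relIndex (zpowers_le.2 m)
      have e2 := card_sup_mul_card_inf (zpowers_le.2 ny)
      rw [inf_eq_bot_of_ne (by decide) (p3 o) q, card_bot, mul_one, sup_comm, ← e, c3 o, c3 ot, Nat.mul_right_inj (by decide)] at e2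
      exact (Nat.Prime.coprime_iff_not_dvd Nat.prime_three).1 (cop23 q (p3 o) |>.symm.coprime_dvd_left (c3 o).symm.dvd) (e2 ▸ d)
  have m : g * y * g⁻¹ ∈ Q ⊔ zpowers y := by
    rw [show g * y * g⁻¹ = ⁅g, y⁆ * y by simp [commutatorElement_def]]
    exact mul_mem_sup c (mem_zpowers y)
  obtain ⟨k, hk, e⟩ := (s _ ((MulEquiv.orderOf_eq (MulAut.conj g) y).trans o) m).conj (s y o (mem_sup_right (mem_zpowers y)))
  obtain ⟨t, ht, u, hu, rfl⟩ := (mem_sup_of_le_normalizer' (zpowers_le.2 ny)).1 (sup_comm Q _ ▸ hk)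
  rw [cj_mul, cj_eq_iff, cj_eq_self_of_mem (inv_mem ht), cj_zpowers] at e
  have m1 : u * (g * y * g⁻¹) * u⁻¹ * y⁻¹ ∈ zpowers y := mul_mem (e ▸ mem_zpowers _) (inv_mem (mem_zpowers y))
  have m2 : u * (g * y * g⁻¹) * u⁻¹ * y⁻¹ ∈ Q := by
    rw [show u * (g * y * g⁻¹) * u⁻¹ * y⁻¹ = u * ⁅g, y⁆ * (y * u⁻¹ * y⁻¹) by simp [commutatorElement_def, mul_assoc]]
    exact mul_mem (mul_mem hu c) (conj_mem_of_mem_normalizer ny (inv_mem hu))
  have := (inf_eq_bot_of_ne (by decide) (p3 o) q).le ⟨m1, m2⟩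
  refine ⟨u, hu, ?_⟩
  rw [mem_bot, mul_inv_eq_one, mul_inv_eq_iff_eq_mul, ← mul_assoc, ← mul_assoc, mul_inv_eq_iff_eq_mul] at this
  rw [this, mul_assoc]

namespace W8
variable (h : W8 G)
include h

theorem sub (K : Subgroup G) : W8 K := fun g => (orderOf_coe g).symm.trans_le (h g)

theorem inj {H : Type*} [Group H] {f : H →* G} (i : Function.Injective f) : W8 H := fun g =>
  (orderOf_injective f i g).symm.trans_le (h _)

theorem map {H : Type*} [Group H] {f : G →* H} (s : Function.Surjective f) : W8 H := fun t =>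
  let ⟨g, e⟩ := s t
  (Nat.le_of_dvd (orderOf_pos g) (e ▸ orderOf_map_dvd f g)).trans (h g)

theorem eq_of_dvd {n : ℕ} (d : n ∣ orderOf g) (l : 5 ≤ n) : orderOf g = n := by
  obtain ⟨k, e⟩ := d
  have := h g
  have := orderOf_pos g
  obtain _ | _ | k := k
  · omega
  · omega
  · nlinarith

theorem ord_map {H : Type*} [Group H] (f : G →* H) (l : 5 ≤ orderOf (f g)) : orderOf g = orderOf (f g) :=
  h.eq_of_dvd (orderOf_map_dvd f g) l

theorem p57_map {H : Type*} [Group H] (f : G →* H) (o : P57 (f g)) : P57 g := by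
  unfold P57 at *
  rwa [h.ord_map f (o.elim (·.ge) fun e => by omega)]

theorem mul_le (c : a * b = b * a) (k : (orderOf a).Coprime (orderOf b)) : orderOf a * orderOf b ≤ 8 :=
  Commute.orderOf_mul_eq_mul_orderOf_of_coprime c k ▸ h _

theorem prime_le {r : ℕ} (p : r.Prime) (d : r ∣ Nat.card K) : r ≤ 7 := by
  have := Fact.mk p
  obtain ⟨g, -, rfl⟩ := exists_orderOf_eq_of_dvd_card d
  have := h g
  by_contra k
  rw [show orderOf g = 8 by omega] at p
  exact absurd p (by decide)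

theorem sol (t : T23 K) : Group.IsSolvable K := by
  refine Char.isSolvable_of_card_dvd Nat.prime_three Nat.prime_two K (a := Nat.card K) (b := Nat.card K)
    ((Nat.dvd_iff_prime_pow_dvd_dvd _ _).2 fun r k p d => ?_)
  obtain rfl | k0 := k.eq_zero_or_pos
  · simp
  have d1 := (dvd_pow_self r k0.ne').trans d
  have l := h.prime_le p d1
  have l2 := ((Nat.lt_pow_self p.one_lt).trans_le (Nat.le_of_dvd Nat.card_pos d)).le
  have := p.two_le
  interval_cases r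
  exacts [(pow_dvd_pow 2 l2).mul_left _, (pow_dvd_pow 3 l2).mul_right _, absurd p (by decide), absurd d1 t.1,
    absurd p (by decide), absurd d1 t.2]

theorem sq (o : orderOf y = 3) (c : y * g = g * y) (d : IsPGroup 2 D) (m : g ∈ D) : g * g = 1 := by
  obtain ⟨k, e⟩ := orderOf_eq_pow_of_mem d m
  have := h.mul_le c (by rw [o, e]; exact Nat.Coprime.pow_right _ (by decide))
  rw [o, e] at this
  rw [← pow_two, ← orderOf_dvd_iff_pow_eq_one, e]
  obtain _ | _ | k := k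
  · decide
  · decide
  · have := Nat.one_le_two_pow (n := k)
    omega

theorem ea3 (o : orderOf y = 3) (d : IsPGroup 2 D) (c : D ≤ 𝐂(zpowers y)) : IsElementaryAbelian 2 D := by
  have k : ∀ g ∈ D, g * g = 1 := fun g m => h.sq o (c m y (mem_zpowers y)) d m
  refine ⟨⟨⟨fun a b => Subtype.ext ?_⟩⟩, fun g m => (pow_two g).trans (k g m)⟩
  have := k _ (mul_mem a.2 b.2)
  rw [← eq_inv_iff_mul_eq_one, mul_inv_rev, inv_eq_of_mul_eq_one_left (k _ a.2), inv_eq_of_mul_eq_one_left (k _ b.2)] at this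
  exact this

/-- a `2`-element `c` centralizing `y` centralizes the fixed points of `y` in a `2`-group normalized by `c` -/
theorem cy_le (o : orderOf y = 3) (d : IsPGroup 2 D) (p : IsPGroup 2 (zpowers c)) (n : c ∈ 𝐍(D)) (k : y * c = c * y) :
    D ⊓ 𝐂(zpowers y) ≤ centralizer {c} := by
  have l : zpowers c ≤ 𝐂(zpowers y) := zpowers_le.2 (by rw [centralizer_zpowers]; exact mem_centralizer_singleton_iff.2 k.symm)
  have e := h.ea3 o (D := (D ⊓ 𝐂(zpowers y)) ⊔ zpowers c) (d.to_inf_left.to_sup_of_normal_left' p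
    (le_normalizer_inf (zpowers_le.2 n) (l.trans le_normalizer))) (sup_le inf_le_right l)
  exact fun v hv => mem_centralizer_singleton_iff.2
    (isElemAb_le_centralizer e (mem_sup_right (mem_zpowers c)) v (mem_sup_left hv))

theorem exp3 (a : IsPGroup 3 A) (m : g ∈ A) : g ^ 3 = 1 := by
  obtain ⟨k, e⟩ := orderOf_eq_pow_of_mem a m
  have := h g
  rw [← orderOf_dvd_iff_pow_eq_one, e]
  obtain _ | _ | k := k
  · decide
  · decide
  · have := Nat.one_le_pow k 3 (by decide)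
    omega

theorem fix1 (o : P57 x) (c : x * g = g * x) (k : ¬ orderOf x ∣ orderOf g) : g = 1 := by
  have := h.mul_le c ((Nat.Prime.coprime_iff_not_dvd o.pr).2 k)
  have := o.five
  have := orderOf_pos g
  exact orderOf_eq_one_iff.1 (by nlinarith)

theorem t23c {q : ℕ} (hq : q = 2 ∨ q = 3) (k : IsPGroup q U) (u0 : U ≠ ⊥) : T23 𝐂(U) := .of fun x m o => by
  obtain ⟨⟨g, hg⟩, g1⟩ := ne_bot_iff_exists_ne_one.1 u0
  exact g1 (Subtype.ext (h.fix1 o (m g hg).symm fun d => o.nd hq k (d.trans (U.orderOf_dvd_natCard hg))))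

theorem t23z (z2 : g * g = 1) (g1 : g ≠ 1) : T23 (Hz g) :=
  (h.t23c (.inl rfl) (.of_card (n := 1) (card_z z2 g1)) (mt zpowers_eq_bot.1 g1)).mono
    (le_centralizer_of_card_two (card_z z2 g1) le_rfl)

variable (o : P57 x)
include o

theorem fix (k : ¬ orderOf x ∣ Nat.card K) (m : g ∈ K) (c : x * g = g * x) : g = 1 :=
  h.fix1 o c fun d => k (d.trans (K.orderOf_dvd_natCard m))

theorem inf (k : ¬ orderOf x ∣ Nat.card K) : K ⊓ 𝐂(zpowers x) = ⊥ :=
  eq_bot_iff.2 fun _ m => h.fix o k m.1 (m.2 x (mem_zpowers x))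

theorem reg (k : ¬ orderOf x ∣ Nat.card K) : BG.Reg K (zpowers x) :=
  BG.reg_of_prime ((Nat.card_zpowers x).symm ▸ o.pr) (h.inf o k)

theorem mod (k : ¬ orderOf x ∣ Nat.card K) (n : x ∈ 𝐍(K)) : ∃ c, Nat.card K = c * orderOf x + 1 := by
  obtain ⟨c, e⟩ := (h.reg o k).card_dvd (zpowers_le.2 n)
  have : 0 < Nat.card K := Nat.card_pos
  exact ⟨c, by rw [Nat.card_zpowers, mul_comm] at e; omega⟩

theorem comm (k : ¬ orderOf x ∣ Nat.card K) (n : x ∈ 𝐍(K)) : ⁅K, zpowers x⁆ = K :=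
  (h.reg o k).comm_eq (zpowers_le.2 n) o.x1

theorem nil (k : ¬ orderOf x ∣ Nat.card K) (n : x ∈ 𝐍(K)) : BG.Nil K := BG2.Reg.nil' (h.reg o k) (zpowers_le.2 n) o.x1

theorem pow (k : ¬ orderOf x ∣ Nat.card K) (n : x ∈ 𝐍(K)) (m : u ∈ K) : (u * x) ^ orderOf x = 1 := by
  rw [← Coprime.fpf_orderOf_mul n (centralizer_zpowers x ▸ h.inf o k) m, pow_orderOf_eq_one]

theorem sq_le (k : ¬ orderOf x ∣ Nat.card V) (n : g ∈ 𝐍(V)) (m : x ∈ zpowers a ⊔ zpowers (g * a * g⁻¹)) :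
    Nat.card ↥(V ⊓ centralizer {a}) * Nat.card ↥(V ⊓ centralizer {a}) ≤ Nat.card V :=
  CF.W8.sq_le n m fun _ hv c => h.fix o k hv c

theorem syl (m : x ∈ K) (k : ¬ orderOf x ∣ Nat.card U) (u0 : U ≠ ⊥) (n : K ≤ 𝐍(U)) : IsSyl (orderOf x) (zpowers x) K := by
  have := Fact.mk o.pr
  obtain ⟨P, s, l⟩ := exists_isSyl_ge o.pz (zpowers_le.2 m)
  have e : ∀ g ∈ P, g ≠ 1 → orderOf g = orderOf x := fun g hg g1 => by
    obtain ⟨j, e⟩ := orderOf_eq_pow_of_mem s.isPGroup hg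
    exact h.eq_of_dvd (e ▸ dvd_pow_self _ fun j0 => g1 (orderOf_eq_one_iff.1 (by rw [e, j0, pow_zero]))) o.five
  have r : Coprime.SemiReg P U := fun g hg g1 => by
    have o' : P57 g := by unfold P57; rwa [e g hg g1]
    exact centralizer_zpowers g ▸ h.inf o' (e g hg g1 ▸ k)
  obtain ⟨g, rfl⟩ := BG.Cyc.exists_gen (r.isCyclic_of_isPGroup (by have := o.five; omega) (s.le.trans n) u0 s.isPGroup)
  rwa [eq_of_le_of_card_le l (by
    rw [Nat.card_zpowers, Nat.card_zpowers, e g (mem_zpowers g) fun k => o.x1 (le_bot_iff.1 (l.trans (zpowers_eq_bot.2 k).le))])]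

theorem mem (s : IsSyl (orderOf x) (zpowers x) N) (l : K ≤ N) (n : N ≤ 𝐍(K)) (d : orderOf x ∣ Nat.card K) : x ∈ K := by
  have := Fact.mk o.pr
  obtain ⟨y, hy, oy⟩ := exists_orderOf_eq_of_dvd_card d
  obtain ⟨g, hg, e⟩ := (s.of_card_le (isPGroup_zpowers_of_orderOf (k := 1) (by rw [oy, pow_one])) (zpowers_le.2 (l hy))
    (by rw [Nat.card_zpowers, Nat.card_zpowers, oy])).conj s
  exact zpowers_le.1 (e ▸ cj_le_of_mem_normalizer (n hg) (zpowers_le.2 hy))

theorem le_O (ch : IsCharP 2 N) (m : x ∈ N) (l : K ≤ N) (n : N ≤ 𝐍(K)) (k : ¬ orderOf x ∣ Nat.card K) : K ≤ 𝐎[2](N) := by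
  have nQ := le_normalizer_pCoreOf 2 N
  have k' := o.nd_sup k (o.nd2 (isPGroup_pCoreOf 2 N)) (l.trans nQ)
  have n' := le_normalizer_sup n nQ
  have l' := sup_le l (pCoreOf_le 2 N)
  have nl := h.nil o k' (n' m)
  refine le_sup_left.trans (le_pCoreOf (isPGroup_of_forall_coprime fun g hg c => ?_) l' n')
  refine eq_one_of_coprime_of_mem (isPGroup_pCoreOf 2 N) (ch ⟨l' hg, fun q hq => ?_⟩) c
  obtain ⟨j, e⟩ := orderOf_eq_pow_of_mem (isPGroup_pCoreOf 2 N) hq
  exact nl.comm_of_coprime (mem_sup_right hq) hg (e ▸ c.symm.pow_left j)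

theorem cent_le (ch : IsCharP 2 N) (m : x ∈ N) (v : IsPGroup 2 V) (v0 : V ≠ ⊥) (n : N ≤ 𝐍(V)) : N ⊓ 𝐂(V) ≤ 𝐎[2](N) :=
  h.le_O o ch m inf_le_left (le_normalizer_inf le_normalizer (le_normalizer_centralizer n))
    (((h.t23c (.inl rfl) v v0).mono inf_le_right).nd o)

theorem k1 (ch : IsCharP 2 N) (m : x ∈ N) (o2 : 𝐎[2](N) ≠ ⊥) (n : N ≤ 𝐍(V)) (hw : w ∈ N) (w0 : w ∉ 𝐎[2](N))
    (c : ∀ a ∈ 𝐎[2](N), ⁅a, w⁆ ∈ V) : 𝐎[2](N) ≤ V := by
  have nQ := le_normalizer_pCoreOf 2 N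
  have pQ := o.nd2 (isPGroup_pCoreOf 2 N)
  have n' : N ≤ 𝐍(N ⊓ secCent 𝐎[2](N) V) := le_normalizer_inf le_normalizer (le_normalizer_secCent nQ n)
  have k := h.mem o (h.syl o m pQ o2 nQ) inf_le_left n' (by_contra fun k => w0 (h.le_O o ch m inf_le_left n' k ⟨hw, n hw, c⟩))
  rw [← h.comm o pQ (nQ m)]
  exact (commutator_mono le_rfl (zpowers_le.2 k.2)).trans (commutator_secCent_le _ _)

theorem idx (s : IsSyl (orderOf x) (zpowers x) N) (m : x ∈ L) (l : L ≤ N) (n : N ≤ 𝐍(L)) :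
    ∃ c, Nat.card L = (c * orderOf x + 1) * (orderOf x * (zpowers x).relIndex (L ⊓ 𝐍(zpowers x))) ∧
    L.relIndex N * (zpowers x).relIndex (L ⊓ 𝐍(zpowers x)) ∣ orderOf x - 1 := by
  have := Fact.mk o.pr
  have s' := s.mono (zpowers_le.2 m) l
  have l1 : zpowers x ≤ L ⊓ 𝐍(zpowers x) := le_inf s'.le le_normalizer
  have c := card_sylow_modEq_one (orderOf x) L
  rw [Sylow.card_eq_index_normalizer s'.toSylow] at c
  have e : normalizer ((s'.toSylow : Subgroup L) : Set L) = (L ⊓ 𝐍(zpowers x)).subgroupOf L := by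
    rw [s'.coe_toSylow, ← subgroupOf_normalizer_eq s'.le, inf_subgroupOf_left]
  have cP : N ⊓ 𝐂(zpowers x) = zpowers x := s.eq_of_le (isPGroup_iff_forall.2 fun g hg => ⟨1, by
    by_cases d : orderOf x ∣ orderOf g
    · rw [pow_one, ← h.eq_of_dvd d o.five, pow_orderOf_eq_one]
    · rw [h.fix1 o (hg.2 x (mem_zpowers x)) d, one_pow]⟩) (le_inf s.le (le_centralizer _)) inf_le_left
  refine ⟨(L ⊓ 𝐍(zpowers x)).relIndex L / orderOf x, ?_, ?_⟩
  · have c' : (L ⊓ 𝐍(zpowers x)).relIndex L % orderOf x = 1 := by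
      rw [relIndex, ← e]; exact Eq.trans c (Nat.mod_eq_of_lt o.pr.one_lt)
    rw [← c', Nat.div_add_mod', ← card_mul_relIndex (inf_le_left : L ⊓ 𝐍(zpowers x) ≤ L), ← card_mul_relIndex l1,
      Nat.card_zpowers, mul_comm]
  · have := BG.relIndex_cent_dvd_pred (A := N ⊓ 𝐍(zpowers x)) ((Nat.card_zpowers x).symm ▸ o.pr) inf_le_right
    rw [Nat.card_zpowers, ← inf_relIndex_right, inf_comm, inf_right_comm, cP, inf_of_le_left le_normalizer,
      ← relIndex_mul_relIndex _ _ _ l1 (inf_le_inf_right _ l), mul_comm] at this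
    rw [← s'.frattini_sup l n, relIndex_sup_of_le_normalizer (inf_le_left.trans n), ← inf_relIndex_right L, ← inf_assoc,
      inf_of_le_left l]
    exact this

theorem idx2 (s : IsSyl (orderOf x) (zpowers x) N) (m : x ∈ L) (l : L ≤ N) (n : N ≤ 𝐍(L)) (lQ : Q ≤ L) (nQ : x ∈ 𝐍(Q))
    (k : ¬ orderOf x ∣ Nat.card Q) {r : ℕ} (e : Q.relIndex L = orderOf x * r) :
    (zpowers x).relIndex (L ⊓ 𝐍(zpowers x)) = r % orderOf x ∧ L.relIndex N * (r % orderOf x) ∣ orderOf x - 1 := by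
  obtain ⟨c, e1, e2⟩ := h.idx o s m l n
  obtain ⟨d, e3⟩ := h.mod o k nQ
  have p7 := o.five
  rw [← card_mul_relIndex lQ, e, e3, mul_left_comm, mul_left_comm _ (orderOf x), Nat.mul_right_inj o.pr.ne_zero] at e1
  have e4 := Nat.le_of_dvd (by omega) ((dvd_mul_left _ _).trans e2)
  have e5 := congrArg (· % orderOf x) e1
  simp only [add_mul, one_mul, mul_right_comm _ (orderOf x), Nat.mul_add_mod_self_right, add_comm, Nat.add_mul_mod_self_right] at e5
  rw [Nat.mod_eq_of_lt (show _ < orderOf x by omega : (zpowers x).relIndex _ < orderOf x)] at e5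
  exact ⟨e5.symm, e5 ▸ e2⟩

end W8

end CF.W8
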