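import Cfsg.Agent.W8.I

/-! Modules over the field with two elements: a verified linear algebra checker. -/

set_option autoImplicit false
set_option linter.unusedSectionVars false

namespace CF.W8.Ct

open Subgroup Cfsg CF.Loc CF.W7

variable {X V κ : Type*} [Group X] [Group V] {ρ : X →* MulAut V} {φ : ℕ → V} {m n i j k N T T1 T2 p : ℕ} {B L : List ℕ}
  {R : X → κ → κ → Prop} {K : ℕ → κ} {g g1 g2 x y : X} {u v w z : V} {k0 k1 k2 : κ}

noncomputable section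
/-- the product over a bit mask -/
def pr (φ : ℕ → V) (m N : ℕ) : V := Nat.rec 1 (fun i r => r * cond (m.testBit i) (φ i) 1) N
/-- strict evaluation -/
def frc {α : Type} (n : ℕ) (k : ℕ → α) : α := Nat.casesOn n (k 0) fun m => k m.succ
/-- a table entry -/
def dg (T i : ℕ) : ℕ := T / 100 ^ i % 100
/-- the image of a mask -/
def im (T m N : ℕ) : ℕ := Nat.rec 0 (fun i r => cond (m.testBit i) (r ^^^ 2 ^ dg T i) r) N
/-- the sum over an orbit -/
def orb (T m N p : ℕ) : ℕ := Nat.rec 0 (fun _ r => frc r fun r => m ^^^ im T r N) p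
/-- reduction -/
def red (B : List ℕ) (r : ℕ) : ℕ := List.rec r (fun b _ r => frc r fun r => cond (Nat.blt (r ^^^ b) r) (r ^^^ b) r) B
/-- the invariant span -/
def go (T1 T2 N k : ℕ) : List ℕ → List ℕ → List ℕ := Nat.rec (fun B _ => B) (fun _ ih B t => List.casesOn t B fun r t =>
  frc (red B r) fun r => cond (Nat.beq r 0) (ih B t) (ih (r :: B) (im T1 r N :: im T2 r N :: t))) k
/-- the relations -/
def bs (T1 T2 N p : ℕ) (L : List ℕ) : List ℕ :=
  go T1 T2 N (3 * N + L.length) [] (L ++ (List.range N).map fun i => orb T2 (2 ^ i) N p)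
/-- the conjugates of a vector -/
def ph (ρ : X →* MulAut V) (R : X → κ → κ → Prop) (k0 : κ) (w : V) (k : κ) : V :=
  open _root_.Classical in if h : ∃ x, R x k0 k then ρ h.choose w else 1
end

theorem frc_eq {α : Type} (n : ℕ) (k : ℕ → α) : frc n k = k n := by cases n <;> rfl
theorem orb_succ : orb T m N (k + 1) = m ^^^ im T (orb T m N k) N := frc_eq (orb T m N k) fun r => m ^^^ im T r N
theorem red_cons : red (n :: B) m = cond (Nat.blt (red B m ^^^ n) (red B m)) (red B m ^^^ n) (red B m) :=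
  frc_eq (red B m) fun r => cond (Nat.blt (r ^^^ n) r) (r ^^^ n) r
theorem go_cons : go T1 T2 N (k + 1) B (m :: L) = cond (Nat.beq (red B m) 0) (go T1 T2 N k B L)
    (go T1 T2 N k (red B m :: B) (im T1 (red B m) N :: im T2 (red B m) N :: L)) :=
  frc_eq (red B m) fun r => cond (Nat.beq r 0) (go T1 T2 N k B L) (go T1 T2 N k (r :: B) (im T1 r N :: im T2 r N :: L))
theorem pr_succ : pr φ m (N + 1) = pr φ m N * cond (m.testBit N) (φ N) 1 := rfl
theorem pr_zero : pr φ 0 N = 1 := by induction N <;> simp_all [pr_succ, show pr φ 0 0 = 1 from rfl]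
theorem pr_pow (l : j < N) : pr φ (2 ^ j) N = φ j := by
  have : ∀ N, pr φ (2 ^ j) N = if j < N then φ j else 1 := fun N => by
    induction N with
    | zero => rfl
    | succ N ih =>
      rw [pr_succ, ih, Nat.testBit_two_pow]
      rcases lt_trichotomy j N with e | rfl | e
      · simp [e, e.ne, e.le, Nat.lt_succ_iff]
      · simp
      · simp [e.not_gt, e.ne', Nat.lt_succ_iff, e.not_ge]
  rw [this, if_pos l]

/-- a module on which the elements of order `5` and `7` have no fixed points -/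
structure Md (ρ : X →* MulAut V) : Prop where
  sq : ∀ v : V, v * v = 1
  fx : ∀ x, P57 x → ∀ v, ρ x v = v → v = 1

/-- a partial action -/
structure Rl (R : X → κ → κ → Prop) : Prop where
  mul : ∀ x y k k' k'', R x k k' → R y k' k'' → R (y * x) k k''
  inv : ∀ x k k', R x k k' → R x⁻¹ k' k

/-- a table for the action of a generator -/
def Tb (r : κ → κ → Prop) (K : ℕ → κ) (T N : ℕ) : Prop := ∀ i < N, dg T i < N ∧ r (K i) (K (dg T i))
instance (r : κ → κ → Prop) [DecidableRel r] (K : ℕ → κ) (T N : ℕ) : Decidable (Tb r K T N) :=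
  inferInstanceAs (Decidable (∀ i < N, _))

/-- three keys are permuted -/
def P3 (r : κ → κ → Prop) (K : ℕ → κ) (i j k : ℕ) : Prop := ∃ i' ∈ [i, j, k], r (K i) (K i') ∧ ∃ j' ∈ [i, j, k],
  r (K j) (K j') ∧ ∃ k' ∈ [i, j, k], r (K k) (K k') ∧ 2 ^ i' ^^^ 2 ^ j' ^^^ 2 ^ k' = 2 ^ i ^^^ 2 ^ j ^^^ 2 ^ k
instance (r : κ → κ → Prop) [DecidableRel r] (K : ℕ → κ) (i j k : ℕ) : Decidable (P3 r K i j k) :=
  inferInstanceAs (Decidable (∃ _ ∈ _, _))

theorem act_mul (x y : X) (v : V) : ρ (x * y) v = ρ x (ρ y v) := by rw [map_mul]; rfl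

theorem ph_eq (r : Rl R) (hw : ∀ x, R x k0 k0 → ρ x w = w) (e : R x k0 k1) : ph ρ R k0 w k1 = ρ x w := by
  have h : ∃ x, R x k0 k1 := ⟨x, e⟩
  rw [ph, dif_pos h, ← mul_inv_cancel_left h.choose x, act_mul, hw _ (r.mul _ _ _ _ _ e (r.inv _ _ _ h.choose_spec))]
theorem ph_act (r : Rl R) (hw : ∀ x, R x k0 k0 → ρ x w = w) (e : R g k1 k2) : ρ g (ph ρ R k0 w k1) = ph ρ R k0 w k2 := by
  by_cases h : ∃ x, R x k0 k1
  · obtain ⟨x, h⟩ := h
    rw [ph_eq r hw h, ph_eq r hw (r.mul _ _ _ _ _ h e), act_mul]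
  rw [ph, ph, dif_neg h, dif_neg fun ⟨x, k⟩ => h ⟨_, r.mul _ _ _ _ _ k (r.inv _ _ _ e)⟩, map_one]
theorem ph_or (k : κ) : ph ρ R k0 w k = 1 ∨ ∃ x, ρ x w = ph ρ R k0 w k := by
  rw [ph]
  split_ifs
  exacts [.inr ⟨_, rfl⟩, .inl rfl]
theorem ph_one (r : Rl R) (hw : ∀ x, R x k0 k0 → ρ x w = w) (e : R x k0 k0) : ph ρ R k0 w k0 = w :=
  (ph_eq r hw e).trans (hw x e)

namespace Md
variable (h : Md ρ)
include h

theorem inv (v : V) : v⁻¹ = v := inv_eq_of_mul_eq_one_left (h.sq v)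
theorem cm (u v : V) : u * v = v * u := by rw [← h.inv (u * v), mul_inv_rev, h.inv, h.inv]
theorem xor (m n : ℕ) : pr φ (m ^^^ n) N = pr φ m N * pr φ n N := by
  induction N with
  | zero => exact (one_mul _).symm
  | succ N ih =>
    rw [pr_succ, pr_succ, pr_succ, ih, Nat.testBit_xor, mul_assoc, mul_assoc, ← mul_assoc (cond _ _ _), h.cm (cond _ _ _),
      mul_assoc]
    cases m.testBit N <;> cases n.testBit N <;> simp [h.sq]
theorem pr2 (a : i < N) (b : j < N) : pr φ (2 ^ i ^^^ 2 ^ j) N = φ i * φ j := by rw [h.xor, pr_pow a, pr_pow b]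
theorem pr3 (a : i < N) (b : j < N) (c : k < N) : pr φ (2 ^ i ^^^ 2 ^ j ^^^ 2 ^ k) N = φ i * φ j * φ k := by
  rw [h.xor, h.pr2 a b, pr_pow c]
theorem pim (t : ∀ i < N, dg T i < N ∧ ρ g (φ i) = φ (dg T i)) (m : ℕ) : pr φ (im T m N) N = ρ g (pr φ m N) := by
  have : ∀ n ≤ N, pr φ (im T m n) N = ρ g (pr φ m n) := fun n l => by
    induction n with
    | zero => exact pr_zero.trans (map_one _).symm
    | succ n ih =>
      rw [pr_succ, map_mul, ← ih (Nat.le_of_succ_le l)]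
      change pr φ (cond _ _ _) N = _
      cases m.testBit n
      · simp; rfl
      · rw [cond_true, cond_true, h.xor, pr_pow (t n l).1, (t n l).2]; rfl
  exact this N le_rfl
theorem porb (t : ∀ i < N, dg T i < N ∧ ρ g (φ i) = φ (dg T i)) (o : g ^ p = 1) (m : ℕ) :
    ρ g (pr φ (orb T m N p) N) = pr φ (orb T m N p) N := by
  have s : ∀ k, pr φ (orb T m N (k + 1)) N = pr φ m N * ρ g (pr φ (orb T m N k) N) := fun k => by
    rw [← h.pim t, ← h.xor, orb_succ]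
  have e : ∀ k, pr φ (orb T m N (k + 1)) N = pr φ (orb T m N k) N * ρ (g ^ k) (pr φ m N) := fun k => by
    induction k with
    | zero => rw [s, show orb T m N 0 = 0 from rfl, pr_zero]; simp
    | succ k ih => rw [s, ih, map_mul, ← mul_assoc, ← s, ← act_mul, ← pow_succ', ih]
  refine mul_left_cancel (a := pr φ m N) ?_
  rw [← s, e, o, map_one, h.cm]; rfl
theorem pred (b : ∀ b ∈ B, pr φ b N = 1) (r : ℕ) : pr φ (red B r) N = pr φ r N := by
  induction B with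
  | nil => rfl
  | cons c B ih =>
    rw [← ih fun a m => b a (.tail _ m), red_cons]
    cases Nat.blt _ _
    · rfl
    · rw [cond_true, h.xor, b c (.head _), mul_one]
theorem pgo (t1 : ∀ i < N, dg T1 i < N ∧ ρ g1 (φ i) = φ (dg T1 i)) (t2 : ∀ i < N, dg T2 i < N ∧ ρ g2 (φ i) = φ (dg T2 i))
    (k : ℕ) : ∀ B L, (∀ b ∈ B, pr φ b N = 1) → (∀ b ∈ L, pr φ b N = 1) → ∀ b ∈ go T1 T2 N k B L, pr φ b N = 1 := by
  induction k with
  | zero => exact fun B _ a _ => a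
  | succ k ih =>
    rintro B (_ | ⟨r, L⟩) a b
    · exact a
    rw [go_cons]
    have e := (h.pred a r).trans (b r (.head _))
    have l := fun c m => b c (.tail _ m)
    cases Nat.beq (red B r) 0
    · refine ih _ _ (List.forall_mem_cons.2 ⟨e, a⟩) (List.forall_mem_cons.2 ⟨?_, List.forall_mem_cons.2 ⟨?_, l⟩⟩)
      · rw [h.pim t1, e, map_one]
      · rw [h.pim t2, e, map_one]
    · exact ih _ _ a l

end Md

/-- the data of a cyclic module -/
structure Cy (ρ : X →* MulAut V) (R : X → κ → κ → Prop) (K : ℕ → κ) (w : V) (g1 g2 : X) (T1 T2 N p : ℕ) : Prop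
    extends Md ρ, Rl R where
  hw : ∀ x, R x (K 0) (K 0) → ρ x w = w
  r1 : R 1 (K 0) (K 0)
  t1 : Tb (R g1) K T1 N
  t2 : Tb (R g2) K T2 N
  o : orderOf g2 = p
  p : p = 5 ∨ p = 7

/-- the conjugates of a vector, numbered -/
noncomputable abbrev pk (ρ : X →* MulAut V) (R : X → κ → κ → Prop) (K : ℕ → κ) (w : V) (i : ℕ) : V := ph ρ R (K 0) w (K i)

namespace Cy
variable (h : Cy ρ R K w g1 g2 T1 T2 N p)
include h

theorem act (e : R g (K i) (K j)) : ρ g (pk ρ R K w i) = pk ρ R K w j := ph_act h.toRl h.hw e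
theorem p0 : pk ρ R K w 0 = w := ph_one h.toRl h.hw h.r1
theorem tb (t : Tb (R g) K T N) : ∀ i < N, dg T i < N ∧ ρ g (pk ρ R K w i) = pk ρ R K w (dg T i) :=
  fun i l => ⟨(t i l).1, h.act (t i l).2⟩
theorem p57 : P57 g2 := by rw [P57, h.o]; exact h.p
theorem rel (l : ∀ m ∈ L, pr (pk ρ R K w) m N = 1) (e : red (bs T1 T2 N p L) m = 0) : pr (pk ρ R K w) m N = 1 := by
  rw [← h.pred (h.pgo (h.tb h.t1) (h.tb h.t2) _ [] _ (by simp) (List.forall_mem_append.2 ⟨l, List.forall_mem_map.2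
    fun i _ => h.fx _ h.p57 _ (h.porb (h.tb h.t2) (h.o ▸ pow_orderOf_eq_one _) _)⟩)) m]
  exact e ▸ pr_zero
theorem one (l : ∀ m ∈ L, pr (pk ρ R K w) m N = 1) (n : 0 < N) (e : red (bs T1 T2 N p L) (2 ^ 0) = 0) : w = 1 := by
  rw [← h.rel l e, pr_pow n, h.p0]
/-- a product of three conjugates which are permuted -/
theorem inv3 (a : i < N) (b : j < N) (c : k < N) (e : P3 (R x) K i j k) :
    ρ x (pr (pk ρ R K w) (2 ^ i ^^^ 2 ^ j ^^^ 2 ^ k) N) = pr (pk ρ R K w) (2 ^ i ^^^ 2 ^ j ^^^ 2 ^ k) N := by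
  obtain ⟨i', m1, r1, j', m2, r2, k', m3, r3, e⟩ := e
  have : ∀ l ∈ [i, j, k], l < N := by simp [a, b, c]
  rw [h.pr3 a b c, map_mul, map_mul, h.act r1, h.act r2, h.act r3, ← h.pr3 (this _ m1) (this _ m2) (this _ m3), e, h.pr3 a b c]
/-- the orbit together with the identity is a submodule -/
theorem sub (l : ∀ m ∈ L, pr (pk ρ R K w) m N = 1) (c : ∀ x, ∃ i < N, R x (K 0) (K i))
    (e : ∀ i < N, ∀ j < N, i = j ∨ ∃ k < N, red (bs T1 T2 N p L) (2 ^ i ^^^ 2 ^ j ^^^ 2 ^ k) = 0) :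
    ∃ U : Subgroup V, w ∈ U ∧ (∀ x, ∀ u ∈ U, ρ x u ∈ U) ∧ Nat.card U ≤ N + 1 ∧ ∀ u ∈ U, u ≠ 1 → ∃ x, ρ x w = u := by
  have c' : ∀ x, ∃ i < N, ρ x w = pk ρ R K w i := fun x => (c x).imp fun i e => ⟨e.1, by rw [← h.act e.2, h.p0]⟩
  refine ⟨{
    carrier := {u | u = 1 ∨ ∃ x, ρ x w = u}
    one_mem' := .inl rfl
    inv_mem' := fun m => by rwa [h.toMd.inv]
    mul_mem' := ?_ }, .inr ⟨1, by simp⟩, ?_, ?_, fun u m n => m.resolve_left n⟩
  · rintro _ _ (rfl | ⟨x, rfl⟩) m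
    · rwa [one_mul]
    rcases m with rfl | ⟨y, rfl⟩
    · exact .inr ⟨x, (mul_one _).symm⟩
    obtain ⟨i, a, e1⟩ := c' x
    obtain ⟨j, b, e2⟩ := c' y
    rw [e1, e2]
    rcases e i a j b with rfl | ⟨k, l', e⟩
    · exact .inl (h.sq _)
    have := h.rel l e
    rw [h.pr3 a b l', mul_eq_one_iff_eq_inv, h.toMd.inv] at this
    exact this ▸ ph_or _
  · rintro x _ (rfl | ⟨y, rfl⟩)
    exacts [.inl (map_one _), .inr ⟨x * y, act_mul _ _ _⟩]
  · refine (Nat.card_le_card_of_surjective (α := Option (Fin N)) (fun i => ⟨i.elim 1 fun i => pk ρ R K w i, by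
      cases i; exacts [.inl rfl, ph_or _]⟩) ?_).trans (by simp)
    rintro ⟨_, rfl | ⟨x, rfl⟩⟩
    · exact ⟨none, rfl⟩
    obtain ⟨i, a, e1⟩ := c' x
    exact ⟨some ⟨i, a⟩, Subtype.ext e1.symm⟩

/-- a relation between the conjugates of a product -/
theorem dual {κ' : Type*} {R' : X → κ' → κ' → Prop} {K' : ℕ → κ'} {S1 S2 Ta Tc : ℕ}
    (h' : Cy ρ R' K' (pr (pk ρ R K w) m N) g1 g2 S1 S2 n p) (ta : Tb (R x) K Ta N) (tc : Tb (R y) K Tc N) (a : i < n) (b : j < n)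
    (ra : R' x (K' 0) (K' i)) (rb : R' y (K' 0) (K' j)) (e : red (bs T1 T2 N p []) (m ^^^ im Ta m N ^^^ im Tc m N) = 0) :
    pr (pk ρ R' K' (pr (pk ρ R K w) m N)) (2 ^ 0 ^^^ 2 ^ i ^^^ 2 ^ j) n = 1 := by
  rw [h.pr3 (by omega) a b, ← h'.act ra, ← h'.act rb, h'.p0, ← h.pim (h.tb ta), ← h.pim (h.tb tc), ← h.xor, ← h.xor]
  exact h.rel (by simp) e

end Cy

theorem fix_pow (e : ρ g w = w) (i : ℕ) : ρ (g ^ i) w = w := by
  induction i with
  | zero => simp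
  | succ i k => rw [pow_succ, act_mul, e, k]

/-- a fixed point of a `2`-subgroup -/
theorem Md.fix [Finite V] (h : Md ρ) (n : v ≠ 1) (r : Rl R) (r1 : R 1 k0 k0) (q : ∀ x, R x k0 k0 → x ^ 4 = 1) :
    ∃ w ≠ 1, ∀ x, R x k0 k0 → ρ x w = w := by
  let H : Subgroup X := ⟨⟨⟨{x | R x k0 k0}, fun a b => r.mul _ _ _ _ _ b a⟩, r1⟩, r.inv _ _ _⟩
  letI := MulAction.compHom V (ρ.comp H.subtype)
  obtain ⟨w, m, e⟩ := IsPGroup.exists_fixed_point_of_prime_dvd_card_of_fixed_point (p := 2) (G := H)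
    (fun x => ⟨2, Subtype.ext (q x x.2)⟩) V ((orderOf_eq_prime ((pow_two v).trans (h.sq v)) n) ▸ orderOf_dvd_natCard v)
    (a := 1) fun x => map_one (ρ x.1)
  exact ⟨w, e.symm, fun x k => m ⟨x, k⟩⟩

variable {G Γ : Type*} [Group G] [Finite G] [Group Γ] {E M Q : Subgroup G}

/-- the module attached to a normal elementary abelian section -/
theorem exMd (h : W8 G) (ι : Γ →* G) (f : Γ →* X) (s : Function.Surjective f) (k : ∀ g, ι g = 1 → f g = 1)
    (a : IsElementaryAbelian 2 E) (n : ∀ g, ι g ∈ 𝐍(E)) (c : ∀ g, f g = 1 → ι g ∈ 𝐂(E)) :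
    ∃ ρ : X →* MulAut E, Md ρ ∧ ∀ g (v : E), (ρ (f g) v : G) = ι g * v * (ι g)⁻¹ := by
  let α : Γ →* MulAut E := E.normalizerMonoidHom.comp (ι.codRestrict _ n)
  have e : ∀ g, f.liftOfSurjective s ⟨α, fun g m => MulEquiv.ext fun v => Subtype.ext
      (mul_inv_eq_iff_eq_mul.2 (c g m v v.2).symm)⟩ (f g) = α g := fun g => MonoidHom.liftOfRightInverse_comp_apply ..
  refine ⟨_, ⟨fun v => Subtype.ext ((pow_two _).symm.trans (a.2 v v.2)), fun x o v q => ?_⟩, fun g v => by rw [e]; rfl⟩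
  obtain ⟨g, rfl⟩ := s x
  have o' : P57 (ι g) := by
    unfold P57 at *
    rwa [h.eq_of_dvd (orderOf_dvd_of_pow_eq_one (by rw [← map_pow, k _ (by rw [map_pow, pow_orderOf_eq_one])]))
      (o.elim (·.ge) fun e => by omega)]
  rw [e] at q
  exact Subtype.ext (h.fix o' (o'.nd2 (isElemAb_isPGroup a)) v.2 (mul_inv_eq_iff_eq_mul.1 (congrArg Subtype.val q)))

theorem _root_.CF.W8.Ex.md {f : M →* X} (e : Ex M Q f) (h : W8 G) (a : IsElementaryAbelian 2 E) (n : M ≤ 𝐍(E)) (c : Q ≤ 𝐂(E)) :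
    ∃ ρ : X →* MulAut E, Md ρ ∧ ∀ (g : M) (v : E), (ρ (f g) v : G) = g * v * (g : G)⁻¹ :=
  exMd h M.subtype f e.sj (fun g k => by rw [show g = 1 from Subtype.ext k, map_one]) a (fun g => n g.2)
    fun g k => c ((e.mem g).1 k)

/-- from submodules to subgroups -/
theorem lift {f : M →* X} (e : Ex M Q f) (h : W8 G) (a : IsElementaryAbelian 2 E) {ρ : X →* MulAut E}
    (r : ∀ (g : M) (v : E), (ρ (f g) v : G) = g * v * (g : G)⁻¹) {U : Subgroup E} (iv : ∀ x, ∀ u ∈ U, ρ x u ∈ U) {z : E}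
    (m : z ∈ U) (z1 : z ≠ 1) (o : orderOf x = p) (c : p = 5 ∧ N = 15 ∨ p = 7 ∧ N = 7) (l : Nat.card U ≤ N + 1) :
    M ≤ 𝐍(U.map E.subtype) ∧ Nat.card (U.map E.subtype) = N + 1 := by
  have n : M ≤ 𝐍(U.map E.subtype) := le_normalizer_iff_cj.2 fun g hg => cj_le_iff_forall.2 (by
    rintro _ ⟨u, m, rfl⟩; exact ⟨_, iv (f ⟨g, hg⟩) u m, r _ _⟩)
  obtain ⟨g, rfl⟩ := e.sj x
  have o' : P57 (f g) := by rw [P57, o]; tauto
  have q := (isElemAb_isPGroup a).to_le (map_subtype_le U)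
  obtain ⟨d, e1⟩ := h.mod (e.p57 h o') ((e.p57 h o').nd2 q) (n g.2)
  obtain ⟨k, e2⟩ := q.exists_card_eq
  rw [orderOf_coe, (h.sub M).ord_map f (by omega), o] at e1
  have : Nat.card U ≠ 1 := fun k => z1 (mem_bot.1 (card_eq_one.1 k ▸ m))
  rw [← card_map_of_injective E.subtype_injective] at l this
  refine ⟨n, ?_⟩
  have : k < 5 := (Nat.pow_lt_pow_iff_right (a := 2) (by decide)).1 (by omega)
  rcases c with ⟨rfl, rfl⟩ | ⟨rfl, rfl⟩ <;> interval_cases k <;> simp only [Nat.reducePow] at e2 <;> omega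

/-- the relation for permutations -/
def Rp {n : ℕ} (σ : Equiv.Perm (Fin n)) (k k' : Fin n → Fin n) : Prop := ∀ j, σ (k j) = k' (σ j)
instance {n : ℕ} (σ : Equiv.Perm (Fin n)) : DecidableRel (Rp σ) := fun _ _ => inferInstanceAs (Decidable (∀ _, _))
theorem rlp (θ : X →* Equiv.Perm (Fin n)) : Rl fun x => Rp (θ x) :=
  ⟨fun x y _ _ _ a b j => by rw [map_mul, Equiv.Perm.mul_apply, a, b]; rfl, fun x _ _ a j => by
    rw [map_inv, Equiv.Perm.inv_eq_iff_eq, a]; simp⟩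
/-- a table of functions -/
def kf (n : ℕ) [NeZero n] (T i : ℕ) (j : Fin n) : Fin n := Fin.ofNat n (T / 10 ^ (6 * i + j) % 10)
theorem rp_iff {σ t : Equiv.Perm (Fin n)} : Rp σ t t ↔ σ * t = t * σ := (Equiv.ext_iff (f := σ * t) (g := t * σ)).symm

end CF.W8.Ct
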