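import Cfsg.Agent.W8.C1

/-! Modules for `A₅`, `S₅`, `A₆` and `L₃(2)` over the field with two elements. -/

set_option autoImplicit false
set_option linter.unusedSectionVars false
set_option maxRecDepth 100000

namespace CF.W8.Ct

open Subgroup Cfsg CF.Loc CF.W7 Equiv.Perm Matrix
open scoped MatrixGroups

variable {V : Type*} [Group V] {u v w z : V} {n : ℕ}

/-- the relation for even permutations -/
abbrev Ra (n : ℕ) (x : alternatingGroup (Fin n)) := Rp x.1
theorem rla : Rl (Ra n) := rlp (alternatingGroup (Fin n)).subtype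
theorem ord5 {X : Type*} [Group X] {x : X} (a : x ^ 5 = 1) (b : x ≠ 1) : orderOf x = 5 :=
  haveI : Fact (Nat.Prime 5) := ⟨Nat.prime_five⟩
  orderOf_eq_prime a b

/-- a table -/
def taK : ℕ := 10243001234034201013042020413002314034012003124021430012340034120023401041032040123042301
@[inherit_doc taK] def ta1 : ℕ := 60504031314121109100807000201
@[inherit_doc taK] def ta2 : ℕ := 110307021412130010080901060504
/-- a table -/
def tbK : ℕ := 23410042310043012041230043120013240043201040213003214034210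
@[inherit_doc tbK] def tb1 : ℕ := 8090704050603010200
@[inherit_doc tbK] def tb2 : ℕ := 2000609080705040301
@[inherit_doc tbK] def tb3 : ℕ := 1020308070905060400

theorem mL {ρ : A5 →* MulAut V} (h : Md ρ) (c : ∀ x : A5, x.1 4 = 4 → x * x = 1 → ρ x w = w) {y s t : A5}
    (hy : y.1 = c[0, 1, 2]) (s3 : w * ρ y w * ρ y (ρ y w) = 1) (hs : s.1 = c[0, 1] * c[3, 4]) (ht : t.1 4 = 4)
    (t2 : t * t = 1) : ρ t (ρ s w) * ρ s w ∈ closure {w, ρ y w} := by
  have k : Cy ρ (Ra 5) (kf 5 taK) w ⟨c[0, 1, 2], mem_alternatingGroup.2 (by decide)⟩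
      ⟨c[0, 1, 2, 3, 4], mem_alternatingGroup.2 (by decide)⟩ ta1 ta2 15 5 :=
    ⟨h, rla, fun x r => by
      have := (by decide +kernel : ∀ σ : Equiv.Perm (Fin 5), Rp σ (kf 5 taK 0) (kf 5 taK 0) → sign σ = 1 → σ 4 = 4 ∧ σ * σ = 1)
        x.1 r x.2
      exact c x this.1 (Subtype.ext this.2), fun _ => rfl, by decide +kernel, by decide +kernel,
      ord5 (by decide +kernel) (by decide +kernel), .inl rfl⟩
  have e1 := k.act (g := y) (i := 0) (j := 1) (by rw [Ra, hy]; decide +kernel)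
  have e2 := k.act (g := y) (i := 1) (j := 2) (by rw [Ra, hy]; decide +kernel)
  have e3 := k.act (g := s) (i := 0) (j := 3) (by rw [Ra, hs]; decide +kernel)
  rw [k.p0] at e1 e3
  obtain ⟨i, li, r, m, lm, e⟩ := (by decide +kernel : ∀ τ : Equiv.Perm (Fin 5), τ 4 = 4 → τ * τ = 1 → sign τ = 1 → ∃ i < 15,
    Rp τ (kf 5 taK 3) (kf 5 taK i) ∧ ∃ m ∈ [0, 2 ^ 0, 2 ^ 1, 2 ^ 0 ^^^ 2 ^ 1],
      red (bs ta1 ta2 15 5 [2 ^ 0 ^^^ 2 ^ 1 ^^^ 2 ^ 2]) (2 ^ i ^^^ 2 ^ 3 ^^^ m) = 0) t.1 ht (congrArg Subtype.val t2) t.2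
  have := k.rel (List.forall_mem_singleton.2 (by
    rw [h.pr3 (by decide) (by decide) (by decide), k.p0, ← e2, ← e1, s3])) e
  rw [h.xor, h.pr2 li (by decide), mul_eq_one_iff_eq_inv, h.inv] at this
  have a : w ∈ closure {w, ρ y w} := subset_closure (.inl rfl)
  have b : ρ y w ∈ closure {w, ρ y w} := subset_closure (.inr rfl)
  rw [e3, k.act r, this]
  simp only [List.mem_cons, List.not_mem_nil, or_false] at lm
  rcases lm with rfl | rfl | rfl | rfl
  · exact pr_zero (V := V) ▸ one_mem _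
  · rwa [pr_pow (by decide), k.p0]
  · rwa [pr_pow (by decide), ← e1]
  · rw [h.pr2 (by decide) (by decide), k.p0, ← e1]; exact mul_mem a b

theorem mS {ρ : S5 →* MulAut V} (h : Md ρ) (c : ∀ u, ρ c[0, 1, 2] u = u → ρ c[3, 4] u = u) {y : S5} (o : orderOf y = 3)
    (e : ρ y u = u) : u = 1 := by
  have k : ∀ w, ρ c[0, 1, 2] w = w → ρ c[0, 1] w = w → w = 1 := fun w a b => by
    have k : Cy ρ Rp (kf 5 tbK) w c[3, 4] c[0, 1, 2, 3, 4] tb1 tb2 10 5 := ⟨h, rlp (.id _), fun x r => by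
      obtain ⟨i, -, j, -, l, -, rfl⟩ := (by decide +kernel : ∀ σ : S5, Rp σ (kf 5 tbK 0) (kf 5 tbK 0) → ∃ i < 3, ∃ j < 2, ∃ l < 2,
        σ = c[0, 1, 2] ^ i * c[0, 1] ^ j * c[3, 4] ^ l) x r
      rw [act_mul, act_mul, fix_pow (c w a), fix_pow b, fix_pow a], fun _ => rfl, by decide +kernel, by decide +kernel,
      ord5 (by decide +kernel) (by decide +kernel), .inl rfl⟩
    refine k.one (L := (List.range 10).map fun i => orb tb3 (2 ^ i) 10 3 ^^^ im tb1 (orb tb3 (2 ^ i) 10 3) 10)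
      (List.forall_mem_map.2 fun i _ => ?_) (by decide) (by decide +kernel)
    rw [h.xor, h.pim (k.tb k.t1), c _ (h.porb (k.tb (g := c[0, 1, 2]) (by decide +kernel)) (by decide +kernel) _), h.sq]
  obtain ⟨τ, q⟩ := (by decide +kernel : ∀ σ : S5, σ ^ 3 = 1 → σ ≠ 1 → ∃ τ : S5, c[0, 1, 2] * τ = τ * σ) y
    (o ▸ pow_orderOf_eq_one y) (by rintro rfl; simp at o)
  have a : ρ c[0, 1, 2] (ρ τ u) = ρ τ u := by rw [← act_mul, q, act_mul, e]
  rw [← (ρ τ).map_eq_one_iff]
  generalize ρ τ u = v at a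
  have s : ρ c[0, 1] (ρ c[0, 1] v) = v := by rw [← act_mul, show (c[0, 1] * c[0, 1] : S5) = 1 by decide +kernel]; simp
  have := k (v * ρ c[0, 1] v) (by
    rw [map_mul, a, ← act_mul, show (c[0, 1, 2] * c[0, 1] : S5) = c[0, 1] * c[0, 1, 2] ^ 2 by decide +kernel, act_mul,
      fix_pow a]) (by rw [map_mul, s, h.cm])
  exact k v a (by rw [eq_inv_of_mul_eq_one_right this, h.inv])

/-- a table -/
def tcK : ℕ := 345012042315523401513042345120503124241530041235325410345201213540123450043125240513140253203514521430013245315240023415512340534120234510103254451230243501142350453012034215510243305214501234534201134250450213143052453120502314520413534012452310453201540123541032542301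
@[inherit_doc tcK] def tc1 : ℕ := 353039424441431814402529093738270733362106051634043231031128262423222019171513121008010002
@[inherit_doc tcK] def tc2 : ℕ := 151244312443284226413840001339373619343522042032330123300329272517082102181614101109070605
/-- a table -/
def tdK : ℕ := 513240345210503214534210540213523410543201542310543012541230043215543120243510143250453210
@[inherit_doc tdK] def td1 : ℕ := 91314110512031008070106040200
@[inherit_doc tdK] def td2 : ℕ := 21404001213061110090807050301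
/-- a table -/
def teK : ℕ := 325401315042012345021435305124201534034125210543120453234501102354451032134052450123452301
@[inherit_doc teK] def te1 : ℕ := 101406041312021109080700050301
@[inherit_doc teK] def te2 : ℕ := 130705141211000910030806010402
/-- a table -/
def tfK : ℕ := 312504435102412053420531301452025143032451421503401325231045320145302541215304410352402135031542204153130524105432354102321054014532015423435021230154124305152043250431024351310425205341132405051324214035125034052134104523251403150342354021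
@[inherit_doc tfK] def tf1 : ℕ := 29383631392122253733351034322608183027202814051624231207031917151311090106040200
@[inherit_doc tfK] def tf2 : ℕ := 30371535343938191136282406233332043117132902272625002221200918161412100807050301
/-- a generator -/
def a6a : A6 := ⟨c[0, 1, 2], mem_alternatingGroup.2 (by decide)⟩
@[inherit_doc a6a] def a6b : A6 := ⟨c[1, 2, 3, 4, 5], mem_alternatingGroup.2 (by decide)⟩
theorem o6 : orderOf a6b = 5 := ord5 (by decide +kernel) (by decide +kernel)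

theorem mB {ρ : A6 →* MulAut V} (h : Md ρ)
    (c : ∀ x : A6, x.1 * (c[0, 1, 2] * c[3, 4, 5]) = c[0, 1, 2] * c[3, 4, 5] * x.1 → ρ x w = w) : w = 1 :=
  Cy.one (R := Ra 6) (K := kf 6 tfK) (g1 := a6a) (T1 := tf1) (T2 := tf2) (N := 40) (L := []) ⟨h, rla, fun x r => c x (rp_iff.1
    ((by decide +kernel : kf 6 tfK 0 = (c[0, 1, 2] * c[3, 4, 5] : Equiv.Perm (Fin 6))) ▸ r)), fun _ => rfl, by decide +kernel,
      by decide +kernel, o6, .inl rfl⟩ (by simp) (by decide) (by decide +kernel)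

theorem m6 [Finite V] {ρ : A6 →* MulAut V} (h : Md ρ) (n : v ≠ 1) : ∃ z ≠ 1, ∃ t : Equiv.Perm (Fin 6),
    (t = c[4, 5] ∨ t = c[0, 1] * c[2, 3] * c[4, 5]) ∧ (∀ x : A6, x.1 * t = t * x.1 → ρ x z = z) ∧ ∃ U : Subgroup V,
      z ∈ U ∧ (∀ x, ∀ u ∈ U, ρ x u ∈ U) ∧ Nat.card U ≤ 15 + 1 ∧ ∀ u ∈ U, u ≠ 1 → ∃ x, ρ x z = u := by
  obtain ⟨w, w1, hw⟩ := h.fix n rla (k0 := kf 6 tcK 0) (fun _ => rfl) fun x r => Subtype.ext
    ((by decide +kernel : ∀ σ : Equiv.Perm (Fin 6), Rp σ (kf 6 tcK 0) (kf 6 tcK 0) → σ ^ 4 = 1) x.1 r)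
  have k : Cy ρ (Ra 6) (kf 6 tcK) w a6a a6b tc1 tc2 45 5 :=
    ⟨h, rla, hw, fun _ => rfl, by decide +kernel, by decide +kernel, o6, .inl rfl⟩
  by_cases z1 : pr (pk ρ (Ra 6) (kf 6 tcK) w) (2 ^ 0 ^^^ 2 ^ 1 ^^^ 2 ^ 2) 45 = 1
  swap
  · have k' : Cy ρ (Ra 6) (kf 6 tdK) _ a6a a6b td1 td2 15 5 := ⟨h, rla, fun x r => k.inv3 (i := 0) (j := 1) (k := 2)
      (by decide) (by decide) (by decide) (by revert r; unfold Ra; generalize x.1 = σ; revert σ; decide +kernel),
      fun _ => rfl, by decide +kernel, by decide +kernel, o6, .inl rfl⟩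
    exact ⟨_, z1, _, .inl rfl, fun x c => k'.hw x ((by decide +kernel : (c[4, 5] : Equiv.Perm (Fin 6)) = kf 6 tdK 0) ▸
      rp_iff.2 c), k'.sub (L := []) (by simp) (fun x => by unfold Ra; generalize x.1 = σ; revert σ; decide +kernel)
        (by decide +kernel)⟩
  by_cases z2 : pr (pk ρ (Ra 6) (kf 6 tcK) w) (2 ^ 0 ^^^ 2 ^ 3 ^^^ 2 ^ 4) 45 = 1
  · exact (w1 (k.one (L := [_, _]) (List.forall_mem_cons.2 ⟨z1, List.forall_mem_singleton.2 z2⟩) (by decide)
      (by decide +kernel))).elim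
  have k' : Cy ρ (Ra 6) (kf 6 teK) _ a6a a6b te1 te2 15 5 := ⟨h, rla, fun x r => k.inv3 (i := 0) (j := 3) (k := 4)
    (by decide) (by decide) (by decide) (by revert r; unfold Ra; generalize x.1 = σ; revert σ; decide +kernel),
    fun _ => rfl, by decide +kernel, by decide +kernel, o6, .inl rfl⟩
  exact ⟨_, z2, _, .inr rfl, fun x c => k'.hw x ((by decide +kernel :
    (c[0, 1] * c[2, 3] * c[4, 5] : Equiv.Perm (Fin 6)) = kf 6 teK 0) ▸ rp_iff.2 c), k'.sub (L := []) (by simp)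
      (fun x => by unfold Ra; generalize x.1 = σ; revert σ; decide +kernel) (by decide +kernel)⟩

/-- a table -/
def tgK : ℕ := 110010011001010100010100111001111100011010110010100001011101001111001010110010001100101110111010001100001010101011001101010001100111001100011001100110101100110001100010111100010011100010101
@[inherit_doc tgK] def tg1 : ℕ := 201615141918170812060705131011090304020100
@[inherit_doc tgK] def tg2 : ℕ := 119200217181604151114130912100807060305
/-- a table -/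
def thK : ℕ := 101111110011100010001
@[inherit_doc thK] def th1 : ℕ := 6040501020300
@[inherit_doc thK] def th2 : ℕ := 60504030201
@[inherit_doc thK] def th3 : ℕ := 2010006050403
@[inherit_doc thK] def th4 : ℕ := 3020100060504
@[inherit_doc thK] def th5 : ℕ := 5040302010006
/-- a table -/
def tiK : ℕ := 10101110111011001100
@[inherit_doc tiK] def ti1 : ℕ := 6030405010200
@[inherit_doc tiK] def ti2 : ℕ := 60504030201
@[inherit_doc tiK] def ti3 : ℕ := 2010006050403
@[inherit_doc tiK] def ti4 : ℕ := 3020100060504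
@[inherit_doc tiK] def ti5 : ℕ := 5040302010006
@[inherit_doc tgK] def tj : ℕ := 1100011111011110110111101010101100100010011
/-- matrices -/
abbrev M3 := Matrix (Fin 3) (Fin 3) (ZMod 2)
/-- a table of matrices -/
def km (T i : ℕ) : M3 := Matrix.of fun a b => ((T / 10 ^ (9 * i + 3 * a + b) % 10 : ℕ) : ZMod 2)
/-- a table of vectors -/
def kv (T i : ℕ) (a : Fin 3) : ZMod 2 := ((T / 10 ^ (3 * i + a) % 10 : ℕ) : ZMod 2)
/-- some group elements -/
def gm (i : Fin 5) : L32 := ⟨km tj i, by rw [det_fin_three]; revert i; decide +kernel⟩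
/-- conjugation -/
def Rm (A k k' : M3) : Prop := ∀ a b, (A * k) a b = (k' * A) a b
/-- points -/
def Rv (A : M3) (k k' : Fin 3 → ZMod 2) : Prop := ∀ a, (A *ᵥ k) a = k' a
/-- lines -/
def Rw (A : M3) (k k' : Fin 3 → ZMod 2) : Prop := ∀ a, (k' ᵥ* A) a = k a
instance (A : M3) : DecidableRel (Rm A) := fun _ _ => inferInstanceAs (Decidable (∀ _ _, _))
instance (A : M3) : DecidableRel (Rv A) := fun _ _ => inferInstanceAs (Decidable (∀ _, _))
instance (A : M3) : DecidableRel (Rw A) := fun _ _ => inferInstanceAs (Decidable (∀ _, _))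
theorem iv3 (x : L32) : x⁻¹.1 * x.1 = 1 ∧ x.1 * x⁻¹.1 = 1 :=
  ⟨congrArg Subtype.val (inv_mul_cancel x), congrArg Subtype.val (mul_inv_cancel x)⟩
theorem rlm : Rl fun x : L32 => Rm x.1 :=
  ⟨fun x y k k' k'' a b => Matrix.ext_iff.2 (show y.1 * x.1 * k = k'' * (y.1 * x.1) by
    rw [mul_assoc, Matrix.ext a, ← mul_assoc, Matrix.ext b, mul_assoc]), fun x k k' a => Matrix.ext_iff.2 (by
      rw [← one_mul k, ← (iv3 x).1, mul_assoc _ x.1, Matrix.ext a, mul_assoc, mul_assoc, (iv3 x).2, mul_one])⟩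
theorem rlv : Rl fun x : L32 => Rv x.1 :=
  ⟨fun x y k k' k'' a b => funext_iff.1 (show (y.1 * x.1) *ᵥ k = k'' by rw [← mulVec_mulVec, funext a, funext b]),
    fun x k k' a => funext_iff.1 (by rw [← funext a, mulVec_mulVec, (iv3 x).1, one_mulVec])⟩
theorem rlw : Rl fun x : L32 => Rw x.1 :=
  ⟨fun x y k k' k'' a b => funext_iff.1 (show k'' ᵥ* (y.1 * x.1) = k by rw [← vecMul_vecMul, funext b, funext a]),
    fun x k k' a => funext_iff.1 (by rw [← funext a, vecMul_vecMul, (iv3 x).2, vecMul_one])⟩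
theorem all3 {p : M3 → Prop} (h : ∀ a b c d e f g i j : ZMod 2, a * e * j - a * f * i - b * d * j + b * f * g + c * d * i -
    c * e * g = 1 → p !![a, b, c; d, e, f; g, i, j]) (x : L32) : p x.1 :=
  eta_fin_three x.1 ▸ h _ _ _ _ _ _ _ _ _ ((det_fin_three _).symm.trans x.2)
theorem o7 : orderOf (gm 1) = 7 :=
  haveI : Fact (Nat.Prime 7) := ⟨by decide⟩
  orderOf_eq_prime (by decide +kernel) (by decide +kernel)

theorem m7 [Finite V] {ρ : L32 →* MulAut V} (h : Md ρ) (n : v ≠ 1) :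
    ∃ z ≠ 1, ∃ U : Subgroup V, z ∈ U ∧ (∀ x, ∀ u ∈ U, ρ x u ∈ U) ∧ Nat.card U ≤ 7 + 1 := by
  have c1 : ∀ z, (∀ x : L32, Rv x.1 (kv thK 0) (kv thK 0) → ρ x z = z) →
      Cy ρ (fun x => Rv x.1) (kv thK) z (gm 0) (gm 1) th1 th2 7 7 := fun z c =>
    ⟨h, rlv, c, by decide +kernel, by decide +kernel, by decide +kernel, o7, .inr rfl⟩
  have c2 : ∀ z, (∀ x : L32, Rw x.1 (kv tiK 0) (kv tiK 0) → ρ x z = z) →
      Cy ρ (fun x => Rw x.1) (kv tiK) z (gm 0) (gm 1) ti1 ti2 7 7 := fun z c =>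
    ⟨h, rlw, c, by decide +kernel, by decide +kernel, by decide +kernel, o7, .inr rfl⟩
  have s1 : ∀ z c, pr (pk ρ (fun x => Rv x.1) (kv thK) z) (2 ^ 0 ^^^ 2 ^ 1 ^^^ 2 ^ 3) 7 = 1 →
      ∃ U : Subgroup V, z ∈ U ∧ (∀ x, ∀ u ∈ U, ρ x u ∈ U) ∧ Nat.card U ≤ 7 + 1 := fun z c e =>
    ((c1 z c).sub (List.forall_mem_singleton.2 e) (all3 (p := fun A => ∃ i < 7, Rv A (kv thK 0) (kv thK i)) (by decide +kernel))
      (by decide +kernel)).imp fun _ k => ⟨k.1, k.2.1, k.2.2.1⟩
  have s2 : ∀ z c, pr (pk ρ (fun x => Rw x.1) (kv tiK) z) (2 ^ 0 ^^^ 2 ^ 4 ^^^ 2 ^ 6) 7 = 1 →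
      ∃ U : Subgroup V, z ∈ U ∧ (∀ x, ∀ u ∈ U, ρ x u ∈ U) ∧ Nat.card U ≤ 7 + 1 := fun z c e =>
    ((c2 z c).sub (List.forall_mem_singleton.2 e) (all3 (p := fun A => ∃ i < 7, Rw A (kv tiK 0) (kv tiK i)) (by decide +kernel))
      (by decide +kernel)).imp fun _ k => ⟨k.1, k.2.1, k.2.2.1⟩
  obtain ⟨w, w1, hw⟩ := h.fix n rlm (k0 := km tgK 0) (by decide +kernel) fun x r => Subtype.ext (by
    have := all3 (p := fun A => Rm A (km tgK 0) (km tgK 0) → A * A * (A * A) = 1) (by decide +kernel) x r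
    rwa [← pow_two, ← pow_two, ← pow_mul] at this)
  have k : Cy ρ (fun x => Rm x.1) (km tgK) w (gm 0) (gm 1) tg1 tg2 21 7 :=
    ⟨h, rlm, hw, by decide +kernel, by decide +kernel, by decide +kernel, o7, .inr rfl⟩
  by_cases z1 : pr (pk ρ (fun x => Rm x.1) (km tgK) w) (2 ^ 0 ^^^ 2 ^ 1 ^^^ 2 ^ 2) 21 = 1
  swap
  · have c := fun (x : L32) (r : Rv x.1 (kv thK 0) (kv thK 0)) => k.inv3 (by decide) (by decide)
      (by decide) (all3 (p := fun A => Rv A (kv thK 0) (kv thK 0) → P3 (Rm A) (km tgK) 0 1 2) (by decide +kernel) x r)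
    generalize pr (pk ρ (fun x => Rm x.1) (km tgK) w) _ 21 = z at z1 c
    by_cases u1 : pr (pk ρ (fun x => Rv x.1) (kv thK) z) (2 ^ 0 ^^^ 2 ^ 1 ^^^ 2 ^ 3) 7 = 1
    · exact ⟨z, z1, s1 z c u1⟩
    have c' := fun (x : L32) (r : Rw x.1 (kv tiK 0) (kv tiK 0)) => (c1 z c).inv3 (by decide)
      (by decide) (by decide) (all3 (p := fun A => Rw A (kv tiK 0) (kv tiK 0) → P3 (Rv A) (kv thK) 0 1 3) (by decide +kernel) x r)
    exact ⟨_, u1, s2 _ c' ((c1 z c).dual (c2 _ c') (x := gm 3) (y := gm 4) (Ta := th4) (Tc := th5) (by decide +kernel)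
      (by decide +kernel) (by decide) (by decide) (by decide +kernel) (by decide +kernel) (by decide +kernel))⟩
  by_cases z2 : pr (pk ρ (fun x => Rm x.1) (km tgK) w) (2 ^ 0 ^^^ 2 ^ 3 ^^^ 2 ^ 4) 21 = 1
  · exact (w1 (k.one (L := [_, _]) (List.forall_mem_cons.2 ⟨z1, List.forall_mem_singleton.2 z2⟩) (by decide)
      (by decide +kernel))).elim
  have c := fun (x : L32) (r : Rw x.1 (kv tiK 0) (kv tiK 0)) => k.inv3 (by decide) (by decide)
    (by decide) (all3 (p := fun A => Rw A (kv tiK 0) (kv tiK 0) → P3 (Rm A) (km tgK) 0 3 4) (by decide +kernel) x r)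
  generalize pr (pk ρ (fun x => Rm x.1) (km tgK) w) _ 21 = z at z2 c
  by_cases u1 : pr (pk ρ (fun x => Rw x.1) (kv tiK) z) (2 ^ 0 ^^^ 2 ^ 4 ^^^ 2 ^ 6) 7 = 1
  · exact ⟨z, z2, s2 z c u1⟩
  have c' := fun (x : L32) (r : Rv x.1 (kv thK 0) (kv thK 0)) => (c2 z c).inv3 (by decide)
    (by decide) (by decide) (all3 (p := fun A => Rv A (kv thK 0) (kv thK 0) → P3 (Rw A) (kv tiK) 0 4 6) (by decide +kernel) x r)
  exact ⟨_, u1, s1 _ c' ((c2 z c).dual (c1 _ c') (x := gm 1) (y := gm 2) (Ta := ti2) (Tc := ti3) (by decide +kernel)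
    (by decide +kernel) (by decide) (by decide) (by decide +kernel) (by decide +kernel) (by decide +kernel))⟩

end CF.W8.Ct
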