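import Cfsg.Agent.W8.C2

/-! Normal elementary abelian sections of groups with element orders at most `8`. -/

set_option autoImplicit false
set_option linter.unusedSectionVars false

namespace CF.W8

open Subgroup Cfsg CF.Loc CF.W7 Equiv.Perm Ct
open scoped commutatorElement MatrixGroups

universe u

variable {G : Type*} [Group G] [Finite G] {A D E K L M N Q R S T U V W X : Subgroup G} {a b c g u v w x y z : G}

theorem ml (h : W8 G) {f : M →* A5} (e : Ex M Q f) (nK : M ≤ 𝐍(K)) (lK : K ≤ Q) (hw : w ∈ Q) (w2 : w * w ∈ K)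
    (wc : ∀ a ∈ Q, ⁅a, w⁆ ∈ K) (c : ∀ g : M, (f g).1 4 = 4 → f g * f g = 1 → ⁅(g : G), w⁆ ∈ K) {y s t : M}
    (hy : (f y).1 = c[0, 1, 2]) (s3 : w * (y * w * (y : G)⁻¹) * ((y : G) ^ 2 * w * ((y : G) ^ 2)⁻¹) ∈ K)
    (hs : (f s).1 = c[0, 1] * c[3, 4]) (ht : (f t).1 4 = 4) (t2 : f t * f t = 1) :
    ⁅(t : G), s * w * (s : G)⁻¹⁆ ∈ K ⊔ closure {w, y * w * (y : G)⁻¹} := by
  haveI := normal_subgroupOf_of_le_normalizer nK
  let ι := QuotientGroup.mk' (K.subgroupOf M)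
  have sj : Function.Surjective ι := QuotientGroup.mk'_surjective _
  have k : ∀ g : M, ι g = 1 ↔ (g : G) ∈ K := fun g => QuotientGroup.eq_one_iff g
  haveI := f.normal_ker.map ι sj
  obtain ⟨ρ, m, r⟩ := exMd ((h.sub M).map sj) ι f e.sj (fun g q => (e.mem g).2 (lK ((k g).1 q)))
    (isElemAb_omegaOneCenter 2 (f.ker.map ι))
    (fun g => normalizer_le_normalizer_omegaOneCenter 2 _ (normalizer_eq_top (f.ker.map ι) ▸ mem_top _))
    fun g q => le_centralizer_omegaOneCenter 2 _ (mem_map_of_mem ι q)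
  let w' : M := ⟨w, e.l hw⟩
  have cm : ∀ g : M, ⁅(g : G), w⁆ ∈ K → ι g * ι w' * (ι g)⁻¹ = ι w' := fun g q => by
    rw [← mul_inv_eq_one, ← map_inv, ← map_inv, ← map_mul, ← map_mul, ← map_mul, k]; exact q
  let v : omegaOneCenter 2 (f.ker.map ι) := ⟨ι w', mem_omegaOneCenter.2 ⟨mem_map_of_mem ι ((e.mem w').2 hw), by
    rintro _ ⟨g, q, rfl⟩; exact mul_inv_eq_iff_eq_mul.1 (cm g (wc g ((e.mem g).1 q))), by
    rw [pow_two, ← map_mul, k]; exact w2⟩⟩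
  have := mem_map_of_mem (Subgroup.subtype _) (mL (w := v) m (fun x a b => by
    obtain ⟨g, rfl⟩ := e.sj x
    exact Subtype.ext ((r g v).trans (cm g (c g a b)))) hy (Subtype.ext (by
      rw [Subgroup.coe_mul, Subgroup.coe_mul, ← act_mul, ← map_mul, r, r, Subgroup.coe_one]
      change ι w' * (ι y * ι w' * _) * (_ * ι w' * _) = 1
      simp only [← map_mul, ← map_inv, k, ← pow_two]; exact s3)) hs ht t2)
  nth_rw 2 [← m.inv (ρ (f s) v)] at this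
  rw [MonoidHom.map_closure, Set.image_pair, subtype_apply, subtype_apply, subtype_apply, Subgroup.coe_mul, Subgroup.coe_inv,
    r, r, r] at this
  change ι t * (ι s * ι w' * _) * _ * (ι s * ι w' * _)⁻¹ ∈ closure {ι w', ι y * ι w' * _} at this
  simp only [← map_mul, ← map_inv] at this
  rw [← Set.image_pair, ← MonoidHom.map_closure] at this
  obtain ⟨u, mu, e1⟩ := this
  have m1 := mem_map_of_mem M.subtype mu
  rw [MonoidHom.map_closure, Set.image_pair] at m1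
  have m2 := (k _).1 (show ι (t * (s * w' * s⁻¹) * t⁻¹ * (s * w' * s⁻¹)⁻¹ * u⁻¹) = 1 by rw [map_mul, ← e1, map_inv, mul_inv_cancel])
  simpa [commutatorElement_def, w'] using mul_mem_sup m2 m1

theorem Ct.ms5 (n : ℕ) : ∀ (Γ : Type u) [Group Γ] [Finite Γ], Nat.card Γ = n → W8 Γ → ∀ f : Γ →* S5, Function.Surjective f →
    IsPGroup 2 f.ker → ∀ y : Γ, orderOf (f y) = 3 → ∀ v, f v = 1 → y * v = v * y → v = 1 := by
  induction n using Nat.strong_induction_on with | _ n ih => ?_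
  intro Γ _ _ cn h f sj q y o v fv c
  by_contra v1
  have nK : ∀ g, g ∈ 𝐍(f.ker) := fun g => normalizer_eq_top f.ker ▸ mem_top g
  have nE := fun g => normalizer_le_normalizer_omegaOneCenter 2 _ (nK g)
  have lE := omegaOneCenter_le 2 f.ker
  have aE := isElemAb_omegaOneCenter 2 f.ker
  have cE := le_centralizer_omegaOneCenter 2 f.ker
  have E0 := omegaOneCenter_ne_bot q fun k => v1 (mem_bot.1 (k ▸ fv : v ∈ ⊥))
  generalize omegaOneCenter 2 f.ker = E at *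
  haveI : E.Normal := normalizer_eq_top_iff.1 (eq_top_iff.2 fun g _ => nE g)
  have mv : v ∈ E := (QuotientGroup.eq_one_iff v).1 (ih _ (by
      rw [← cn, card_eq_card_quotient_mul_card_subgroup E]
      exact lt_mul_of_one_lt_right Nat.card_pos ((one_lt_card_iff_ne_bot E).2 E0)) (Γ ⧸ E) rfl
    (h.map (QuotientGroup.mk'_surjective E)) (QuotientGroup.lift E f lE) (fun x => (sj x).elim fun g e => ⟨g, e⟩)
    (QuotientGroup.ker_lift E f lE ▸ q.map _) y o v fv (by rw [← QuotientGroup.mk_mul, c]; rfl))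
  obtain ⟨ρ, m, r⟩ := exMd h (.id Γ) f sj (fun g k => by rw [show g = 1 from k, map_one]) aE nE fun g k => cE k
  refine v1 (congrArg Subtype.val (mS (u := ⟨v, mv⟩) m (fun u k => ?_) o
    (Subtype.ext ((r y _).trans (mul_inv_eq_iff_eq_mul.2 c)))))
  have e : Ex ⊤ f.ker (f.comp (⊤ : Subgroup Γ).subtype) := ⟨fun x => (sj x).elim fun g e => ⟨⟨g, trivial⟩, e⟩, rfl, q, le_top⟩
  obtain ⟨⟨y', _⟩, fy, o'⟩ := e.lift3 (t := c[0, 1, 2]) (orderOf_eq_prime (by decide) (by decide))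
  obtain ⟨g, fg⟩ := sj c[3, 4]
  replace fy : f y' = c[0, 1, 2] := fy
  obtain ⟨a, ma, ca⟩ := lift_c q o' (nK _) (nK g) (by rw [MonoidHom.mem_ker, map_commutatorElement, fg, fy]; decide)
  have fa : f (a * g) = c[3, 4] := by rw [map_mul, ma, fg, one_mul]
  have := h.cy_le o' (isElemAb_isPGroup aE) (((isPGroup_zpowers_of_orderOf (k := 1) (orderOf_eq_prime (x := (c[3, 4] : S5))
    (p := 2) (by decide) (by decide))).comap_of_ker_isPGroup f q).to_le (zpowers_le.2 (mem_comap.2 (by rw [fa]; exact mem_zpowers _)))) (nE _) ca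
    (mem_inf.2 ⟨u.2, by
      rw [centralizer_zpowers, mem_centralizer_singleton_iff, eq_comm, ← mul_inv_eq_iff_eq_mul]
      exact (r y' u).symm.trans (congrArg Subtype.val (fy ▸ k))⟩)
  exact Subtype.ext (fa ▸ (r _ u).trans (mul_inv_eq_iff_eq_mul.2 (mem_centralizer_singleton_iff.1 this).symm))

theorem ms5 (h : W8 G) {f : M →* S5} (e : Ex M Q f) (m : y ∈ M) (o : orderOf y = 3) : Q ⊓ 𝐂(zpowers y) = ⊥ :=
  eq_bot_iff.2 fun v hv => congrArg Subtype.val (Ct.ms5 _ M rfl (h.sub M) f e.sj e.pk ⟨y, m⟩ (orderOf_eq_prime (by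
    rw [← map_pow, show (⟨y, m⟩ : M) ^ 3 = 1 from Subtype.ext (o ▸ pow_orderOf_eq_one y), map_one]) fun k => by
      obtain ⟨n, q⟩ := orderOf_eq_pow_of_mem e.q ((e.mem _).1 k)
      exact absurd ((Nat.Prime.dvd_of_dvd_pow Nat.prime_three (o.symm.trans q).dvd)) (by decide))
    ⟨v, e.l hv.1⟩ ((e.mem _).2 hv.1) (Subtype.ext (hv.2 y (mem_zpowers y))))

theorem ma6 (h : W8 G) {f : M →* A6} (e : Ex M Q f) (a : IsElementaryAbelian 2 E) (e0 : E ≠ ⊥) (n : M ≤ 𝐍(E)) (c : Q ≤ 𝐂(E)) :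
    ∃ V ≤ E, M ≤ 𝐍(V) ∧ Nat.card V = 16 ∧ ∃ z ∈ V, z ≠ 1 ∧ (∀ v ∈ V, v ≠ 1 → ∃ g ∈ M, g * z * g⁻¹ = v) ∧
      ∃ t : Equiv.Perm (Fin 6), (t = c[4, 5] ∨ t = c[0, 1] * c[2, 3] * c[4, 5]) ∧
        ∀ g : M, (f g).1 * t = t * (f g).1 → g * z = z * g := by
  obtain ⟨ρ, m, r⟩ := e.md h a n c
  obtain ⟨v, v1⟩ := ne_bot_iff_exists_ne_one.1 e0
  obtain ⟨z, z1, t, ht, ct, U, zU, iv, l, tr⟩ := m6 m v1
  obtain ⟨n', c'⟩ := lift e h a r iv zU z1 o6 (.inl ⟨rfl, rfl⟩) l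
  refine ⟨_, map_subtype_le U, n', c', z, mem_map_of_mem _ zU, fun k => z1 (Subtype.ext k), ?_, t, ht, fun g k =>
    mul_inv_eq_iff_eq_mul.1 ((r g z).symm.trans (congrArg Subtype.val (ct _ k)))⟩
  rintro _ ⟨u, mu, rfl⟩ u1
  obtain ⟨x, rfl⟩ := tr u mu fun k => u1 (congrArg Subtype.val k)
  obtain ⟨g, rfl⟩ := e.sj x
  exact ⟨g, g.2, (r g z).symm⟩

theorem a6b (h : W8 G) {f : M →* A6} (e : Ex M Q f) (a : IsElementaryAbelian 2 E) (n : M ≤ 𝐍(E)) (c : Q ≤ 𝐂(E)) (hw : w ∈ E)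
    (k : ∀ g : M, (f g).1 * (c[0, 1, 2] * c[3, 4, 5]) = c[0, 1, 2] * c[3, 4, 5] * (f g).1 → g * w = w * g) : w = 1 := by
  obtain ⟨ρ, m, r⟩ := e.md h a n c
  refine congrArg Subtype.val (mB (w := ⟨w, hw⟩) m fun x q => ?_)
  obtain ⟨g, rfl⟩ := e.sj x
  exact Subtype.ext ((r g _).trans (mul_inv_eq_iff_eq_mul.2 (k g q)))

theorem ml3 (h : W8 G) {f : M →* L32} (e : Ex M Q f) (a : IsElementaryAbelian 2 E) (e0 : E ≠ ⊥) (n : M ≤ 𝐍(E)) (c : Q ≤ 𝐂(E)) :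
    ∃ V ≤ E, M ≤ 𝐍(V) ∧ Nat.card V = 8 := by
  obtain ⟨ρ, m, r⟩ := e.md h a n c
  obtain ⟨v, v1⟩ := ne_bot_iff_exists_ne_one.1 e0
  obtain ⟨z, z1, U, zU, iv, l⟩ := m7 m v1
  exact ⟨_, map_subtype_le U, lift e h a r iv zU z1 o7 (.inr ⟨rfl, rfl⟩) l⟩

end CF.W8
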