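import Cfsg.Agent.W8.L1
import Cfsg.Agent.Bt.Xc

/-! Consequences of the list of types. -/

set_option autoImplicit false
set_option linter.unusedSectionVars false

namespace CF.W8

open Subgroup Cfsg CF.Loc CF.W7 Equiv.Perm
open scoped commutatorElement MatrixGroups Matrix

variable {G : Type*} [Group G] [Finite G] {A B D E F K L M N P Q R S T U V W : Subgroup G} {a b c g k r t u v w x y z : G}

/-- dihedral Sylow `2`-subgroups of order `8` -/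
structure D8 (g r : G) : Prop where
  c : ∃ m, Nat.card G = m * 8 ∧ ¬ 2 ∣ m
  g4 : (g * g) * (g * g) = 1
  g2 : g * g ≠ 1
  r2 : r * r = 1
  rg : r * g * r⁻¹ = g⁻¹
  cen : ∀ x, x * (g * g) = g * g * x → x ^ 4 = 1
  z : ∀ x, x * g = g * x → x * r = r * x → x = 1 ∨ x = g * g

namespace D8
variable (d : D8 g r)
include d

theorem mg : g ∈ centralizer {g * g} := mem_centralizer_singleton_iff.2 (mul_assoc g g g).symm

theorem mr : r ∈ centralizer {g * g} := mem_centralizer_singleton_iff.2 (mul_inv_eq_iff_eq_mul.1 (by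
  rw [← conj_mul, d.rg, ← mul_inv_rev, inv_eq_of_mul_eq_one_right d.g4]))

theorem le8 (p : IsPGroup 2 A) : Nat.card A ∣ 8 := by
  obtain ⟨m, e, o⟩ := d.c
  obtain ⟨k, e'⟩ := p.exists_card_eq
  exact (e' ▸ ((Nat.Prime.coprime_iff_not_dvd Nat.prime_two).2 o).pow_left k).dvd_of_dvd_mul_left (e ▸ card_subgroup_dvd_card A)

theorem syl8 (p : IsPGroup 2 A) (c : 8 ≤ Nat.card A) : IsSyl 2 A ⊤ :=
  let ⟨_, s⟩ := exists_isSyl 2 (⊤ : Subgroup G)
  s.of_card_le p le_top ((Nat.le_of_dvd (by decide) (d.le8 s.isPGroup)).trans c)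

theorem syl : IsSyl 2 (centralizer {g * g}) ⊤ := by
  refine d.syl8 (isPGroup_iff_forall.2 fun x hx => ⟨2, d.cen x (mem_centralizer_singleton_iff.1 hx)⟩)
    (le_of_eq_of_le ?_ (card_le_card_of_le (sup_le (zpowers_le.2 d.mg) (zpowers_le.2 d.mr))))
  rw [card_sup_z (cj_eq_self_iff.1 (by rw [cj_zpowers, d.rg, zpowers_inv])) (fun k => d.g2 (by
    rw [← eq_inv_iff_mul_eq_one, ← d.rg, (le_centralizer _ k g (mem_zpowers g)).symm, mul_inv_cancel_right])) (d.r2 ▸ one_mem _),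
    Nat.card_zpowers, orderOf_eq_prime_pow (p := 2) (n := 1) (by rw [pow_one, pow_two]; exact d.g2)
      (by rw [show 2 ^ (1 + 1) = 2 * 2 from rfl, pow_mul, pow_two, pow_two, d.g4])]
  rfl

theorem zc (m : x ∈ 𝐂(centralizer {g * g})) (x1 : x ≠ 1) : x = g * g := (d.z x (m g d.mg).symm (m r d.mr).symm).resolve_left x1

theorem ea (e : IsElementaryAbelian 2 A) : Nat.card A ≤ 4 := by_contra fun k => by
  have c := d.le8 (isElemAb_isPGroup e)
  obtain ⟨u, -, l⟩ := (d.syl8 (isElemAb_isPGroup e) (by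
    obtain ⟨i, i3, e⟩ := (Nat.dvd_prime_pow Nat.prime_two (m := 3)).1 c
    interval_cases i <;> omega)).exists_cj_le (d.syl.isPGroup.to_le (zpowers_le.2 d.mg)) le_top
  exact d.g2 (conj_eq_one_iff.1 (conj_mul.symm.trans (sq_of e (l (conj_mem_cj u (mem_zpowers g))))))

theorem ny (t : IsSyl 2 T ⊤) (o : y ^ 3 = 1) (n : y ∈ 𝐍(T)) : y = 1 := by
  obtain ⟨u, -, rfl⟩ := d.syl.conj t
  rw [← cj_normalizer, mem_cj] at n
  have e := d.cen _ (mul_inv_eq_iff_eq_mul.1 (d.zc (conj_mem_of_mem_normalizer (normalizer_le_normalizer_centralizer _ n)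
    fun a ha => mem_centralizer_singleton_iff.1 ha) (mt conj_eq_one_iff.1 d.g2)))
  rw [← inv_inv u, inv_inv u⁻¹, conj_pow, conj_eq_one_iff, pow_succ, o, one_mul] at e
  exact e

theorem tf (t : IsSyl 2 T ⊤) (o : P57 (g * g * (k * (g * g) * k⁻¹))) (m : v ∈ 𝐂(T)) (v1 : v ≠ 1) : ∃ k, P57 (v * (k * v * k⁻¹)) := by
  obtain ⟨u, -, rfl⟩ := d.syl.conj t
  rw [← cj_centralizer, mem_cj] at m
  refine ⟨u * k * u⁻¹, ?_⟩
  have := o.conj u
  rw [← d.zc m (by simpa [mul_assoc, inv_mul_eq_one] using v1)] at this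
  convert this using 1
  group

end D8

theorem dS5 : D8 (c[0, 2, 1, 3] : S5) c[0, 1] :=
  ⟨⟨15, by rw [Nat.card_perm, Nat.card_fin]; rfl, by decide⟩, by decide, by decide, by decide, by decide, by decide +kernel,
    by decide +kernel⟩

theorem dA6 : D8 (⟨c[0, 2, 1, 3] * c[4, 5], mem_alternatingGroup.2 (by decide)⟩ : A6) ⟨c[0, 1] * c[4, 5], mem_alternatingGroup.2 (by decide)⟩ :=
  ⟨⟨45, by rw [nat_card_alternatingGroup, Nat.card_fin]; rfl, by decide⟩, by decide +kernel, by decide +kernel,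
    by decide +kernel, by decide +kernel, by decide +kernel, by decide +kernel⟩

def lm (i : Fin 4) : L32 := ⟨![!![1, 1, 0; 0, 1, 1; 0, 0, 1], !![1, 1, 0; 0, 1, 0; 0, 0, 1], !![1, 0, 0; 0, 0, 1; 0, 1, 1],
  !![0, 1, 0; 1, 0, 0; 0, 0, 1]] i, by rw [Matrix.det_fin_three]; revert i; decide +kernel⟩

theorem dL : D8 (lm 0) (lm 1) :=
  ⟨⟨21, Bt.card_SL3, by decide⟩, by decide +kernel, by decide +kernel, by decide +kernel, by decide +kernel, by decide +kernel,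
    by decide +kernel⟩

def lP : Subgroup L32 where
  carrier := {x | x.1 *ᵥ ![1, 0, 0] = ![1, 0, 0]}
  one_mem' := Matrix.one_mulVec _
  mul_mem' := fun {a b} ha hb => show (a.1 * b.1) *ᵥ _ = _ by rw [← Matrix.mulVec_mulVec, hb, ha]
  inv_mem' := fun {a} ha => show a⁻¹.1 *ᵥ _ = _ by
    rw [← congrArg (a⁻¹.1 *ᵥ ·) ha, Matrix.mulVec_mulVec, ← Matrix.SpecialLinearGroup.coe_mul, inv_mul_cancel]
    exact Matrix.one_mulVec _

def lP' : Subgroup L32 where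
  carrier := {x | ![0, 0, 1] ᵥ* x.1 = ![0, 0, 1]}
  one_mem' := Matrix.vecMul_one _
  mul_mem' := fun {a b} ha hb => show _ ᵥ* (a.1 * b.1) = _ by rw [← Matrix.vecMul_vecMul, ha, hb]
  inv_mem' := fun {a} ha => show _ ᵥ* a⁻¹.1 = _ by
    rw [← congrArg (· ᵥ* a⁻¹.1) ha, Matrix.vecMul_vecMul, ← Matrix.SpecialLinearGroup.coe_mul, mul_inv_cancel]
    exact Matrix.vecMul_one _

theorem t23_of (k : ∀ x ∈ K, x ^ 12 = 1) : T23 K := .of fun x m o => by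
  have := orderOf_dvd_of_pow_eq_one (k x m)
  rcases o with o | o <;> rw [o] at this <;> omega

theorem par {T : Subgroup L32} (t : IsSyl 2 T ⊤) : ∃ P P' : Subgroup L32, T ≤ P ∧ T ≤ P' ∧ P ⊔ P' = ⊤ ∧ T23 P ∧ T23 P' := by
  obtain ⟨u, -, rfl⟩ := dL.syl.conj t
  have a : ∀ x : L32, x * (lm 0 * lm 0) = lm 0 * lm 0 * x → x.1 *ᵥ ![1, 0, 0] = ![1, 0, 0] ∧ ![0, 0, 1] ᵥ* x.1 = ![0, 0, 1] := by
    decide +kernel
  have b : ∀ x : L32, x.1 *ᵥ ![1, 0, 0] = ![1, 0, 0] ∨ ![0, 0, 1] ᵥ* x.1 = ![0, 0, 1] → x ^ 12 = 1 := by decide +kernel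
  have l : centralizer {lm 0 * lm 0} ≤ lP := fun x m => (a x (mem_centralizer_singleton_iff.1 m)).1
  have k : ∀ {P : Subgroup L32}, T23 P → T23 (cj[u] P) := fun t => by unfold T23 at *; rwa [card_cj]
  refine ⟨_, _, cj_mono u l, cj_mono u (K := lP') fun x m => (a x (mem_centralizer_singleton_iff.1 m)).2, ?_,
    k (t23_of fun x m => b x (.inl m)), k (t23_of fun x m => b x (.inr m))⟩
  have : Fact (Nat.Prime 7) := ⟨by decide⟩
  have m2 : lm 2 ∈ lP ⊔ lP' := mem_sup_left (show (lm 2).1 *ᵥ _ = _ by decide +kernel)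
  have e1 := card_dvd_of_le (l.trans (le_sup_left (b := lP')))
  have e2 := orderOf_dvd_natCard _ m2
  have e3 := orderOf_dvd_natCard _ (mul_mem m2 (mem_sup_right (show _ ᵥ* (lm 3).1 = _ by decide +kernel)))
  rw [orderOf_eq_prime (p := 3) (by decide +kernel) (by decide +kernel)] at e2
  rw [orderOf_eq_prime (p := 7) (by decide +kernel) (by decide +kernel)] at e3
  rw [dL.syl.card_eq, card_top, Bt.card_SL3, show Nat.factorization 168 2 = 3 by decide +kernel] at e1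
  have e4 := Nat.le_of_dvd Nat.card_pos (card_subgroup_dvd_card (lP ⊔ lP'))
  have : 0 < Nat.card ↥(lP ⊔ lP') := Nat.card_pos
  rw [← cj_sup, eq_top_of_card_eq (lP ⊔ lP') (by rw [Bt.card_SL3] at e4 ⊢; omega), cj_top]

theorem rel_dvd (l : D ≤ N) (l' : Q ≤ N) (n : N ≤ 𝐍(Q)) : Q.relIndex D ∣ Q.relIndex N := by
  rw [← relIndex_sup_of_le_normalizer (l.trans n), ← relIndex_mul_relIndex _ _ _ le_sup_left (sup_le l' l)]
  exact dvd_mul_right _ _

theorem le4 {n m : ℕ} (p : ∃ k, n = 2 ^ k) (d : n ∣ 4 * m) (o : ¬ 2 ∣ m) : n ≤ 4 :=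
  let ⟨k, e⟩ := p
  Nat.le_of_dvd (by decide) ((e ▸ ((Nat.Prime.coprime_iff_not_dvd Nat.prime_two).2 o).pow_left k).dvd_of_dvd_mul_right d)

namespace Ex
variable {Y : Type*} [Group Y] [Finite Y] {f : M →* Y} (e : Ex M Q f)
include e

theorem syl (t : IsSyl 2 T M) : IsSyl 2 ((T.subgroupOf M).map f) ⊤ :=
  map_top_of_surjective f e.sj ▸ (t.coe_toSylow ▸ isSyl_top t.toSylow).map f

theorem cen (hv : v ∈ M) (c : ∀ t ∈ T, ⁅t, v⁆ ∈ Q) : f ⟨v, hv⟩ ∈ 𝐂((T.subgroupOf M).map f) := by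
  rintro _ ⟨t, ht, rfl⟩
  exact commutatorElement_eq_one_iff_mul_comm.1 ((map_commutatorElement f _ _).symm.trans ((e.mem _).2 (c _ ht)))

theorem tf (h : W8 G) (hv : v ∈ M) (k : ∃ k, P57 (f ⟨v, hv⟩ * (k * f ⟨v, hv⟩ * k⁻¹))) : ∃ g ∈ M, P57 (v * (g * v * g⁻¹)) := by
  obtain ⟨k, o⟩ := k
  obtain ⟨g, rfl⟩ := e.sj k
  exact ⟨g, g.2, e.p57 h (g := ⟨v, hv⟩ * (g * ⟨v, hv⟩ * g⁻¹)) (by simpa only [map_mul, map_inv] using o)⟩

theorem t23 {H : Subgroup Y} (t : T23 H) : T23 (e.pre H) := .of fun x m o => by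
  have := Fact.mk o.pr
  have m' := e.pre_le H m
  refine t.not_mem (x := f ⟨x, m'⟩) ?_ ((e.mem_pre ⟨x, m'⟩).1 m)
  unfold P57
  rwa [orderOf_eq_prime (p := orderOf x) (by rw [← map_pow, show (⟨x, m'⟩ : M) ^ orderOf x = 1 from
    Subtype.ext (pow_orderOf_eq_one x), map_one]) fun k => o.nd2 e.q (orderOf_dvd_natCard _ ((e.mem _).1 k))]

theorem le_pre' {H : Subgroup Y} (l : T ≤ M) (k : (T.subgroupOf M).map f ≤ H) : T ≤ e.pre H := fun t ht =>
  (e.mem_pre ⟨t, l ht⟩).2 (k (mem_map_of_mem f ht))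

theorem pre_sup {H K : Subgroup Y} (k : H ⊔ K = ⊤) : e.pre H ⊔ e.pre K = M := by
  rw [pre, pre, ← Subgroup.map_sup, comap_sup_eq f H K e.sj, k, comap_top, ← MonoidHom.range_eq_map, range_subtype]

variable {g r : Y} (d : D8 g r)
include d

theorem r2 (l : A ≤ M) (a : IsElementaryAbelian 2 A) : Q.relIndex A ≤ 4 :=
  e.rel l ▸ d.ea (isElemAb_map f (isElemAb_subgroupOf a M))

theorem t3 (t : IsSyl 2 T M) (m : y ∈ M) (o : orderOf y = 3) : y ∉ 𝐍(T) := fun n =>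
  zp_ne o (le_bot_iff.1 ((le_inf le_rfl (zpowers_le.2 ((e.mem ⟨y, m⟩).1 (d.ny (e.syl t) (by
    rw [← map_pow, show (⟨y, m⟩ : M) ^ 3 = 1 from Subtype.ext (o ▸ pow_orderOf_eq_one y), map_one])
      (le_normalizer_map f (mem_map_of_mem f (subgroupOf_normalizer_eq t.le ▸ n))))))).trans
        (inf_eq_bot_of_ne (by decide) (p3 o) e.q).le))

theorem tf8 (h : W8 G) {k : Y} (o : P57 (g * g * (k * (g * g) * k⁻¹))) (t : IsSyl 2 T M) : Q.relIndex T ≤ 8 ∧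
    ∀ v ∈ T, v ∉ Q → v * v ∈ Q → (∀ t ∈ T, ⁅t, v⁆ ∈ Q) → ∃ g ∈ M, P57 (v * (g * v * g⁻¹)) :=
  ⟨e.rel t.le ▸ Nat.le_of_dvd (by decide) (d.le8 (e.syl t).isPGroup), fun _ hv v0 _ c =>
    e.tf h (t.le hv) (d.tf (e.syl t) o (e.cen _ c) (mt (e.mem _).1 v0))⟩

end Ex

theorem Ep.le4 (e : Ep N A5) (p : IsPGroup 2 D) (l : D ≤ N) : 𝐎[2](N).relIndex D ≤ 4 :=
  let ⟨_, e⟩ := e
  W8.le4 (m := 15) (relIndex_eq_pow_of_isPGroup p _) ((rel_dvd l e.l e.n).trans (by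
    rw [e.idx, nat_card_alternatingGroup, Nat.card_fin]; rfl)) (by decide)

theorem W8.frat (h : W8 G) (o : P57 x) (o2 : 𝐎[2](N) ≠ ⊥) (m : x ∈ N) (n : N ≤ 𝐍(𝐎[2](N) ⊔ zpowers x)) :
    𝐎[2](N) ⊔ (N ⊓ 𝐍(zpowers x)) = N := by
  have := Fact.mk o.pr
  have l := sup_le (pCoreOf_le 2 N) (zpowers_le.2 m)
  have e := ((h.syl o m (o.nd2 (isPGroup_pCoreOf 2 N)) o2 (le_normalizer_pCoreOf 2 N)).mono le_sup_right l).frattini_sup l n
  rwa [sup_assoc, sup_of_le_right (le_inf (zpowers_le.2 m) le_normalizer)] at e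

namespace Fr
variable (f : Fr N) (h : W8 G) (o2 : 𝐎[2](N) ≠ ⊥)
include f h o2

theorem le4 (p : IsPGroup 2 D) (l : D ≤ N) : 𝐎[2](N).relIndex D ≤ 4 := by
  obtain ⟨x, m, o, n, -⟩ := f
  have nQ := le_normalizer_pCoreOf 2 N
  have d := rel_dvd l (pCoreOf_le 2 N) nQ
  rw [← congrArg (relIndex _) (h.frat o o2 m n), relIndex_sup_of_le_normalizer (inf_le_left.trans nQ)] at d
  replace d := d.trans (relIndex_dvd_card _ _)
  obtain ⟨-, -, e⟩ := h.idx o (h.syl o m (o.nd2 (isPGroup_pCoreOf 2 N)) o2 nQ) m le_rfl le_normalizer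
  rw [← card_mul_relIndex (le_inf (zpowers_le.2 m) le_normalizer), Nat.card_zpowers] at d
  rw [relIndex_self, one_mul] at e
  replace d := d.trans (Nat.mul_dvd_mul_left _ e)
  exact W8.le4 (m := 105) (relIndex_eq_pow_of_isPGroup p _) (d.trans (o.elim (· ▸ by decide) (· ▸ by decide))) (by decide)

theorem sol : Group.IsSolvable N := by
  obtain ⟨x, m, o, n, -⟩ := f
  have := Fact.mk o.pr
  refine h.frat o o2 m n ▸ BG.Sol.sup' (isSolvable_of_isPGroup (isPGroup_pCoreOf 2 N)) (BG.Sol.mono (sol_of_der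
    (BG.Cyc.der_le_cent inferInstance le_rfl) (isSolvable_of_isPGroup (p := orderOf x) (isPGroup_iff_forall.2 fun g hg => ⟨1, ?_⟩)))
      inf_le_right) (inf_le_left.trans (le_normalizer_pCoreOf 2 N))
  by_cases d : orderOf x ∣ orderOf g
  · rw [pow_one, ← h.eq_of_dvd d o.five, pow_orderOf_eq_one]
  · rw [h.fix1 o (hg x (mem_zpowers x)) d, one_pow]

omit o2 in
theorem tf (hv : v ∈ N) (v0 : v ∉ 𝐎[2](N)) (v2 : v * v ∈ 𝐎[2](N)) : ∃ g ∈ N, P57 (v * (g * v * g⁻¹)) := by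
  obtain ⟨x, m, o, n, -⟩ := f
  have := Fact.mk o.pr
  have nQ := le_normalizer_pCoreOf 2 N
  have pQ := isPGroup_pCoreOf 2 N
  have e : v * (x * v * x⁻¹) = ⁅v, x⁆ * (x * (v * v) * x⁻¹) := by rw [commutatorElement_def]; group
  have m2 := conj_mem_of_mem_normalizer (nQ m) v2
  have e0 : v * (x * v * x⁻¹) ∉ 𝐎[2](N) := fun k => by
    have c : ⁅𝐎[2](N) ⊔ zpowers v, zpowers x⁆ ≤ 𝐎[2](N) := (le_secCent_iff.1 (zpowers_le.2 ⟨nQ m, fun a ha => swap_mem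
      ((sup_le (fun b hb => ⟨le_normalizer hb, commutator_le_right_of_le_normalizer nQ (commutator_mem_commutator m hb)⟩)
        (zpowers_le.2 ⟨nQ hv, swap_mem ((mul_mem_cancel_right m2).1 (e ▸ k))⟩) : _ ≤ sc x 𝐎[2](N)) ha).2⟩)).2
    obtain ⟨j, e1⟩ := isPGroup_iff_forall.1 pQ _ v2
    exact v0 (((h.comm o (o.nd2 (sup2 (isPGroup_zpowers (k := j + 1) (by rw [pow_succ', pow_mul, pow_two, e1])) (zpowers_le.2 hv)))
      (le_normalizer_of_commutator_le le_rfl (c.trans le_sup_left) (mem_zpowers x))).ge.trans c) (mem_sup_right (mem_zpowers v)))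
  obtain ⟨u, hu, s, hs, e1⟩ := (mem_sup_of_le_normalizer (zpowers_le.2 (nQ m))).1 (e ▸ mul_mem (commutator_le_right_of_le_normalizer n
    (commutator_mem_commutator hv (mem_sup_right (mem_zpowers x)))) (mem_sup_left m2))
  have os : orderOf s = orderOf x := orderOf_eq_prime (orderOf_dvd_iff_pow_eq_one.1 (orderOf_dvd_of_mem_zpowers hs))
    (by rintro rfl; exact e0 (e1 ▸ (mul_one u).symm ▸ hu))
  have o' : P57 s := by unfold P57; rwa [os]
  refine ⟨x, m, ?_⟩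
  unfold P57
  rwa [orderOf_eq_prime (p := orderOf x) (e1 ▸ os ▸ h.pow o' (o'.nd2 pQ) (nQ (zpowers_le.2 m hs)) hu) fun k => e0 (by rw [k]; exact one_mem _)]

end Fr

theorem tf_of (h : W8 G) (t : Ty G) : TF G := fun N T ch o2 s => by
  have : Fact (Nat.Prime 5) := ⟨Nat.prime_five⟩
  obtain k | k | k | ⟨f, e⟩ | ⟨f, e⟩ | ⟨f, e⟩ := t N ch o2
  · exact .inl ⟨N, N, s.le, s.le, sup_idem N, k, k⟩
  · exact .inr ⟨(k.le4 h o2 s.isPGroup s.le).trans (by decide), fun v hv v0 v2 _ => k.tf h (s.le hv) v0 v2⟩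
  · refine .inr ⟨(k.le4 s.isPGroup s.le).trans (by decide), fun v hv v0 v2 _ => ?_⟩
    obtain ⟨f, e⟩ := k
    have a : ∀ t : A5, t * t = 1 → t ≠ 1 → ∃ g : A5, (t * (g * t * g⁻¹)) ^ 5 = 1 ∧ t * (g * t * g⁻¹) ≠ 1 := by decide +kernel
    exact e.tf h (s.le hv) ((a _ ((map_mul f _ _).symm.trans ((e.mem _).2 v2)) (mt (e.mem _).1 v0)).imp fun _ k =>
      .inl (orderOf_eq_prime k.1 k.2))
  · exact .inr (e.tf8 dS5 h (k := c[0, 1, 2, 3, 4]) (.inl (orderOf_eq_prime (by decide +kernel) (by decide +kernel))) s)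
  · exact .inr (e.tf8 dA6 h (k := ⟨c[0, 1, 2, 3, 4], mem_alternatingGroup.2 (by decide)⟩)
      (.inl (orderOf_eq_prime (by decide +kernel) (by decide +kernel))) s)
  · obtain ⟨P, P', a, b, c, p, p'⟩ := par (e.syl s)
    exact .inl ⟨_, _, e.le_pre' s.le a, e.le_pre' s.le b, e.pre_sup c, e.t23 p, e.t23 p'⟩

theorem r2_of (h : W8 G) (g : GG G) (t : Ty G) : R2 G := fun N A ch o2 l a => by
  obtain k | k | k | ⟨f, e⟩ | ⟨f, e⟩ | ⟨f, e⟩ := t N ch o2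
  exacts [g.r4 N A k ch l a, k.le4 h o2 (isElemAb_isPGroup a) l, k.le4 (isElemAb_isPGroup a) l, e.r2 dS5 l a, e.r2 dA6 l a,
    e.r2 dL l a]

theorem t3_of (h : W8 G) (t : Ty G) : T3 G := fun N T y ch o2 s m o n => by
  obtain k | ⟨x, -, -, -, k⟩ | k | ⟨f, e⟩ | ⟨f, e⟩ | ⟨f, e⟩ := t N ch o2
  · exact .inl k
  · have nQ := le_normalizer_pCoreOf 2 N
    obtain ⟨_ | j, e⟩ := relIndex_eq_pow_of_isPGroup s.isPGroup 𝐎[2](N)
    · exact .inr (.inl (relIndex_eq_one.1 e))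
    refine (k (Nat.Coprime.mul_dvd_of_dvd_of_dvd (by decide : Nat.Coprime 2 3)
      (((dvd_pow_self 2 j.succ_ne_zero).trans e.symm.dvd).trans (rel_dvd s.le (pCoreOf_le 2 N) nQ))
      (Dvd.dvd.trans ?_ (rel_dvd (zpowers_le.2 m) (pCoreOf_le 2 N) nQ)))).elim
    have := card_inf_mul_relIndex 𝐎[2](N) (zpowers y)
    rw [inf_comm, inf_eq_bot_of_ne (by decide) (p3 o) (isPGroup_pCoreOf 2 N), card_bot, one_mul, c3 o] at this
    exact this.symm.dvd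
  · exact .inr (.inr k)
  exacts [(e.t3 dS5 s m o n).elim, (e.t3 dA6 s m o n).elim, (e.t3 dL s m o n).elim]

theorem ns_of (h : W8 G) (t : Ty G) (ch : IsCharP 2 N) (o : 𝐎[2](N) ≠ ⊥) (ns : ¬ Group.IsSolvable N) :
    Ep N A5 ∨ Ep N S5 ∨ Ep N A6 ∨ Ep N L32 :=
  ((t N ch o).resolve_left fun k => ns (h.sol k)).resolve_left fun k => ns (k.sol h o)

end CF.W8
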