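import Cfsg.Agent.W8.I

/-! `{2, 3}`-groups of characteristic `2` with element orders at most `8`: preliminaries. -/

set_option autoImplicit false
set_option linter.unusedSectionVars false

namespace CF.W8.G

open Subgroup Cfsg CF.Loc CF.W7
open scoped commutatorElement

variable {G : Type*} [Group G] [Finite G] {A B D E K L Q U V Y : Subgroup G} {a b c g t u v w x y z : G}

theorem mem3 (o : y ^ 3 = 1) (m : a ∈ zpowers y) : a = 1 ∨ a = y ∨ a = y⁻¹ := by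
  obtain ⟨k, rfl⟩ := m
  have e : y ^ k = y ^ (k % (3 : ℕ)) := zpow_eq_zpow_emod' k o
  have : k % (3 : ℕ) = 0 ∨ k % (3 : ℕ) = 1 ∨ k % (3 : ℕ) = 2 := by omega
  rcases this with k | k | k <;> rw [k] at e
  · exact .inl (e.trans (zpow_zero y))
  · exact .inr (.inl (e.trans (zpow_one y)))
  · refine .inr (.inr (e.trans (eq_inv_of_mul_eq_one_left ?_)))
    rw [← o, zpow_two, pow_three']

theorem z3 (o : y ^ 3 = 1) (m : a ∈ zpowers y) (n : a ≠ 1) : y ∈ zpowers a := by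
  rcases mem3 o m with rfl | rfl | rfl
  exacts [absurd rfl n, mem_zpowers _, zpowers_inv (g := y).symm ▸ mem_zpowers y]

theorem cube (o : orderOf y = 3) : y ^ 3 = 1 := o ▸ pow_orderOf_eq_one y

theorem ne1 (o : orderOf y = 3) : y ≠ 1 := mt zpowers_eq_bot.2 (zp_ne o)

theorem sq3 (o : y ^ 3 = 1) : y * y = y⁻¹ := eq_inv_of_mul_eq_one_left ((pow_three' y).symm.trans o)

theorem mem_of_sq (o : y ^ 3 = 1) (m : y * y ∈ K) : y ∈ K := K.inv_mem_iff.1 (sq3 o ▸ m)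

theorem mcz : g ∈ 𝐂(zpowers y) ↔ y * g = g * y := by
  rw [centralizer_zpowers, mem_centralizer_singleton_iff, eq_comm]

theorem ez {p : ℕ} (o : a ^ p = 1) : IsElementaryAbelian p (zpowers a) :=
  ⟨inferInstance, fun _ ⟨k, e⟩ => by rw [← e, ← zpow_natCast, ← zpow_mul, mul_comm, zpow_mul, zpow_natCast, o, one_zpow]⟩

theorem ez2 {p : ℕ} (oa : a ^ p = 1) (ob : b ^ p = 1) (c : a * b = b * a) : IsElementaryAbelian p (zpowers a ⊔ zpowers b) :=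
  isElemAb_sup (ez oa) (ez ob) (zpowers_le.2 (mcz.2 c.symm))

theorem gen9 (k : IsPGroup 2 K) (oa : orderOf a = 3) (ob : b ^ 3 = 1) (c : a * b = b * a) (n : b ∉ zpowers a) (na : a ∈ 𝐍(K))
    (nb : b ∈ 𝐍(K)) (hL : ∀ x ∈ zpowers a ⊔ zpowers b, orderOf x = 3 → K ⊓ 𝐂(zpowers x) ≤ L) : K ≤ L := by
  have e := ez2 (cube oa) ob c
  have := e.1
  refine Coprime.le_of_forall_centralizer_le (zpowers a ⊔ zpowers b) K (fun cy => n ?_)
    (sup_le (zpowers_le.2 na) (zpowers_le.2 nb)) (cop23 k (isElemAb_isPGroup e)).symm L fun x m x1 =>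
      centralizer_zpowers x ▸ hL x m (orderOf_eq_prime (e.2 x m) x1)
  obtain ⟨g, hg⟩ := BG.Cyc.exists_gen cy
  exact zpowers_le.2 (z3 (e.2 g (hg ▸ mem_zpowers g)) (hg ▸ mem_sup_left (mem_zpowers a)) (ne1 oa))
    (hg ▸ mem_sup_right (mem_zpowers b))

theorem gen4 (k : IsPGroup 2 K) (oa : orderOf a = 3) (ob : b ^ 3 = 1) (c : a * b = b * a) (n : b ∉ zpowers a) (na : a ∈ 𝐍(K))
    (nb : b ∈ 𝐍(K)) (h1 : K ⊓ 𝐂(zpowers a) ≤ L) (h2 : K ⊓ 𝐂(zpowers b) ≤ L) (h3 : K ⊓ 𝐂(zpowers (b * a)) ≤ L)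
    (h4 : K ⊓ 𝐂(zpowers (b⁻¹ * a)) ≤ L) : K ≤ L := by
  refine gen9 k oa ob c n na nb fun x m o => ?_
  obtain ⟨u, hu, v, hv, rfl⟩ := (mem_sup_of_le_normalizer' (zpowers_le.2 (centralizer_le_normalizer _ (mcz.2 c)))).1
    (sup_comm (zpowers a) _ ▸ m)
  have c' : Commute a b := c
  rcases mem3 ob hu with rfl | rfl | rfl <;> rcases mem3 (cube oa) hv with rfl | rfl | rfl
  · exact absurd (one_mul 1) (ne1 o)
  · rwa [one_mul]
  · rwa [one_mul, zpowers_inv]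
  · rwa [mul_one]
  · exact h3
  · rwa [← zpowers_inv, mul_inv_rev, inv_inv, c'.inv_right.eq]
  · rwa [mul_one, zpowers_inv]
  · exact h4
  · rwa [← mul_inv_rev, zpowers_inv, c]

theorem gen2 (k : IsPGroup 3 K) (e : IsElementaryAbelian 2 A) (n : ¬ IsCyclic A) (nA : A ≤ 𝐍(K))
    (hL : ∀ t ∈ A, t ≠ 1 → K ⊓ centralizer {t} ≤ L) : K ≤ L :=
  have := e.1
  Coprime.le_of_forall_centralizer_le A K n nA (cop23 (isElemAb_isPGroup e) k) L hL

theorem cyc_eq (e : IsElementaryAbelian 2 A) (cy : IsCyclic A) (ha : a ∈ A) (hb : b ∈ A) (a1 : a ≠ 1) (b1 : b ≠ 1) : a = b := by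
  obtain ⟨g, rfl⟩ := BG.Cyc.exists_gen cy
  have s := sq_of e (mem_zpowers g)
  rw [((mem_z s).1 ha).resolve_left a1, ((mem_z s).1 hb).resolve_left b1]

theorem cyc_le (e : IsElementaryAbelian 2 A) (cy : IsCyclic A) : Nat.card A ≤ 2 := by
  obtain ⟨g, rfl⟩ := BG.Cyc.exists_gen cy
  rw [Nat.card_zpowers]
  exact Nat.le_of_dvd two_pos (orderOf_dvd_of_pow_eq_one (e.2 g (mem_zpowers g)))

theorem e9 (h : W8 G) (p : IsPGroup 2 U) (z2 : z * z = 1) (l : ⁅U, U⁆ ≤ zpowers z) (oy : orderOf y = 3) (ob : orderOf b = 3)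
    (c : y * b = b * y) (n : b ∉ zpowers y) (ny : y ∈ 𝐍(U)) (nb : b ∈ 𝐍(U)) (yz : y * z = z * y) (bz : b * z = z * b) :
    U ≤ 𝐂(U) := by
  have e := ez2 (cube oy) (cube ob) c
  have nB : zpowers y ⊔ zpowers b ≤ 𝐍(U) := sup_le (zpowers_le.2 ny) (zpowers_le.2 nb)
  have cB : zpowers y ⊔ zpowers b ≤ 𝐂(zpowers z) := sup_le (zpowers_le.2 (mcz.2 yz.symm)) (zpowers_le.2 (mcz.2 bz.symm))
  have m : ∀ u ∈ U, ∀ w ∈ U, ⁅u, w⁆ ∈ zpowers z := fun u hu w hw => l (commutator_mem_commutator hu hw)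
  have cen : ∀ g ∈ U, ∀ u ∈ U, ∀ w ∈ U, g * ⁅u, w⁆ * g⁻¹ = ⁅u, w⁆ := fun g hg u hu w hw => by
    have k := m _ (conj_mem_of_mem_normalizer (le_normalizer hg) hu) _ (conj_mem_of_mem_normalizer (le_normalizer hg) hw)
    rw [← conjugate_commutatorElement] at k
    rcases (mem_z z2).1 (m u hu w hw) with e1 | e1
    · rw [e1, mul_one, mul_inv_cancel]
    · rcases (mem_z z2).1 k with e2 | e2
      · rw [e2, conj_eq_one_iff.1 e2]
      · rw [e2, e1]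
  have key : ∀ x ∈ zpowers y ⊔ zpowers b, ∀ β ∈ zpowers y ⊔ zpowers b, orderOf x = 3 → orderOf β = 3 →
      U ⊓ 𝐂(zpowers x) ≤ 𝐂(U ⊓ 𝐂(zpowers β)) := fun x hx β hβ ox oβ u hu w hw => by
    have n1 : β ∈ 𝐍(U ⊓ 𝐂(zpowers x)) := le_normalizer_inf nB
      ((isElemAb_le_centralizer e).trans ((centralizer_anti (zpowers_le.2 hx)).trans le_normalizer)) hβ
    have ex := isElemAb_le_centralizer (h.ea3 ox p.to_inf_left (inf_le_right : U ⊓ 𝐂(zpowers x) ≤ _))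
    have eβ := isElemAb_le_centralizer (h.ea3 oβ p.to_inf_left (inf_le_right : U ⊓ 𝐂(zpowers β) ≤ _))
    have h1 := conj_mem_of_mem_normalizer n1 hu
    have h2 := conj_mem_of_mem_normalizer n1 h1
    have f : ∀ v ∈ U, ⁅w, β * v * β⁻¹⁆ = ⁅w, v⁆ := fun v hv => by
      conv_lhs => rw [← conj_eq_of_mem_centralizer (mcz.2 (mcz.1 hw.2).symm) (mem_zpowers w), ← conjugate_commutatorElement]
      exact conj_eq_of_mem_centralizer (cB hβ) (m w hw.1 v hv)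
    have m' : u * (β * u * β⁻¹ * (β * (β * u * β⁻¹) * β⁻¹)) ∈ U ⊓ 𝐂(zpowers β) := by
      refine ⟨U.mul_mem hu.1 (U.mul_mem h1.1 h2.1), mcz.2 (mul_inv_eq_iff_eq_mul.1 ?_)⟩
      have e3 : β * (β * (β * u * β⁻¹) * β⁻¹) * β⁻¹ = u := by
        rw [show β * (β * (β * u * β⁻¹) * β⁻¹) * β⁻¹ = β ^ 3 * u * (β ^ 3)⁻¹ by simp only [pow_three, mul_inv_rev, mul_assoc], cube oβ, one_mul, inv_one, mul_one]
      rw [← conj_mul, ← conj_mul, e3, ← mul_assoc, ← ex (mul_mem h1 h2) u hu]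
    have e4 := commutatorElement_eq_one_iff_mul_comm.2 (eβ m' w hw)
    rw [comm_mul, comm_mul, f _ h1.1, f _ hu.1, cen _ h1.1 w hw.1 u hu.1, sq_of (ez ((pow_two z).trans z2)) (m w hw.1 u hu.1),
      mul_one, mul_inv_cancel, mul_one] at e4
    exact commutatorElement_eq_one_iff_mul_comm.1 e4
  have k2 : ∀ β ∈ zpowers y ⊔ zpowers b, orderOf β = 3 → U ⊓ 𝐂(zpowers β) ≤ 𝐂(U) := fun β hβ oβ =>
    le_centralizer_iff.1 (gen9 p oy (cube ob) c n ny nb fun x hx ox => key x hx β hβ ox oβ)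
  exact gen9 p oy (cube ob) c n ny nb k2

end CF.W8.G
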