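import Cfsg.Agent.W8.G1

/-! `{2, 3}`-groups of characteristic `2` with element orders at most `8`: the action on `O₃(H / O₂(H))`. -/

set_option autoImplicit false
set_option linter.unusedSectionVars false

namespace CF.W8.G

open Subgroup Cfsg CF.Loc CF.W7
open scoped commutatorElement

variable {G : Type*} [Group G] [Finite G] {D K L Q U Y : Subgroup G} {a b c g u v x y z : G}
variable {X : Type*} [Group X] [Finite X] {f : G →* X} {A F S : Subgroup X} {α β γ τ ω : X}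

/-- `f` induces `G / Y ≅ X`, `Y` is a self-centralizing `2`-group, `F` a self-centralizing normal `3`-subgroup -/
structure St (f : G →* X) (Y : Subgroup G) (F : Subgroup X) : Prop where
  w : W8 G
  sj : Function.Surjective f
  k : ∀ g, f g = 1 ↔ g ∈ Y
  p : IsPGroup 2 Y
  ch : 𝐂(Y) ≤ Y
  nF : F.Normal
  pF : IsPGroup 3 F
  cF : 𝐂(F) ≤ F

namespace St
variable (s : St f Y F)
include s

theorem nY (g : G) : g ∈ 𝐍(Y) := mem_normalizer_of_conj_mem fun y hy => (s.k _).1 (by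
  rw [map_mul, map_mul, (s.k y).2 hy, mul_one, map_inv, mul_inv_cancel])

theorem nA (τ : X) : τ ∈ 𝐍(F) := have := s.nF; le_normalizer_of_normal' ⊤ F trivial

theorem wX : W8 X := s.w.map s.sj

theorem pow4 (o : orderOf (f g) = 3) : orderOf (g ^ 4) = 3 ∧ f (g ^ 4) = f g := by
  have e : f (g ^ 4) = f g := by rw [map_pow, pow_succ, cube o, one_mul]
  refine ⟨orderOf_eq_prime ?_ fun k => ne1 o (by rw [← e, k, map_one]), e⟩
  obtain ⟨k, d⟩ : 3 ∣ orderOf g := o ▸ orderOf_map_dvd f g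
  have := s.w g
  have := orderOf_pos g
  rw [← pow_mul, ← orderOf_dvd_iff_pow_eq_one, d]
  obtain rfl | rfl : k = 1 ∨ k = 2 := by omega
  all_goals decide

theorem p2 (e : f c * f c = 1) : IsPGroup 2 (zpowers c) := by
  obtain ⟨k, e1⟩ := isPGroup_iff_forall.1 s.p (c ^ 2) ((s.k _).1 (by rw [pow_two, map_mul, e]))
  exact isPGroup_zpowers (k := k + 1) (by rw [pow_succ', pow_mul, e1])

theorem liftc (o : orderOf y = 3) (e : f y * τ = τ * f y) : ∃ t, f t = τ ∧ y * t = t * y := by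
  obtain ⟨g, rfl⟩ := s.sj τ
  obtain ⟨u, hu, e1⟩ := lift_c s.p o (s.nY y) (s.nY g) ((s.k _).1 (by
    rw [map_commutatorElement, commutatorElement_eq_one_iff_mul_comm, e]))
  exact ⟨u * g, by rw [map_mul, (s.k u).2 hu, one_mul], e1⟩

theorem lift3 (o : orderOf α = 3) : ∃ a, f a = α ∧ orderOf a = 3 := by
  obtain ⟨g, rfl⟩ := s.sj α
  exact ⟨g ^ 4, (s.pow4 o).2, (s.pow4 o).1⟩

theorem lift9 (oa : orderOf α = 3) (ob : orderOf β = 3) (e : α * β = β * α) :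
    ∃ a b, f a = α ∧ f b = β ∧ orderOf a = 3 ∧ orderOf b = 3 ∧ a * b = b * a := by
  obtain ⟨a, rfl, o⟩ := s.lift3 oa
  obtain ⟨b, rfl, e1⟩ := s.liftc o e
  exact ⟨a, b ^ 4, rfl, (s.pow4 ob).2, o, (s.pow4 ob).1, Commute.pow_right e1 4⟩

theorem kc (o : orderOf y = 3) (e : y * c = c * y) (k : f c * f c = 1) : c ∈ 𝐂(Y ⊓ 𝐂(zpowers y)) := fun _ hv =>
  mem_centralizer_singleton_iff.1 (s.w.cy_le o s.p (s.p2 k) (s.nY c) e hv)

theorem kn (e : y * g = g * y) : g ∈ 𝐍(Y ⊓ 𝐂(zpowers y)) :=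
  le_normalizer_inf (zpowers_le.2 (s.nY g)) ((zpowers_le.2 (mcz.2 e)).trans le_normalizer) (mem_zpowers g)

theorem ky (o : orderOf y = 3) : Y ⊓ 𝐂(zpowers y) ≤ 𝐂(Y ⊓ 𝐂(zpowers y)) :=
  isElemAb_le_centralizer (s.w.ea3 o s.p.to_inf_left inf_le_right)

theorem nm (n : f b ∉ zpowers (f a)) : b ∉ zpowers a := fun ⟨k, e⟩ => n ⟨k, by rw [← e, map_zpow]⟩

/-- no involution of `X` centralizes an elementary abelian group of order `9` -/
theorem ne9 (oa : orderOf α = 3) (ob : β ^ 3 = 1) (e : α * β = β * α) (t2 : τ * τ = 1) (t1 : τ ≠ 1) (ea : α * τ = τ * α)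
    (eb : β * τ = τ * β) : β ∈ zpowers α := by
  by_contra n
  obtain ⟨a, b, rfl, rfl, oa', ob', c⟩ := s.lift9 oa (orderOf_eq_prime ob (by rintro rfl; exact n (one_mem _))) e
  obtain ⟨t, rfl, ct⟩ := s.liftc oa' ea
  obtain ⟨u, hu, e1⟩ := lift_c (Q := Y ⊓ 𝐂(zpowers a)) s.p.to_inf_left ob' (s.kn c) (s.kn ct) ⟨(s.k _).1 (by
    rw [map_commutatorElement, commutatorElement_eq_one_iff_mul_comm, eb]), mul_mem (mul_mem (mul_mem (mcz.2 ct) (mcz.2 c))
      (Subgroup.inv_mem _ (mcz.2 ct))) (Subgroup.inv_mem _ (mcz.2 c))⟩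
  have e2 : f (u * t) = f t := by rw [map_mul, (s.k u).2 hu.1, one_mul]
  have l : zpowers a ⊔ zpowers b ≤ 𝐂(zpowers (u * t)) :=
    sup_le (zpowers_le.2 (mcz.2 (mcz.1 (mul_mem hu.2 (mcz.2 ct))).symm)) (zpowers_le.2 (mcz.2 e1.symm))
  refine t1 (e2 ▸ (s.k _).2 (s.ch (zpowers_le.1 (le_centralizer_iff.1 (gen9 s.p oa' (cube ob') c (s.nm n) (s.nY a) (s.nY b)
    fun x m o => le_centralizer_iff.1 (zpowers_le.2 (s.kc o (mcz.1 (l m)).symm (e2 ▸ t2))))))))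

theorem o3 (m : ω ∈ F) (n : ω ≠ 1) : orderOf ω = 3 := orderOf_eq_prime (s.wX.exp3 s.pF m) n

/-- the fixed points of an involution in `F` form a group of order at most `3` -/
theorem cyc (t2 : τ * τ = 1) (t1 : τ ≠ 1) (m : ω ∈ F) (n : ω ≠ 1) (e : ω * τ = τ * ω) : F ⊓ centralizer {τ} ≤ zpowers ω := by
  obtain ⟨⟨ζ, hz⟩, z1⟩ := ne_bot_iff_exists_ne_one.1 (center_ne_bot (s.pF.to_inf_left (K := centralizer {τ})) fun k =>
    n (k.le ⟨m, mem_centralizer_singleton_iff.2 e⟩))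
  have k : F ⊓ centralizer {τ} ≤ zpowers ζ := fun x hx => s.ne9 (s.o3 hz.1.1 fun k => z1 (Subtype.ext k)) (s.wX.exp3 s.pF hx.1)
    (hz.2 x hx).symm t2 t1 (mem_centralizer_singleton_iff.1 hz.1.2) (mem_centralizer_singleton_iff.1 hx.2)
  exact k.trans (zpowers_le.2 (z3 (s.wX.exp3 s.pF hz.1.1) (k ⟨m, mem_centralizer_singleton_iff.2 e⟩) n))

theorem two (p : IsPGroup 2 A) (l : A ≤ 𝐂(F)) : A = ⊥ :=
  le_bot_iff.1 ((le_inf le_rfl (l.trans s.cF)).trans (inf_eq_bot_of_ne (by decide) p s.pF).le)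

theorem v4 (e : IsElementaryAbelian 2 A) (m : ω ∈ F) (n : ω ≠ 1) (l : A ≤ 𝐂(zpowers ω)) : IsCyclic A := by
  by_contra k
  refine k (s.two (isElemAb_isPGroup e) (le_centralizer_iff.1 (gen2 s.pF e k (fun τ _ => s.nA τ) fun τ ht t1 =>
    (s.cyc (sq_of e ht) t1 m n (mcz.1 (l ht))).trans (le_centralizer_iff.1 l))) ▸ inferInstance)

theorem ex (e : IsElementaryAbelian 2 A) (k : ¬ IsCyclic A) : ∃ τ ∈ A, τ ≠ 1 ∧ ∃ ω ∈ F, ω ≠ 1 ∧ ω * τ = τ * ω := by
  by_contra! n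
  have : F ≤ ⊥ := gen2 s.pF e k (fun τ _ => s.nA τ) fun τ ht t1 ω m => by_contra fun w1 =>
    n τ ht t1 ω m.1 w1 (mem_centralizer_singleton_iff.1 m.2)
  exact k (s.two (isElemAb_isPGroup e) (by rw [le_bot_iff.1 this, centralizer_bot]; exact le_top) ▸ inferInstance)

/-- a `2`-element of exponent `2` commuting with `τ` centralizes or inverts a fixed point of `τ` -/
theorem pm (t2 : τ * τ = 1) (t1 : τ ≠ 1) (m : ω ∈ F) (n : ω ≠ 1) (e : ω * τ = τ * ω) (c : γ * τ = τ * γ) :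
    γ * ω * γ⁻¹ = ω ∨ γ * ω * γ⁻¹ = ω⁻¹ := by
  refine (mem3 (s.wX.exp3 s.pF m) (s.cyc t2 t1 m n e ⟨s.nF.conj_mem _ m _, ?_⟩)).resolve_left (mt conj_eq_one_iff.1 n)
  have a := mem_centralizer_singleton_iff.2 c
  exact mul_mem (mul_mem a (mem_centralizer_singleton_iff.2 e)) (Subgroup.inv_mem _ a)

theorem r4 (e : IsElementaryAbelian 2 A) : Nat.card A ≤ 4 := by
  by_cases k : IsCyclic A
  · exact (cyc_le e k).trans (by decide)
  obtain ⟨τ, ht, t1, ω, m, n, c⟩ := s.ex e k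
  have e' := isElemAb_of_le e (inf_le_left : A ⊓ 𝐂(zpowers ω) ≤ A)
  have h1 := cyc_le e' (s.v4 e' m n inf_le_right)
  have h2 : (A ⊓ 𝐂(zpowers ω)).relIndex A ≤ Nat.card Prop := rel_le (fun a : A => a * ω * (a : X)⁻¹ = ω) fun a b k => by
    refine ⟨A.mul_mem (A.inv_mem a.2) b.2, mcz.2 ?_⟩
    have pa := s.pm (sq_of e ht) t1 m n c (isElemAb_le_centralizer e ht a a.2)
    have pb := s.pm (sq_of e ht) t1 m n c (isElemAb_le_centralizer e ht b b.2)
    have : a * ω * (a : X)⁻¹ = b * ω * (b : X)⁻¹ := by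
      by_cases q : a * ω * (a : X)⁻¹ = ω
      · exact q.trans (k.mp q).symm
      · exact (pa.resolve_left q).trans (pb.resolve_left (mt k.mpr q)).symm
    rw [mul_assoc, eq_inv_mul_iff_mul_eq, ← mul_assoc, ← mul_assoc, this, inv_mul_cancel_right]
  rw [Nat.card_eq_fintype_card, Fintype.card_prop] at h2
  rw [← card_mul_relIndex (inf_le_left : A ⊓ 𝐂(zpowers ω) ≤ A)]
  exact Nat.mul_le_mul h1 h2

end St

end CF.W8.G
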