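import Cfsg.Agent.W8.G2

/-! `{2, 3}`-groups of characteristic `2` with element orders at most `8`: `O₃(H / O₂(H))` is a Sylow subgroup. -/

set_option autoImplicit false
set_option linter.unusedSectionVars false

namespace CF.W8.G

open Subgroup Cfsg CF.Loc CF.W7
open scoped commutatorElement

variable {G : Type*} [Group G] [Finite G] {D K L Q U Y : Subgroup G} {a b c g u v x y z : G}
variable {X : Type*} [Group X] [Finite X] {f : G →* X} {A E F S : Subgroup X} {α β γ τ ω : X}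

namespace St
variable (s : St f Y F)
include s

theorem kl (oy : orderOf y = 3) (ob : b ^ 3 = 1) (c : y * b = b * y) (t2 : τ * τ = 1) (e : f y * τ = τ * f y)
    (i : τ * f b * τ⁻¹ = (f b)⁻¹) : b ∈ 𝐂(Y ⊓ 𝐂(zpowers y)) := by
  obtain ⟨t, rfl, ct⟩ := s.liftc oy e
  have m := s.kc oy ct t2
  have k : b * t * b⁻¹ * t⁻¹ ∈ 𝐂(Y ⊓ 𝐂(zpowers y)) :=
    mul_mem (conj_mem_of_mem_normalizer (normalizer_le_normalizer_centralizer _ (s.kn c)) m) (Subgroup.inv_mem _ m)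
  have mb := mcz.2 c
  have mt := mcz.2 ct
  refine mem_of_sq ob ((mul_mem_cancel_left (Subgroup.inv_mem _ k)).1 (s.ky oy ⟨(s.k _).1 ?_, mul_mem (Subgroup.inv_mem _
    (mul_mem (mul_mem (mul_mem mb mt) (Subgroup.inv_mem _ mb)) (Subgroup.inv_mem _ mt))) (mul_mem mb mb)⟩))
  simp only [map_mul, map_inv]
  rw [inv_mul_eq_one, mul_assoc, mul_assoc, mul_right_inj, ← mul_assoc, ← conj_inv, i, inv_inv]

/-- an element of order `3` outside `F` centralizes no involution -/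
theorem no2 (oa : orderOf α = 3) (n : α ∉ F) (t2 : τ * τ = 1) (t1 : τ ≠ 1) (e : α * τ = τ * α) : False := by
  have nz : ∀ ω ∈ F, ω ≠ 1 → ω ∉ zpowers α := fun ω m w1 k => n (zpowers_le.2 m (z3 (cube oa) k w1))
  have c0 : F ⊓ centralizer {τ} = ⊥ := by_contra fun k => by
    obtain ⟨⟨ω, m⟩, w1⟩ := ne_bot_iff_exists_ne_one.1 (inf_centralizer_ne_bot s.pF.to_inf_left (p3 oa) (le_normalizer_inf
      (fun δ _ => s.nA δ) ((zpowers_le.2 (mem_centralizer_singleton_iff.2 e)).trans le_normalizer)) k)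
    exact nz ω m.1.1 (fun k => w1 (Subtype.ext k)) (s.ne9 oa (s.wX.exp3 s.pF m.1.1) (mcz.1 m.2) t2 t1 e
      (mem_centralizer_singleton_iff.1 m.1.2))
  have inv : ∀ ω ∈ F, τ * ω * τ⁻¹ = ω⁻¹ := fun ω m => by
    have := pow_orderOf_eq_one (ω * τ)
    rw [Coprime.fpf_orderOf_mul (s.nA τ) c0 m, orderOf_eq_prime ((pow_two τ).trans t2) t1, pow_two, mul_assoc, ← mul_assoc τ] at this
    rw [inv_eq_of_mul_eq_one_right t2, eq_inv_of_mul_eq_one_right this]
  obtain ⟨γ, hg, g0, l⟩ := exists_fixed_mod (W := F ⊓ 𝐂(zpowers α)) s.pF (p3 oa) (fun δ _ => s.nA δ) fun k =>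
    n (s.cF (zpowers_le.1 (le_centralizer_iff.1 (k.trans inf_le_right))))
  have m := l (commutator_mem_commutator (mem_zpowers γ) (mem_zpowers α))
  have f1 : ⁅γ, α⁆ ≠ 1 := fun k => g0 ⟨hg, mcz.2 (commutatorElement_eq_one_iff_mul_comm.1 k).symm⟩
  obtain ⟨a, b, rfl, eb, oa', ob, c⟩ := s.lift9 oa (s.o3 m.1 f1) (mcz.1 m.2)
  have c' : Commute a b := c
  have key : ∀ (y : G) (δ : X), y ^ 3 = 1 → y * b = b * y → f y = δ * f a * δ⁻¹ → Y ⊓ 𝐂(zpowers y) ≤ 𝐂(zpowers b) :=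
    fun y δ o cy ey => le_centralizer_iff.1 (zpowers_le.2 (s.kl (τ := δ * τ * δ⁻¹) (orderOf_eq_prime o fun k => ne1 oa
      (conj_eq_one_iff.1 (by rw [← ey, k, map_one]))) (cube ob) cy (by rw [conj_mul, t2, mul_one, mul_inv_cancel])
      (by rw [ey, conj_mul, conj_mul, e]) (by
        have := inv _ (s.nF.conj_mem' _ (eb ▸ m.1 : f b ∈ F) δ)
        rw [show δ * τ * δ⁻¹ * f b * (δ * τ * δ⁻¹)⁻¹ = δ * (τ * (δ⁻¹ * f b * δ) * τ⁻¹) * δ⁻¹ by group, this]; group)))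
  have e1 : f (b * a) = γ * f a * γ⁻¹ := by rw [map_mul, eb, commutatorElement_def, inv_mul_cancel_right]
  have e2 : f (b⁻¹ * a) = γ⁻¹ * f a * γ⁻¹⁻¹ := by
    have e3 : τ * f a * τ⁻¹ = f a := by rw [← e, mul_inv_cancel_right]
    rw [map_mul, map_inv, ← inv _ (eb ▸ m.1 : f b ∈ F), ← inv _ hg]
    conv_lhs => rw [← e3, conj_mul, ← map_mul, e1]
    conv_rhs => rw [← e3]
    group
  refine f1 (eb ▸ (s.k b).2 (s.ch (zpowers_le.1 (le_centralizer_iff.1 (gen4 s.p oa' (cube ob) c (s.nm (eb ▸ nz _ m.1 f1))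
    (s.nY a) (s.nY b) (key a 1 (cube oa') c (by simp)) inf_le_right (key _ γ ?_ ?_ e1) (key _ γ⁻¹ ?_ ?_ e2))))))
  · rw [c'.symm.mul_pow, cube oa', cube ob, one_mul]
  · rw [mul_assoc, c]
  · rw [c'.symm.inv_left.mul_pow, inv_pow, cube oa', cube ob, inv_one, one_mul]
  · rw [mul_assoc, c, inv_mul_cancel_left, mul_inv_cancel_left]

theorem no1 (oa : orderOf α = 3) (n : α ∉ F) (e : IsElementaryAbelian 2 E) (e0 : E ≠ ⊥) (nE : α ∈ 𝐍(E)) : False := by
  have k : ¬ IsCyclic E := fun cy => by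
    obtain ⟨⟨τ, m⟩, t1⟩ := ne_bot_iff_exists_ne_one.1 e0
    have t1' : τ ≠ 1 := fun k => t1 (Subtype.ext k)
    exact s.no2 oa n (sq_of e m) t1' (mul_inv_eq_iff_eq_mul.1
      (cyc_eq e cy (conj_mem_of_mem_normalizer nE m) m (mt conj_eq_one_iff.1 t1') t1'))
  obtain ⟨τ, ht, t1, ω, m, w1, c⟩ := s.ex e k
  have i : ∀ δ ∈ 𝐍(E), δ * τ ≠ τ * δ → τ * (δ * ω * δ⁻¹) * τ⁻¹ = (δ * ω * δ⁻¹)⁻¹ := fun δ hd d0 => by
    have m' := conj_mem_of_mem_normalizer' hd ht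
    have := (s.pm (sq_of e ht) t1 m w1 c (isElemAb_le_centralizer e ht _ m')).resolve_left fun q => by
      have e' := isElemAb_of_le e (sup_le (zpowers_le.2 ht) (zpowers_le.2 m'))
      have := cyc_eq e' (s.v4 e' m w1 (sup_le (zpowers_le.2 (mcz.2 c)) (zpowers_le.2 (mcz.2 (mul_inv_eq_iff_eq_mul.1 q).symm))))
        (mem_sup_left (mem_zpowers _)) (mem_sup_right (mem_zpowers _)) t1 fun q => t1 (by
          rwa [mul_assoc, inv_mul_eq_one, eq_comm, mul_eq_right] at q)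
      exact d0 (by rwa [mul_assoc, eq_inv_mul_iff_mul_eq] at this)
    rw [show τ * (δ * ω * δ⁻¹) * τ⁻¹ = δ * (δ⁻¹ * τ * δ * ω * (δ⁻¹ * τ * δ)⁻¹) * δ⁻¹ by group, this]; group
  have i2 := i α nE (s.no2 oa n (sq_of e ht) t1)
  have i3 := i α⁻¹ (inv_mem nE) fun q => s.no2 oa n (sq_of e ht) t1 (Commute.inv_left_iff.1 q)
  have r := s.wX.exp3 (s.pF.to_sup_of_normal_left' (p3 oa) fun δ _ => s.nA δ) (mul_mem_sup m (mem_zpowers α))
  rw [show (ω * α) ^ 3 = ω * (α * ω * α⁻¹ * (α * α * ω * α)) by simp only [pow_three, mul_assoc, inv_mul_cancel_left],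
    sq3 (cube oa)] at r
  rw [inv_inv] at i3
  have o2 := sq3 (s.wX.exp3 s.pF (s.nF.conj_mem _ m α))
  have o3 := sq3 (s.wX.exp3 s.pF (s.nF.conj_mem' _ m α))
  generalize α * ω * α⁻¹ = p at *
  generalize α⁻¹ * ω * α = q at *
  have r2 : ω * (p⁻¹ * q⁻¹) = 1 := by
    rw [← i2, ← i3, conj_mul, ← mul_inv_eq_iff_eq_mul.2 c.symm, conj_mul, r, mul_one, mul_inv_cancel]
  have r3 : p * q = p⁻¹ * q⁻¹ := mul_left_cancel (r.trans r2.symm)
  have r4 : p⁻¹ * q⁻¹ = 1 := by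
    rw [← o2, ← o3, mul_assoc, ← mul_assoc p q, r3, mul_assoc, inv_mul_cancel, mul_one, mul_inv_cancel]
  exact w1 (by rwa [r4, mul_one] at r2)

end St

theorem St.syl (s : St f Y (pCore 3 X)) (t : T23 (⊤ : Subgroup X)) : IsSyl 3 (pCore 3 X) ⊤ := by
  by_contra k
  have sj := QuotientGroup.mk'_surjective (pCore 3 X)
  have : Group.IsSolvable X := have := s.wX.sol t; solvable_of_surjective (f := (⊤ : Subgroup X).subtype) fun x => ⟨⟨x, trivial⟩, rfl⟩
  have : Nontrivial (X ⧸ pCore 3 X) := QuotientGroup.nontrivial_iff.2 fun e => k (by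
    have := isSyl_self s.pF
    rwa [e] at this ⊢)
  obtain ⟨p, pp, p0⟩ := Solv.exists_pCore_ne_bot (G := X ⧸ pCore 3 X)
  have := Fact.mk pp
  have d : p ∣ Nat.card (⊤ : Subgroup X) := card_top (G := X) ▸ ((dvd_card_of_isPGroup (isPGroup_pCore p _) p0).trans
    (card_subgroup_dvd_card _)).trans (card_quotient_dvd_card _)
  have l := s.wX.prime_le pp d
  have := pp.two_le
  obtain rfl : p = 2 := by
    interval_cases p
    exacts [rfl, absurd (pCore_quotient_pCore 3 X) p0, absurd pp (by decide), absurd d t.1, absurd pp (by decide), absurd d t.2]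
  obtain ⟨S, hS⟩ := exists_isSyl 2 ((pCore 2 (X ⧸ pCore 3 X)).comap (QuotientGroup.mk' _))
  have e1 := hS.map (QuotientGroup.mk' (pCore 3 X))
  rw [map_comap_eq_self_of_surjective sj] at e1
  have e2 := e1.eq_of_isPGroup (isPGroup_pCore 2 _)
  have e3 := hS.frattini_sup le_top (le_normalizer_of_normal' ⊤ _)
  rw [← e2, comap_map_eq, QuotientGroup.ker_mk', top_inf_eq, sup_comm S, sup_assoc, sup_of_le_right le_normalizer] at e3
  obtain ⟨P, hP⟩ := exists_isSyl 3 𝐍(S)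
  by_cases q : P ≤ pCore 3 X
  · refine k (isSyl_of_not_dvd_relIndex s.pF le_top ?_)
    rw [← e3, relIndex_sup_of_le_normalizer fun δ _ => s.nA δ, ← inf_relIndex_right]
    exact hP.not_dvd_relIndex_of_le (le_inf q hP.le) inf_le_right
  obtain ⟨α, m, n⟩ := SetLike.not_le_iff_exists.1 q
  exact s.no1 (orderOf_eq_prime (s.wX.exp3 hP.isPGroup m) (by rintro rfl; exact n (one_mem _))) n (isElemAb_omegaOneCenter 2 S)
    (omegaOneCenter_ne_bot hS.isPGroup (by rintro rfl; exact p0 (e2 ▸ map_bot _)))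
    (normalizer_le_normalizer_omegaOneCenter 2 S (hP.le m))

end CF.W8.G
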