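import Cfsg.Agent.W8.G3

/-! `{2, 3}`-groups of characteristic `2` with element orders at most `8`: the structure theorem. -/

set_option autoImplicit false
set_option linter.unusedSectionVars false

namespace CF.W8

open Subgroup Cfsg CF.Loc CF.W7
open scoped commutatorElement

variable {G : Type*} [Group G] [Finite G] {A D H K L Q U Y : Subgroup G} {a b c g u v x y z : G}

namespace G
variable {X : Type*} [Group X] [Finite X] {f : G →* X} {F : Subgroup X} {α β γ τ ω : X}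

namespace St
variable (s : St f Y F)
include s

theorem fo (o : orderOf y = 3) : orderOf (f y) = 3 := orderOf_eq_prime (by rw [← map_pow, cube o, map_one]) fun k =>
  ne1 o ((inf_eq_bot_of_ne (by decide) (p3 o) s.p).le ⟨mem_zpowers y, (s.k y).1 k⟩)

variable (hs : IsSyl 3 F ⊤)
include hs

theorem mem (o : α ^ 3 = 1) : α ∈ F :=
  zpowers_le.1 (hs.le_of_le_normalizer' (isPGroup_zpowers (k := 1) o) le_top fun δ _ => s.nA δ)

theorem g3b (o : orderOf y = 3) (c2 : c * c = 1) (e : y * c = c * y) (n : c ∉ Y) : ∃ b, orderOf b = 3 ∧ y * b = b * y ∧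
    c * b * c⁻¹ = b⁻¹ ∧ b ∈ 𝐂(Y ⊓ 𝐂(zpowers y)) ∧ Y ⊓ 𝐂(zpowers y) ≤ 𝐂(Y) := by
  have o' := s.fo o
  have my := s.mem hs (cube o')
  have t2 : f c * f c = 1 := by rw [← map_mul, c2, map_one]
  have t1 : f c ≠ 1 := mt (s.k c).1 n
  have cy := s.cyc t2 t1 my (ne1 o') (by rw [← map_mul, e, map_mul])
  obtain ⟨γ, hg, g1, g0⟩ : ∃ γ ∈ F, f y * γ = γ * f y ∧ γ ∉ zpowers (f y) := by
    by_contra! k
    obtain ⟨⟨ζ, m⟩, z1⟩ := ne_bot_iff_exists_ne_one.1 (center_ne_bot s.pF fun k => ne1 o' (k.le my))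
    have m2 : f y ∈ 𝐂(F) := zpowers_le.2 m.2 (z3 (cube o') (k ζ m.1 (m.2 _ my)) fun k => z1 (Subtype.ext k))
    refine t1 ((s.two (isPGroup_zpowers (k := 1) ((pow_two _).trans t2)) (le_centralizer_iff.1 fun δ hd => ?_)).le (mem_zpowers _))
    exact zpowers_le.2 (mcz.2 (by rw [← map_mul, ← e, map_mul])) (k δ hd (m2 δ hd).symm)
  obtain ⟨g, rfl, cg⟩ := s.liftc o g1
  have m := s.kc o e t2
  have k : g * c * g⁻¹ * c ∈ 𝐂(Y ⊓ 𝐂(zpowers y)) :=
    mul_mem (conj_mem_of_mem_normalizer (normalizer_le_normalizer_centralizer _ (s.kn cg)) m) m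
  have ky : y * (g * c * g⁻¹ * c) = g * c * g⁻¹ * c * y :=
    mcz.1 (mul_mem (mul_mem (mul_mem (mcz.2 cg) (mcz.2 e)) (Subgroup.inv_mem _ (mcz.2 cg))) (mcz.2 e))
  have ci := inv_eq_of_mul_eq_one_right c2
  have ki : c * (g * c * g⁻¹ * c) * c⁻¹ = (g * c * g⁻¹ * c)⁻¹ := by
    simp only [mul_inv_rev, inv_inv, ci, mul_assoc, c2, mul_one]
  have kF : f (g * c * g⁻¹ * c) ∈ F := by
    have := F.mul_mem hg (s.nF.conj_mem _ (F.inv_mem hg) (f c))
    rwa [← map_inv, ← map_inv, ci, ← map_mul, ← map_mul, ← map_mul, ← mul_assoc, ← mul_assoc] at this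
  have k0 : f (g * c * g⁻¹ * c) ∉ zpowers (f y) := fun q => g0 (cy ⟨hg, mem_centralizer_singleton_iff.2 ?_⟩)
  · generalize g * c * g⁻¹ * c = d at *
    have ok := s.pow4 (s.o3 kF fun q => k0 (q ▸ one_mem _))
    have cb : y * d ^ 4 = d ^ 4 * y := Commute.pow_right ky 4
    refine ⟨d ^ 4, ok.1, cb, by rw [← conj_pow, ki, inv_pow], pow_mem k 4, le_centralizer_iff.1 (gen9 s.p o (cube ok.1) cb
      (s.nm (ok.2 ▸ k0)) (s.nY _) (s.nY _) fun x hx ox => (s.ky ox).trans (centralizer_anti (le_inf inf_le_left ?_)))⟩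
    exact le_centralizer_iff.1 ((zpowers_le.2 hx).trans (sup_le (le_centralizer_iff.1 inf_le_right) (zpowers_le.2 (pow_mem k 4))))
  · have e1 : f c * f (g * c * g⁻¹ * c) * (f c)⁻¹ = f (g * c * g⁻¹ * c) :=
      conj_eq_of_mem_centralizer (mcz.2 (by rw [← map_mul, e, map_mul])) q
    rw [← map_inv, ← map_mul, ← map_mul, ki, map_inv, ← sq3 (s.wX.exp3 s.pF kF), mul_eq_left] at e1
    simp only [map_mul, map_inv] at e1
    rwa [mul_eq_one_iff_eq_inv, inv_eq_of_mul_eq_one_right t2, mul_inv_eq_iff_eq_mul] at e1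

theorem qd4 (e : IsElementaryAbelian 2 A) (q : ⁅⁅Y, A⁆, A⁆ = ⊥) : IsCyclic (A.map f) := by
  by_contra k
  have e' := isElemAb_map f e
  obtain ⟨_, ⟨a, ha, rfl⟩, t1, ω, m, w1, c0⟩ := s.ex e' k
  obtain ⟨_, ⟨a', ha', rfl⟩, n⟩ := SetLike.not_le_iff_exists.1 fun l => k (s.v4 e' m w1 l)
  have t2 := sq_of e' (mem_map_of_mem f ha)
  have i := (s.pm t2 t1 m w1 c0 (isElemAb_le_centralizer e' (mem_map_of_mem f ha) _ (mem_map_of_mem f ha'))).resolve_left
    fun q => n (mcz.2 (mul_inv_eq_iff_eq_mul.1 q).symm)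
  obtain ⟨y, rfl, o⟩ := s.lift3 (s.o3 m w1)
  obtain ⟨c, ec, cy⟩ := s.liftc o c0
  obtain ⟨b, ob, yb, cb, mb, -⟩ := s.g3b hs o (s.w.sq o cy (s.p2 (ec ▸ t2)) (mem_zpowers c)) cy (fun q => t1 (ec ▸ (s.k c).2 q))
  have nY : ∀ K : Subgroup G, K ≤ 𝐍(Y) := fun K g _ => s.nY g
  have nD : ∀ K : Subgroup G, K ≤ 𝐍(⁅Y, Y⁆) := fun K => le_normalizer_commutator (nY K) (nY K)
  have lc : ∀ K : Subgroup G, ⁅Y, K⁆ ≤ Y := fun K => commutator_le_left_of_le_normalizer (nY K)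
  have mY : ∀ {K : Subgroup G} {g g' : G}, Y ≤ K → g ∈ K → f g = f g' → g' ∈ K := fun l m e =>
    (mul_mem_cancel_left (Subgroup.inv_mem _ m)).1 (l ((s.k _).1 (by rw [map_mul, map_inv, e, inv_mul_cancel])))
  set U := ⁅Y, zpowers c⁆ ⊔ ⁅Y, Y⁆ with hU
  have lU : U ≤ Y := sup_le (lc _) (lc _)
  have l' : ⁅Y, A⁆ ⊔ ⁅Y, Y⁆ ≤ Y := sup_le (lc _) (lc _)
  have l1 : U ≤ ⁅Y, A⁆ ⊔ ⁅Y, Y⁆ := sup_le ((commutator_mono le_rfl (zpowers_le.2 (mY le_sup_right (mem_sup_left ha) ec.symm))).trans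
    (commutator_sup_right_le (le_normalizer_sup (normalizer_commutator_ge_right _ _) (nD _))
      (le_normalizer_of_commutator_le l' le_sup_right) le_sup_left le_sup_right)) le_sup_right
  have yU : zpowers y ≤ 𝐍(U) := le_normalizer_sup (le_normalizer_commutator (nY _)
    ((zpowers_le.2 (mcz.2 cy.symm)).trans (centralizer_le_normalizer _))) (nD _)
  have lA : A ≤ secCent U ⁅Y, Y⁆ := le_secCent_iff.2 ⟨nD _, (commutator_mono l1 le_rfl).trans (commutator_sup_left_le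
    ((lc _).trans (nD _)) le_normalizer (q.le.trans bot_le) (commutator_le_left_of_le_normalizer (nD _)))⟩
  have lY : Y ≤ secCent U ⁅Y, Y⁆ := le_secCent_iff.2 ⟨nD _, commutator_mono lU le_rfl⟩
  have my : y ∈ secCent U ⁅Y, Y⁆ := mem_of_sq (cube o) (mY lY (mul_mem (conj_mem_of_mem_normalizer
    (le_normalizer_secCent yU (nD _) (mem_zpowers y)) (lA ha')) (Subgroup.inv_mem _ (lA ha'))) (by
      simp only [map_mul, map_inv]
      rw [mul_assoc, mul_assoc, mul_right_inj, ← mul_assoc, ← conj_inv, i, inv_inv]))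
  have cs : ∀ {K : Subgroup G} {x : G}, K ≤ Y → orderOf x = 3 → zpowers x ≤ 𝐍(K) → ⁅K, zpowers x⁆ ⊔ K ⊓ 𝐂(zpowers x) = K :=
    fun l o n => Coprime.commutator_sup_centralizer _ _ n (cop23 (s.p.to_le l) (p3 o)).symm (.inl inferInstance)
  have mb' : ⁅U, zpowers b⁆ ≤ ⁅Y, Y⁆ := by
    rw [← cs lU o yU]
    exact commutator_sup_left_le (nD _) (nD _) ((commutator_mono ((commutator_mono le_rfl (zpowers_le.2 my)).trans
      (commutator_secCent_le _ _)) le_rfl).trans (commutator_le_left_of_le_normalizer (nD _)))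
      ((commutator_eq_bot_iff_le_centralizer'.2 (zpowers_le.2 (centralizer_anti (inf_le_inf_right _ lU) mb))).le.trans bot_le)
  have bU : zpowers b ≤ 𝐍(U) := le_normalizer_of_commutator_le le_rfl (mb'.trans le_sup_right)
  have mc : c ∈ secCent Y U := zpowers_le.1 (le_secCent_iff.2 ⟨le_normalizer_sup (normalizer_commutator_ge_right _ _) (nD _),
    le_sup_left⟩)
  have mb2 : b ∈ secCent Y U := mem_of_sq (cube ob) (by
    have := mul_mem (conj_mem_of_mem_normalizer (le_normalizer_secCent (nY _) bU (mem_zpowers b)) mc) (Subgroup.inv_mem _ mc)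
    rwa [mul_assoc, mul_assoc, ← mul_assoc c, ← conj_inv, cb, inv_inv] at this)
  have e1 : ⁅⁅Y, zpowers b⁆, zpowers b⁆ = ⁅Y, zpowers b⁆ :=
    Coprime.commutator_commutator_eq _ _ (nY _) (cop23 s.p (p3 ob)).symm (.inl inferInstance)
  have l2 : ⁅Y, zpowers b⁆ ≤ ⁅Y, Y⁆ := e1.ge.trans ((commutator_mono ((commutator_mono le_rfl (zpowers_le.2 mb2)).trans
    (commutator_secCent_le _ _)) le_rfl).trans mb')
  have n1 : Y ≤ 𝐍(⁅⁅Y, zpowers b⁆, Y⁆) := normalizer_commutator_ge_right _ _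
  have e2 := eq_bot_of_le_commutator s.p (lc _) le_rfl (e1.ge.trans ((commutator_mono l2 le_rfl).trans (three_subgroups n1 n1
    (le_normalizer_commutator (normalizer_commutator_ge_right _ _) (nY _)) le_rfl (by rw [commutator_comm (zpowers b)]))))
  exact ne1 (s.fo ob) ((s.k b).2 (s.ch (zpowers_le.1 (commutator_eq_bot_iff_le_centralizer'.1 e2))))

end St

theorem st_of (h : W8 G) (t : T23 H) (ch : IsCharP 2 H) : ∃ F, St (QuotientGroup.mk' (pCore 2 H)) (pCore 2 H) F ∧ IsSyl 3 F ⊤ ∧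
    Ex H 𝐎[2](H) (QuotientGroup.mk' (pCore 2 H)) := by
  have sj := QuotientGroup.mk'_surjective (pCore 2 H)
  have w := (h.sub H).map sj
  have d : Nat.card (⊤ : Subgroup (H ⧸ pCore 2 H)) ∣ Nat.card H := card_top (G := H ⧸ pCore 2 H) ▸ card_quotient_dvd_card _
  have t' : T23 (⊤ : Subgroup (H ⧸ pCore 2 H)) := ⟨mt (·.trans d) t.1, mt (·.trans d) t.2⟩
  have := h.sol t
  have l : fittingSubgroup (H ⧸ pCore 2 H) ≤ pCore 3 _ := Solv.fitting_le_iff.2 fun p pp => by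
    by_cases p0 : pCore p (H ⧸ pCore 2 H) = ⊥
    · exact p0.le.trans bot_le
    have d := (dvd_card_of_isPGroup (isPGroup_pCore p _) p0).trans (card_dvd_of_le (le_top (a := pCore p _)))
    have l := w.prime_le pp.1 d
    have := pp.1.two_le
    interval_cases p
    exacts [absurd (pCore_quotient_pCore 2 H) p0, le_rfl, absurd pp.1 (by decide), absurd d t'.1, absurd pp.1 (by decide),
      absurd d t'.2]
  have s : St (QuotientGroup.mk' (pCore 2 H)) (pCore 2 H) (pCore 3 _) := ⟨h.sub H, sj, fun g => QuotientGroup.eq_one_iff g,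
    isPGroup_pCore 2 H, isCharP_iff.1 ch, inferInstance, isPGroup_pCore 3 _,
    (centralizer_anti l).trans (Solv.centralizer_fitting_le.trans l)⟩
  exact ⟨_, s, s.syl t', sj, by rw [QuotientGroup.ker_mk', pCoreOf_subgroupOf], isPGroup_pCoreOf 2 H, pCoreOf_le 2 H⟩

end G

open G

theorem gg_of (h : W8 G) : GG G where
  g1 H P t ch p := by
    obtain ⟨F, s, hs, e⟩ := st_of h t ch
    have p' : IsSyl 3 (P.subgroupOf H) ⊤ := p.coe_toSylow ▸ isSyl_top p.toSylow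
    have e1 := p'.map (QuotientGroup.mk' (pCore 2 H))
    rw [map_top_of_surjective _ s.sj] at e1
    have e2 := e1.eq_of_le s.pF (hs.le_of_le_normalizer' e1.isPGroup le_top fun δ _ => s.nA δ) le_top
    have := s.nF
    have := le_normalizer_map_subtype (F.comap (QuotientGroup.mk' (pCore 2 H)))
    rwa [e2, comap_map_eq, QuotientGroup.ker_mk', Subgroup.map_sup, map_subgroupOf_eq_of_le p.le, pCoreOf_def, sup_comm] at this
  g3a H D y t ch m o d l n := by
    obtain ⟨F, s, hs, e⟩ := st_of h t ch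
    have o' := s.fo (y := ⟨y, m⟩) ((orderOf_coe _).symm.trans o)
    have d' := (isPGroup_subgroupOf (L := H) d).map (QuotientGroup.mk' (pCore 2 H))
    have k : ⁅D, zpowers y⁆ ≤ 𝐎[2](H) := commutator_le.2 fun g hg x hx => by
      have hx' := zpowers_le.2 m hx
      have m1 : QuotientGroup.mk' (pCore 2 H) ⟨x, hx'⟩ ∈ F := s.mem hs (by
        rw [← map_pow, show (⟨x, hx'⟩ : H) ^ 3 = 1 from Subtype.ext ((ez (cube o)).2 x hx), map_one])
      refine (e.mem ⁅(⟨g, l hg⟩ : H), ⟨x, hx'⟩⁆).1 ((inf_eq_bot_of_ne (by decide) d' s.pF).le ⟨mem_map_of_mem _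
        (commutator_le_left_of_le_normalizer (zpowers_le.2 n) (commutator_mem_commutator hg hx)), ?_⟩)
      rw [map_commutatorElement]
      exact F.mul_mem (s.nF.conj_mem _ m1 _) (F.inv_mem m1)
    have c : (D.subgroupOf H).map (QuotientGroup.mk' (pCore 2 H)) ≤ 𝐂(zpowers (QuotientGroup.mk' (pCore 2 H) ⟨y, m⟩)) := by
      rintro _ ⟨g, hg, rfl⟩
      refine mcz.2 (commutatorElement_eq_one_iff_mul_comm.1 ?_).symm
      rw [← map_commutatorElement]
      exact (e.mem _).2 (k (commutator_mem_commutator hg (mem_zpowers y)))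
    have e' := s.wX.ea3 o' d' c
    exact ⟨k, e.rel l ▸ cyc_le e' (s.v4 e' (s.mem hs (cube o')) (ne1 o') c)⟩
  g3b H y c t ch m o mc c2 e n := by
    obtain ⟨F, s, hs, -⟩ := st_of h t ch
    obtain ⟨b, ob, yb, cb, -, l⟩ := s.g3b hs (y := ⟨y, m⟩) (c := ⟨c, mc⟩) ((orderOf_coe _).symm.trans o) (Subtype.ext c2)
      (Subtype.ext e) (mt mem_pCore_iff.1 n)
    exact ⟨fun v hv u hu => congrArg Subtype.val (l (x := ⟨v, pCoreOf_le 2 H hv.1⟩) ⟨mem_pCore_iff.2 hv.1,
      mcz.2 (Subtype.ext (mcz.1 hv.2))⟩ ⟨u, pCoreOf_le 2 H hu⟩ (mem_pCore_iff.2 hu)), b, b.2, (orderOf_coe b).trans ob,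
      congrArg Subtype.val yb, congrArg Subtype.val cb⟩
  qd4 H A t ch l e q := by
    obtain ⟨F, s, hs, x⟩ := st_of h t ch
    have e' := isElemAb_subgroupOf e H
    refine x.rel l ▸ cyc_le (isElemAb_map _ e') (s.qd4 hs e' ((map_eq_bot_iff_of_injective _ H.subtype_injective).1 ?_))
    rwa [map_commutator, map_commutator, map_subgroupOf_eq_of_le l, pCoreOf_def]
  r4 H A t ch l e := by
    obtain ⟨F, s, -, x⟩ := st_of h t ch
    exact x.rel l ▸ s.r4 (isElemAb_map _ (isElemAb_subgroupOf e H))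
  e9 _ _ _ _ := e9 h

end CF.W8
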