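import Cfsg.Agent.W8.A

/-! Interface for the groups all of whose elements have order at most `8`. -/

set_option autoImplicit false
set_option linter.unusedSectionVars false

namespace CF.W8

open Subgroup Cfsg CF.Loc CF.W7
open scoped commutatorElement MatrixGroups

universe u

variable {G : Type*} [Group G] [Finite G] {A D E K L M N Q R S T U V W X : Subgroup G} {a b c g u v w x y z : G}

abbrev A5 := alternatingGroup (Fin 5)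
abbrev S5 := Equiv.Perm (Fin 5)
abbrev A6 := alternatingGroup (Fin 6)
abbrev A7 := alternatingGroup (Fin 7)
abbrev L32 := SL(3, ZMod 2)

/-- the simple groups -/
def Cn (G : Type*) [Group G] : Prop :=
  Nonempty (G ≃* A5) ∨ Nonempty (G ≃* A6) ∨ Nonempty (G ≃* A7) ∨ Nat.card G = 168 ∨
  ∃ (F : Type) (_ : Field F) (_ : Fintype F), Fintype.card F = 4 ∧ Nonempty (G ≃* PSL(3, F))

/-- the inductive hypothesis -/
def IH (G : Type u) [Group G] : Prop := ∀ (K : Type u) [Group K] [Finite K] [IsSimpleGroup K], ¬ IsMulCommutative K →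
  Nat.card K < Nat.card G → W8 K → Cn K

/-- `f` induces an isomorphism from `M / Q` onto `X`, and `Q` is a `2`-group -/
structure Ex {X : Type*} [Group X] (M Q : Subgroup G) (f : M →* X) : Prop where
  sj : Function.Surjective f
  k : f.ker = Q.subgroupOf M
  q : IsPGroup 2 Q
  l : Q ≤ M

/-- `N / O₂(N) ≅ X` -/
def Ep (N : Subgroup G) (X : Type) [Group X] : Prop := ∃ f : N →* X, Ex N 𝐎[2](N) f

/-- `N / O₂(N)` is a group of order `5, 10, 20, 7, 14, 21` -/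
def Fr (N : Subgroup G) : Prop := ∃ x ∈ N, P57 x ∧ N ≤ 𝐍(𝐎[2](N) ⊔ zpowers x) ∧ ¬ 6 ∣ 𝐎[2](N).relIndex N

/-- the types of the subgroups of characteristic `2` -/
def Ty (G : Type*) [Group G] : Prop := ∀ N : Subgroup G, IsCharP 2 N → 𝐎[2](N) ≠ ⊥ →
  T23 N ∨ Fr N ∨ Ep N A5 ∨ Ep N S5 ∨ Ep N A6 ∨ Ep N L32

/-- the structure of the `{2, 3}`-subgroups of characteristic `2` -/
structure GG (G : Type*) [Group G] : Prop where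
  g1 : ∀ H P : Subgroup G, T23 H → IsCharP 2 H → IsSyl 3 P H → H ≤ 𝐍(𝐎[2](H) ⊔ P)
  g3a : ∀ (H D : Subgroup G) (y : G), T23 H → IsCharP 2 H → y ∈ H → orderOf y = 3 → IsPGroup 2 D → D ≤ H → y ∈ 𝐍(D) →
    ⁅D, zpowers y⁆ ≤ 𝐎[2](H) ∧ 𝐎[2](H).relIndex D ≤ 2
  g3b : ∀ (H : Subgroup G) (y c : G), T23 H → IsCharP 2 H → y ∈ H → orderOf y = 3 → c ∈ H → c * c = 1 → y * c = c * y →
    c ∉ 𝐎[2](H) → 𝐎[2](H) ⊓ 𝐂(zpowers y) ≤ 𝐂(𝐎[2](H)) ∧ ∃ b ∈ H, orderOf b = 3 ∧ y * b = b * y ∧ c * b * c⁻¹ = b⁻¹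
  qd4 : ∀ H A : Subgroup G, T23 H → IsCharP 2 H → A ≤ H → IsElementaryAbelian 2 A → ⁅⁅𝐎[2](H), A⁆, A⁆ = ⊥ →
    𝐎[2](H).relIndex A ≤ 2
  r4 : ∀ H A : Subgroup G, T23 H → IsCharP 2 H → A ≤ H → IsElementaryAbelian 2 A → 𝐎[2](H).relIndex A ≤ 4
  e9 : ∀ (U : Subgroup G) (y b z : G), IsPGroup 2 U → z * z = 1 → ⁅U, U⁆ ≤ zpowers z → orderOf y = 3 → orderOf b = 3 →
    y * b = b * y → b ∉ zpowers y → y ∈ 𝐍(U) → b ∈ 𝐍(U) → y * z = z * y → b * z = z * b → U ≤ 𝐂(U)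

def TF (G : Type*) [Group G] : Prop := ∀ N T : Subgroup G, IsCharP 2 N → 𝐎[2](N) ≠ ⊥ → IsSyl 2 T N →
  (∃ P P' : Subgroup G, T ≤ P ∧ T ≤ P' ∧ P ⊔ P' = N ∧ T23 P ∧ T23 P') ∨
  (𝐎[2](N).relIndex T ≤ 8 ∧ ∀ v ∈ T, v ∉ 𝐎[2](N) → v * v ∈ 𝐎[2](N) → (∀ t ∈ T, ⁅t, v⁆ ∈ 𝐎[2](N)) →
    ∃ g ∈ N, P57 (v * (g * v * g⁻¹)))

def R2 (G : Type*) [Group G] : Prop := ∀ N A : Subgroup G, IsCharP 2 N → 𝐎[2](N) ≠ ⊥ → A ≤ N → IsElementaryAbelian 2 A →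
  𝐎[2](N).relIndex A ≤ 4

def T3 (G : Type*) [Group G] : Prop := ∀ (N T : Subgroup G) (y : G), IsCharP 2 N → 𝐎[2](N) ≠ ⊥ → IsSyl 2 T N → y ∈ N →
  orderOf y = 3 → y ∈ 𝐍(T) → T23 N ∨ T ≤ 𝐎[2](N) ∨ Ep N A5

def GJ (G : Type*) [Group G] : Prop := ∀ M T : Subgroup G, Mx M T → thompsonSubgroupOf 2 T ≤ 𝐎[2](M) →
  ¬ 𝐂(omegaOneCenter 2 T) ≤ M

/-- the global hypothesis -/
structure Hy (G : Type*) [Group G] : Prop where
  w : W8 G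
  c2 : IsCharacteristicTwoType G
  gg : GG G
  tf : TF G
  r2 : R2 G
  t3 : T3 G
  gl : Gl G
  gj : GJ G

/-- data for the study of `C_G(z)` -/
structure Pd (M W R : Subgroup G) (y z : G) : Prop where
  lW : W ≤ Vz M
  zW : z ∈ W
  z1 : z ≠ 1
  my : y ∈ M
  oy : orderOf y = 3
  yz : y * z = z * y
  nW : y ∈ 𝐍(W)
  cy : W ⊓ 𝐂(zpowers y) ≤ zpowers z
  lQ : 𝐎[2](M) ≤ R
  lM : R ≤ M
  lH : R ≤ Hz z
  pR : IsPGroup 2 R
  nR : y ∈ 𝐍(R)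
  mx : ∀ D : Subgroup G, IsPGroup 2 D → D ≤ M → D ≤ Hz z → y ∈ 𝐍(D) → D ≤ R
  cm : ⁅W, R⁆ ≤ zpowers z
  cr : R ⊓ 𝐂(W) ≤ 𝐎[2](M)
  ry : R ⊓ 𝐂(zpowers y) ≤ 𝐎[2](M)
  lk : ∀ w ∈ R, (∀ a ∈ 𝐎[2](M), ⁅a, w⁆ ∈ zpowers z) → w ∈ 𝐂(𝐎[2](M))

/-- an orthogonal-like module of order `16` -/
structure Od (M V R : Subgroup G) (x y z : G) : Prop where
  lV : V ≤ Vz M
  nV : M ≤ 𝐍(V)
  cV : Nat.card V = 16
  mx : x ∈ M
  ox : orderOf x = 5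
  zV : z ∈ V
  z1 : z ≠ 1
  my : y ∈ M
  oy : orderOf y = 3
  yz : y * z = z * y
  lQ : 𝐎[2](M) ≤ R
  lM : R ≤ M
  lH : R ≤ Hz z
  i4 : 𝐎[2](M).relIndex R = 4
  pR : IsPGroup 2 R
  nR : y ∈ 𝐍(R)
  max : ∀ D : Subgroup G, IsPGroup 2 D → D ≤ M → D ≤ Hz z → y ∈ 𝐍(D) → D ≤ R
  ry : R ⊓ 𝐂(zpowers y) ≤ 𝐎[2](M)
  four : ∀ a ∈ R, a ∉ 𝐎[2](M) → Nat.card ↥(V ⊓ centralizer {a}) ≤ 4
  cvr : V ⊓ 𝐂(R) ≤ zpowers z

/-- a natural module for `L₃(2)` -/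
structure Ld (M V : Subgroup G) : Prop where
  lV : V ≤ Vz M
  nV : M ≤ 𝐍(V)
  cV : Nat.card V = 8
  idx : 𝐎[2](M).relIndex M = 168

/-- a trivial intersection subgroup -/
structure Td (M T V : Subgroup G) : Prop where
  lV : V ≤ Vz M
  nV : M ≤ 𝐍(V)
  cV : Nat.card V = 8 ∧ 7 ∣ Nat.card M ∨ Nat.card V = 16
  cv : ∀ v ∈ V, v ≠ 1 → centralizer {v} ≤ M
  tr : ∀ v ∈ V, v ≠ 1 → ∀ w ∈ V, w ≠ 1 → ∃ g ∈ M, g * v * g⁻¹ = w
  i8 : 𝐎[2](M).relIndex T = 8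

namespace Ex
variable {Y : Type*} [Group Y] {f : M →* Y} (e : Ex M Q f)
include e

theorem mem (g : M) : f g = 1 ↔ (g : G) ∈ Q := by rw [← MonoidHom.mem_ker, e.k, mem_subgroupOf]

theorem eq_iff (a b : M) : f a = f b ↔ (a : G)⁻¹ * b ∈ Q := by
  rw [← inv_mul_eq_one, ← map_inv, ← map_mul, e.mem]; rfl

theorem n : M ≤ 𝐍(Q) := le_normalizer_iff_cj.2 fun g hg => cj_le_iff_forall.2 fun q hq =>
  (e.mem (⟨g, hg⟩ * ⟨q, e.l hq⟩ * ⟨g, hg⟩⁻¹)).1 (by rw [map_mul, map_mul, (e.mem ⟨q, e.l hq⟩).2 hq, mul_one, map_inv, mul_inv_cancel])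

theorem rel (l : K ≤ M) : Q.relIndex K = Nat.card ((K.subgroupOf M).map f) := by
  rw [← relIndex_ker, e.k, relIndex_subgroupOf l]

theorem idx : Q.relIndex M = Nat.card Y := by
  rw [e.rel le_rfl, subgroupOf_self, map_top_of_surjective f e.sj, card_top]

theorem pk : IsPGroup 2 f.ker := e.k ▸ isPGroup_subgroupOf e.q

/-- the preimage of a subgroup -/
def pre (_ : Ex M Q f) (H : Subgroup Y) : Subgroup G := (H.comap f).map M.subtype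

theorem pre_le (H : Subgroup Y) : e.pre H ≤ M := map_subtype_le _

theorem mem_pre {H : Subgroup Y} (g : M) : (g : G) ∈ e.pre H ↔ f g ∈ H := mem_map_iff_mem M.subtype_injective

theorem le_pre (H : Subgroup Y) : Q ≤ e.pre H := fun q hq =>
  (e.mem_pre ⟨q, e.l hq⟩).2 ((e.mem ⟨q, e.l hq⟩).2 hq ▸ one_mem H)

theorem rel_pre (H : Subgroup Y) : Q.relIndex (e.pre H) = Nat.card H := by
  rw [e.rel (e.pre_le H), pre, subgroupOf, comap_map_eq_self_of_injective M.subtype_injective,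
    map_comap_eq_self_of_surjective e.sj]

theorem p_pre {H : Subgroup Y} (p : IsPGroup 2 H) : IsPGroup 2 (e.pre H) := (p.comap_of_ker_isPGroup f e.pk).map _

theorem p57 (h : W8 G) {g : M} (o : P57 (f g)) : P57 (g : G) := by
  have := (h.sub M).p57_map f o
  unfold P57 at *
  rwa [orderOf_coe]

/-- lifting an element of order `3` -/
theorem lift3 {t : Y} (o : orderOf t = 3) : ∃ y : M, f y = t ∧ orderOf (y : G) = 3 := by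
  obtain ⟨g, rfl⟩ := e.sj t
  obtain ⟨k, e1⟩ := e.pk ⟨g ^ 3, by rw [MonoidHom.mem_ker, map_pow, ← o, pow_orderOf_eq_one]⟩
  have e2 : (g ^ 3) ^ 2 ^ k = 1 := congrArg Subtype.val e1
  have e3 : f (g ^ 4 ^ k) = f g := by
    rw [map_pow, ← pow_mod_orderOf, o, Nat.pow_mod, show 4 % 3 = 1 from rfl, one_pow, show 1 % 3 = 1 from rfl, pow_one]
  refine ⟨g ^ 4 ^ k, e3, (orderOf_coe _).trans (orderOf_eq_prime ?_ fun e4 => ?_)⟩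
  · rw [← pow_mul, mul_comm, show 4 = 2 * 2 from rfl, mul_pow, ← mul_assoc, pow_mul, pow_mul, e2, one_pow]
  · rw [← e3, e4, map_one, orderOf_one] at o
    exact absurd o (by decide)

end Ex

namespace Hy
variable (h : Hy G)
include h

theorem lc : GC.LC G := fun Q k m => isCharP_iff.2 (h.c2.2 Q k m)

theorem cq (k : IsPGroup 2 U) (n : U ≠ ⊥) : 𝐂(𝐎[2](𝐍(U))) ≤ 𝐎[2](𝐍(U)) := fun _ m => h.lc U k n
  ⟨centralizer_le_normalizer_of_le (le_pCoreOf k le_normalizer le_rfl) m, m⟩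

theorem chz (z2 : z * z = 1) (z1 : z ≠ 1) : IsCharP 2 (Hz z) := h.lc _ (.of_card (n := 1) (card_z z2 z1)) (mt zpowers_eq_bot.1 z1)

variable (m : Mx M T)
include m

theorem mcq : 𝐂(𝐎[2](M)) ≤ 𝐎[2](M) := by
  have := h.cq (isPGroup_pCoreOf 2 M) m.o
  rwa [m.nq] at this

theorem mch : IsCharP 2 M := inf_le_right.trans (h.mcq m)

theorem exists_x : ∃ x ∈ M, P57 x := exists_p57 fun t => m.ns (h.w.sol t)

theorem cV (v : IsPGroup 2 V) (v0 : V ≠ ⊥) (n : M ≤ 𝐍(V)) : 𝐂(V) ≤ 𝐎[2](M) :=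
  let ⟨_, a, o⟩ := h.exists_x m
  (le_inf ((centralizer_le_normalizer _).trans (m.eq V v v0 n).le) le_rfl).trans (h.w.cent_le o (h.mch m) a v v0 n)

theorem k1 (n : M ≤ 𝐍(V)) (hw : w ∈ M) (w0 : w ∉ 𝐎[2](M)) (c : ∀ a ∈ 𝐎[2](M), ⁅a, w⁆ ∈ V) : 𝐎[2](M) ≤ V :=
  let ⟨_, a, o⟩ := h.exists_x m
  h.w.k1 o (h.mch m) a m.o n hw w0 c

end Hy

theorem vz_ne (m : Mx M T) : Vz M ≠ ⊥ := omegaOneCenter_ne_bot (isPGroup_pCoreOf 2 M) m.o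

theorem syl_of (m : Mx M T) (n : 𝐍(T) ≤ M) : IsSyl 2 T ⊤ :=
  isSyl_of_normalizer (m.syl.mono (le_inf le_top le_normalizer) (inf_le_right.trans n))

theorem n_le_of (m : Mx M T) (u : IsPGroup 2 U) (u0 : U ≠ ⊥) (n : M ≤ 𝐍(U)) (k : 𝐍(T) ≤ 𝐍(U)) : 𝐍(T) ≤ M :=
  k.trans (m.eq U u u0 n).le

theorem n_le_of_J (m : Mx M T) (j : thompsonSubgroupOf 2 T ≤ 𝐎[2](M)) : 𝐍(T) ≤ M := by
  have e := PLocal.thompson_eq_of_le j m.syl.pCoreOf_le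
  obtain ⟨z, hz, o⟩ := exists_orderOf_eq_of_isPGroup (isPGroup_pCoreOf 2 M) m.o
  exact n_le_of m ((isPGroup_pCoreOf 2 M).to_le j) (PLocal.thompson_ne_bot (m.syl.pCoreOf_le hz) (by rintro rfl; simp at o)
    (o ▸ pow_orderOf_eq_one z)) (e ▸ (le_normalizer_pCoreOf 2 M).trans (PLocal.normalizer_le_normalizer_thompson 2 _))
    (PLocal.normalizer_le_normalizer_thompson 2 T)

end CF.W8
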