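import Cfsg.Agent.W8.I

/-! A trivial intersection subgroup: conjugates, weak closure. -/

set_option autoImplicit false
set_option linter.unusedSectionVars false

namespace CF.W8

open Subgroup Cfsg CF.Loc CF.W7
open scoped commutatorElement

variable {G : Type*} [Group G] [Finite G] {A B D E K L M N Q R S T U V W X : Subgroup G} {a b c g k u v w x y z : G}

theorem exists_ne_of_rel {n : ℕ} (i : K.relIndex A ≤ n) (c : n < Nat.card A) : ∃ a ∈ A, a ∈ K ∧ a ≠ 1 := by_contra fun k => by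
  have e := card_inf_mul_relIndex K A
  rw [show K ⊓ A = ⊥ from eq_bot_iff.2 fun a ha => by_contra fun a1 => k ⟨a, ha.2, ha.1, a1⟩, card_bot] at e
  omega

theorem or_of_rel (i : K.relIndex A ≤ 2) (hv : v ∈ A) (v0 : v ∉ K) (ha : a ∈ A) : a ∈ K ∨ a * v ∈ K :=
  or_iff_not_imp_left.2 fun a0 => mul_mem_of_relIndex_two (by
    have e1 : K.relIndex A ≠ 0 := index_ne_zero_of_finite
    have e2 : K.relIndex A ≠ 1 := fun e => v0 (relIndex_eq_one.1 e hv)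
    omega) ha hv a0 v0

namespace Td
variable (d : Td M T V)
include d

theorem ea : IsElementaryAbelian 2 V := isElemAb_of_le (eV M) d.lV

theorem p2 : IsPGroup 2 V := isElemAb_isPGroup d.ea

theorem lQ : V ≤ 𝐎[2](M) := d.lV.trans (VQ M)

theorem qc : 𝐎[2](M) ≤ 𝐂(V) := (QV M).trans (centralizer_anti d.lV)

theorem c8 (g : G) : 4 < Nat.card (cj[g] V) := by
  rw [card_cj]
  rcases d.cV with ⟨e, -⟩ | e <;> omega

theorem v0 : V ≠ ⊥ := fun e => by
  have := d.c8 1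
  rw [e, cj_bot, card_bot] at this
  omega

theorem ti (hw : w ∈ V) (k : w ∈ cj[g] V) (w1 : w ≠ 1) : g ∈ M := by
  obtain ⟨t, ht, e⟩ := d.tr _ (mem_cj.1 k) (by simpa [mul_assoc, inv_mul_eq_one] using w1) w hw w1
  refine (mul_mem_cancel_right (inv_mem ht)).1 (d.cv w hw w1 (mem_centralizer_singleton_iff.2 ?_))
  calc _ = g * t⁻¹ * (t * (g⁻¹ * w * g) * t⁻¹) := by rw [e]
    _ = _ := by group

theorem cv' (k : w ∈ cj[g] V) (w1 : w ≠ 1) : centralizer {w} ≤ cj[g] M := by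
  obtain ⟨v, hv, rfl⟩ := k
  have := cj_mono g (d.cv v hv (by rintro rfl; exact w1 (map_one _)))
  rwa [cj_centralizer_singleton] at this

variable (h : Hy G) (m : Mx M T)
include h m

theorem one (l : cj[g] V ≤ M) : cj[g] V ≤ 𝐂(V) := by
  obtain ⟨w, hw, wQ, w1⟩ := exists_ne_of_rel (h.r2 M _ (h.mch m) m.o l (isElemAb_cj g d.ea)) (d.c8 g)
  have l' : V ≤ cj[g] M := fun v hv => d.cv' hw w1 (mem_centralizer_singleton_iff.2 (d.qc wQ v hv))
  have c := commutator_le_inf_of_normalize (l.trans d.nV) (l'.trans (cj_normalizer g V ▸ cj_mono g d.nV))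
  by_cases gM : g ∈ M
  · rw [cj_eq_self (d.nV gM)]; exact isElemAb_le_centralizer d.ea
  · exact commutator_eq_bot_iff_le_centralizer'.1 (eq_bot_iff.2 fun t ht => by_contra fun t1 => gM (d.ti (c ht).1 (c ht).2 t1))

theorem one' (l : cj[k] V ≤ cj[g] M) : cj[k] V ≤ 𝐂(cj[g] V) := by
  rw [le_cj_iff, ← cj_mul] at l
  rw [← cj_centralizer, le_cj_iff, ← cj_mul]
  exact d.one h m l

theorem tq (hw : w ∈ cj[g] V) (w1 : w ≠ 1) (c : cj[k] V ≤ centralizer {w}) : cj[k] V ≤ 𝐂(cj[g] V) :=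
  d.one' h m (c.trans (d.cv' hw w1))

theorem tq' (hw : w ∈ cj[g] V) (c : w ∈ 𝐂(V)) (n : ¬ cj[g] V ≤ 𝐂(V)) : w = 1 := by_contra fun w1 => n (le_centralizer_comm.1
  ((cj_one V).ge.trans (d.tq h m hw w1 ((cj_one V).le.trans fun v hv => mem_centralizer_singleton_iff.2 (c v hv)))))

theorem cQ : 𝐂(V) ≤ 𝐎[2](M) := h.cV m d.p2 d.v0 d.nV

theorem lT : V ≤ T := d.lQ.trans m.syl.pCoreOf_le

theorem nw : 𝐍(weakClosure V T) = M :=
  m.eq _ (m.syl.isPGroup.to_le (weakClosure_le V T)) (fun e => d.v0 (le_bot_iff.1 ((le_weakClosure (d.lT h m)).trans e.le)))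
    (weakClosure_eq_of_le (weakClosure_le_iff.2 fun _ l => (d.one h m (l.trans m.syl.le)).trans (d.cQ h m)) m.syl.pCoreOf_le ▸
      (le_normalizer_pCoreOf 2 M).trans (normalizer_le_normalizer_weakClosure V _))

theorem syl : IsSyl 2 T ⊤ := syl_of m (d.nw h m ▸ normalizer_le_normalizer_weakClosure V T)

variable (t : T ≤ N) (ch : IsCharP 2 N)
include t ch

theorem o2 : 𝐎[2](N) ≠ ⊥ := ch.pCoreOf_ne_bot fun e => d.v0 (le_bot_iff.1 (((d.lT h m).trans t).trans e.le))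

theorem yT : 𝐎[2](N) ≤ T := ((d.syl h m).mono t le_top).pCoreOf_le

theorem exY (l : cj[g] V ≤ N) : ∃ w ∈ cj[g] V, w ∈ 𝐎[2](N) ∧ w ≠ 1 :=
  exists_ne_of_rel (h.r2 N _ ch (d.o2 h m t ch) l (isElemAb_cj g d.ea)) (d.c8 g)

theorem le_M (l : V ≤ 𝐎[2](N)) : N ≤ M := by
  obtain ⟨⟨z, zV, zT⟩, z1⟩ := ne_bot_iff_exists_ne_one.1 (inf_centralizer_ne_bot d.p2 m.syl.isPGroup (m.syl.le.trans d.nV) d.v0)
  replace z1 : z ≠ 1 := fun e => z1 (Subtype.ext e)
  have nY := le_normalizer_pCoreOf 2 N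
  have zZ : z ∈ Vz N := mem_omegaOneCenter.2 ⟨l zV, centralizer_anti (d.yT h m t ch) zT, d.ea.2 z zV⟩
  have nK : N ≤ 𝐍(N ⊓ 𝐂(ncl (zpowers z) N)) := le_normalizer_inf le_normalizer (le_normalizer_centralizer (le_normalizer_ncl _ _))
  have s := ((d.syl h m).mono t le_top).inf_of_le_normalizer inf_le_left nK
  rw [← s.frattini_sup inf_le_left nK]
  refine sup_le (inf_le_right.trans ((centralizer_anti (le_ncl _ _)).trans ((centralizer_zpowers z).le.trans (d.cv z zV z1))))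
    (inf_le_right.trans ?_)
  rw [← d.nw h m, ← weakClosure_eq_of_le (K := T ⊓ (N ⊓ 𝐂(ncl (zpowers z) N))) (weakClosure_le_iff.2 fun g lg =>
    le_inf lg (le_inf (lg.trans t) (le_centralizer_comm.1 (ncl_le_iff.2 fun k hk => ?_)))) inf_le_left]
  · exact normalizer_le_normalizer_weakClosure V _
  rw [cj_zpowers, zpowers_le]
  have uZ := conj_mem_of_mem_normalizer (W7.nV N hk) zZ
  obtain ⟨w, hw, wY, w1⟩ := d.exY h m t ch (lg.trans t)
  have uM := d.cv' hw w1 (mem_centralizer_singleton_iff.2 (QV N wY _ uZ))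
  intro a ha
  by_contra c
  have c1 : ⁅a, k * z * k⁻¹⁆ ∈ cj[g] V := commutator_le_left_of_le_normalizer (cj_normalizer g V ▸ cj_mono g d.nV)
    (commutator_mem_commutator ha uM)
  have c2 : ⁅a, k * z * k⁻¹⁆ ∈ Vz N := commutator_le_right_of_le_normalizer (W7.nV N) (commutator_mem_commutator (t (lg ha)) uZ)
  exact c (d.tq h m c1 (mt commutatorElement_eq_one_iff_mul_comm.1 c) (fun v hv => mem_centralizer_singleton_iff.2
    (QV N (cj_le_of_mem_normalizer (nY hk) l hv) _ c2).symm) (conj_mem_cj k zV) a ha)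

theorem exk (n : ¬ N ≤ M) : ∃ k ∈ N, cj[k] V ⊓ 𝐎[2](M) = ⊥ := by
  obtain ⟨k, hk, c⟩ : ∃ k ∈ N, ¬ cj[k] V ≤ 𝐂(V) := by_contra fun c => n (d.le_M h m t ch ((le_ncl V N).trans (le_pCoreOf
    ((isPGroup_pCoreOf 2 M).to_le (ncl_le_iff.2 fun k hk => (by_contra fun e => c ⟨k, hk, e⟩ : cj[k] V ≤ 𝐂(V)).trans (d.cQ h m)))
      (ncl_le_of_le ((d.lT h m).trans t)) (le_normalizer_ncl _ _))))
  exact ⟨k, hk, eq_bot_iff.2 fun w hw => d.tq' h m hw.1 (d.qc hw.2) c⟩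

theorem nA : T ≤ 𝐍(V ⊓ 𝐎[2](N)) := le_normalizer_inf (m.syl.le.trans d.nV) (t.trans (le_normalizer_pCoreOf 2 N))

theorem nA' (hg : g ∈ N) : 𝐎[2](N) ≤ 𝐍(cj[g] (V ⊓ 𝐎[2](N))) := by
  have := cj_mono g ((d.yT h m t ch).trans (d.nA h m t ch))
  rwa [cj_normalizer, cj_eq_self (le_normalizer_pCoreOf 2 N hg)] at this

theorem aY (hg : g ∈ N) : cj[g] (V ⊓ 𝐎[2](N)) ≤ 𝐎[2](N) := cj_le_of_mem_normalizer (le_normalizer_pCoreOf 2 N hg) inf_le_right

theorem sec (hg : g ∈ N) (hv : v ∈ V) (l : cj[g] (V ⊓ 𝐎[2](N)) ≤ E) (l' : E ≤ 𝐎[2](N)) : g * v * g⁻¹ ∈ secCent 𝐎[2](N) E := by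
  have nY := le_normalizer_pCoreOf 2 N
  have c : ⁅𝐎[2](N), cj[g] V⁆ ≤ E := by
    have := cj_mono g (commutator_le_inf_of_normalize (((d.lT h m).trans t).trans nY) ((d.yT h m t ch).trans (m.syl.le.trans d.nV)))
    rw [cj_commutator, cj_eq_self (nY hg), inf_comm] at this
    exact this.trans l
  exact le_secCent_iff.2 ⟨le_normalizer_of_commutator_le l' c, c⟩ (conj_mem_cj g hv)

theorem caseb (n : ¬ N ≤ M) (i : 𝐎[2](N).relIndex T ≤ 8) (k : ∀ v ∈ T, v ∉ 𝐎[2](N) → v * v ∈ 𝐎[2](N) →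
    (∀ t ∈ T, ⁅t, v⁆ ∈ 𝐎[2](N)) → ∃ g ∈ N, P57 (v * (g * v * g⁻¹))) : 𝐎[2](M) ≤ V := by
  obtain ⟨v, hv, v0, c⟩ := exists_fixed_mod d.p2 m.syl.isPGroup (m.syl.le.trans d.nV) (mt (d.le_M h m t ch) n)
  obtain ⟨g, hg, o⟩ := k v (d.lT h m hv) v0 (sq_of d.ea hv ▸ one_mem _) fun s hs =>
    swap_mem (c (commutator_mem_commutator (mem_zpowers v) hs))
  obtain ⟨j, hj, e⟩ := d.exk h m t ch n
  have a1 := d.aY h m t ch (one_mem N)
  have lE := sup_le a1 (d.aY h m t ch hg)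
  have s1 := d.sec h m t ch (one_mem N) hv le_sup_left lE
  rw [one_mul, inv_one, mul_one] at s1
  have s := mul_mem s1 (d.sec h m t ch hg hv le_sup_right lE)
  have pY := isPGroup_pCoreOf 2 N
  have vN := t (d.lT h m hv)
  have e1 := card_le_card_of_le ((h.w.comm o (o.nd2 pY) (le_normalizer_pCoreOf 2 N (mul_mem vN (mul_mem (mul_mem hg vN)
    (inv_mem hg))))).ge.trans ((commutator_mono le_rfl (zpowers_le.2 s)).trans (commutator_secCent_le _ _)))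
  have e2 := card_sup_le_mul ((d.aY h m t ch hg).trans (d.nA' h m t ch (one_mem N)))
  have e3 := h.r2 M _ (h.mch m) m.o ((d.aY h m t ch hj).trans ((d.yT h m t ch).trans m.syl.le))
    (isElemAb_cj j (isElemAb_of_le d.ea inf_le_left))
  have e4 := card_inf_mul_relIndex 𝐎[2](M) (cj[j] (V ⊓ 𝐎[2](N)))
  rw [inf_comm, le_bot_iff.1 ((inf_le_inf_right _ (cj_mono j inf_le_left)).trans e.le), card_bot, card_cj] at e4
  rw [card_cj, card_cj] at e2
  have e5 := card_mul_relIndex (d.yT h m t ch)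
  have e6 := card_mul_relIndex m.syl.pCoreOf_le
  have e7 := Nat.mul_le_mul (e1.trans (e2.trans (Nat.mul_le_mul (show _ ≤ 4 by omega) (show _ ≤ 4 by omega)))) i
  rw [d.i8] at e6
  refine (eq_of_le_of_card_le d.lQ ?_).ge
  have e8 := card_dvd_of_le d.lQ
  rcases d.cV with ⟨e9, c7⟩ | e9
  · have : Fact (Nat.Prime 7) := ⟨by decide⟩
    obtain ⟨x, hx, ox⟩ := exists_orderOf_eq_of_dvd_card c7
    obtain ⟨r, e10⟩ := h.w.mod (.inr ox) (P57.nd2 (.inr ox) (isPGroup_pCoreOf 2 M)) (le_normalizer_pCoreOf 2 M hx)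
    rw [ox] at e10
    rw [e9] at e8
    omega
  · omega

end Td

end CF.W8
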