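import Cfsg.Agent.W8.J1

/-! A trivial intersection subgroup: the solvable case. -/

set_option autoImplicit false
set_option linter.unusedSectionVars false

namespace CF.W8

open Subgroup Cfsg CF.Loc CF.W7
open scoped commutatorElement

variable {G : Type*} [Group G] [Finite G] {A B D E F K L M N P Q R S T U V W X : Subgroup G} {a b c g k u v w x y z : G}

theorem W8.ord3 (h : W8 G) (k3 : k ^ 3 ∈ K) (k0 : k ∉ K) : orderOf (k ^ 4) = 3 := by
  have d : 3 ∣ orderOf k := by_contra fun d =>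
    k0 (mem_of_pow_mem_of_coprime ((Nat.Prime.coprime_iff_not_dvd Nat.prime_three).2 d).symm k3)
  have := h k
  have := orderOf_pos k
  rw [orderOf_pow]
  obtain e | e : orderOf k = 3 ∨ orderOf k = 6 := by omega
  all_goals rw [e]; decide

theorem mem_z3 (o : orderOf y = 3) (m : a ∈ zpowers y) : a = 1 ∨ a = y ∨ a = y⁻¹ := by
  obtain ⟨i, rfl⟩ := mem_powers_iff_mem_zpowers.2 m
  have e : y ^ 2 = y⁻¹ := eq_inv_of_mul_eq_one_left (by rw [← pow_succ, show 2 + 1 = orderOf y from o.symm, pow_orderOf_eq_one])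
  beta_reduce
  rw [← pow_mod_orderOf, o]
  have : i % 3 < 3 := Nat.mod_lt _ (by decide)
  interval_cases i % 3 <;> simp [e]

theorem W8.exists3 (h : W8 G) (t : T23 N) (n : ¬ IsPGroup 2 N) : ∃ y ∈ N, orderOf y = 3 := by_contra fun k =>
  n (isPGroup_of_forall_coprime fun g hg c => orderOf_eq_one_iff.1 (by
    have := h g
    have := orderOf_pos g
    have a : orderOf g ≠ 3 := fun e => k ⟨g, hg, e⟩
    have b : ¬ P57 g := fun o => t.not_mem o hg
    have := (Nat.Prime.coprime_iff_not_dvd Nat.prime_two).1 c.symm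
    unfold P57 at b
    omega))

theorem cube_mem (h : W8 G) (p : IsPGroup 3 P) (n : P ≤ 𝐍(K)) (m : g ∈ K ⊔ P) : g ^ 3 ∈ K := by
  obtain ⟨a, ha, b, hb, rfl⟩ := (mem_sup_of_le_normalizer n).1 m
  rw [show (a * b) ^ 3 = a * (b * a * b⁻¹) * (b * (b * a * b⁻¹) * b⁻¹) * b ^ 3 by simp only [pow_succ]; group, h.exp3 p hb, mul_one]
  exact mul_mem (mul_mem ha (conj_mem_of_mem_normalizer (n hb) ha))
    (conj_mem_of_mem_normalizer (n hb) (conj_mem_of_mem_normalizer (n hb) ha))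

theorem inv_comm (v2 : v * v = 1) (g : G) : v * ⁅g, v⁆ ^ 4 * v⁻¹ = (⁅g, v⁆ ^ 4)⁻¹ := by
  rw [← conj_pow, ← inv_pow, commutatorElement_inv, commutatorElement_def, commutatorElement_def, mul_assoc, mul_assoc,
    ← mul_inv_rev, v2, inv_one, mul_one, ← mul_assoc, ← mul_assoc, inv_eq_of_mul_eq_one_right v2]

namespace Td
variable (d : Td M T V) (h : Hy G) (m : Mx M T)
include d h m

theorem fin (l : B ≤ M) (b0 : B ≠ ⊥) (i : B ⊓ 𝐎[2](M) = ⊥) (hv : v ∈ V) (k : ∀ a ∈ 𝐎[2](M), a ∈ 𝐍(B) ∨ a * v ∈ 𝐍(B)) :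
    𝐎[2](M) ≤ V := by
  obtain ⟨⟨w, hw⟩, w1⟩ := ne_bot_iff_exists_ne_one.1 b0
  have c : ∀ a ∈ 𝐎[2](M), a ∈ 𝐍(B) → a ∈ sc w V := fun a ha n => ⟨d.nV (pCoreOf_le 2 M ha), by
    rw [mem_bot.1 (i.le ⟨commutator_le_left_of_le_normalizer (zpowers_le.2 n) (commutator_mem_commutator hw (mem_zpowers a)),
      commutator_le_right_of_le_normalizer (l.trans (le_normalizer_pCoreOf 2 M)) (commutator_mem_commutator hw ha)⟩)]
    exact one_mem _⟩
  refine h.k1 m d.nV (l hw) (fun k => w1 (Subtype.ext (mem_bot.1 (i.le ⟨hw, k⟩)))) fun a ha => swap_mem ((k a ha).elim (c a ha)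
    fun n => (mul_mem_cancel_right (show v ∈ sc w V from ⟨le_normalizer hv, ?_⟩)).1 (c _ (mul_mem ha (d.lQ hv)) n)).2
  exact commutator_le_right_of_le_normalizer (l.trans d.nV) (commutator_mem_commutator hw hv)

variable (t : T ≤ N) (ch : IsCharP 2 N) (hv : v ∈ V) (i : ∀ a ∈ V, a ∈ 𝐎[2](N) ∨ a * v ∈ 𝐎[2](N))
include t ch hv i

theorem le_of (a : V ⊓ 𝐎[2](N) ≤ K) (m : v ∈ K) : V ≤ K := fun u hu =>
  (i u hu).elim (fun k => a ⟨hu, k⟩) fun k => (mul_mem_cancel_right m).1 (a ⟨mul_mem hu hv, k⟩)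

theorem eb (hb : b ∈ N) (o : orderOf b = 3) (e : v * b * v⁻¹ = b⁻¹) : cj[b] V ⊓ 𝐎[2](M) = ⊥ ∧ V ⊓ 𝐎[2](N) ≤ ⁅𝐎[2](N), zpowers b⁆ ∧
    ⁅𝐎[2](N), zpowers b⁆ ≤ V ⊓ 𝐎[2](N) ⊔ cj[b] (V ⊓ 𝐎[2](N)) ∧ ⁅𝐎[2](N), zpowers b⁆ ⊓ 𝐂(zpowers b) = ⊥ := by
  have e1 : v * (b * v * b⁻¹) = b := by
    have e' := e
    rw [inv_eq_of_mul_eq_one_right (sq_of d.ea hv)] at e'
    rw [← mul_assoc, ← mul_assoc, e', ← mul_inv_rev, inv_eq_iff_mul_eq_one, ← pow_three', ← o, pow_orderOf_eq_one]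
  have n : ¬ cj[b] V ≤ 𝐂(V) := fun l => by
    have := sq_of (isElemAb_sup (isElemAb_cj b d.ea) d.ea l) (mul_mem (mem_sup_right hv) (mem_sup_left (conj_mem_cj b hv)))
    rw [e1, ← pow_two, ← orderOf_dvd_iff_pow_eq_one, o] at this
    omega
  have q : cj[b] V ⊓ 𝐎[2](M) = ⊥ := eq_bot_iff.2 fun w hw => d.tq' h m hw.1 (d.qc hw.2) n
  have lE := sup_le (inf_le_right : V ⊓ 𝐎[2](N) ≤ _) (d.aY h m t ch hb)
  have s1 := d.sec h m t ch (one_mem N) hv ((cj_one _).le.trans le_sup_left) lE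
  rw [one_mul, inv_one, mul_one] at s1
  have s := mul_mem s1 (d.sec h m t ch hb hv le_sup_right lE)
  rw [e1] at s
  have pE := (isPGroup_pCoreOf 2 N).to_le lE
  have nA := (d.aY h m t ch hb).trans ((d.yT h m t ch).trans (d.nA h m t ch))
  have f : (V ⊓ 𝐎[2](N) ⊔ cj[b] (V ⊓ 𝐎[2](N))) ⊓ 𝐂(zpowers b) = ⊥ := by_contra fun f => by
    obtain ⟨⟨w, ⟨hw, wb⟩, wv⟩, w1⟩ := ne_bot_iff_exists_ne_one.1 (inf_centralizer_ne_bot pE.to_inf_left (d.p2.to_le (zpowers_le.2 hv))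
      (le_normalizer_inf (zpowers_le.2 s1.1) (le_normalizer_centralizer (zpowers_le.2
        (cj_eq_self_iff.1 (by rw [cj_zpowers, e, zpowers_inv]))))) f)
    obtain ⟨a, ha, a', ha', rfl⟩ := (mem_sup_of_le_normalizer nA).1 hw
    have a1 : a' = 1 := d.tq' h m (cj_mono b inf_le_left ha') (le_centralizer_comm.1 (d.le_of h m t ch hv i ?_ ?_) (mem_zpowers a')) n
    · subst a1
      rw [mul_one] at wb
      refine n ?_
      rw [cj_eq_self (d.nV (d.cv a ha.1 (fun k => w1 (Subtype.ext (by simp [k]))) (mem_centralizer_singleton_iff.2 (wb b (mem_zpowers b)))))]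
      exact isElemAb_le_centralizer d.ea
    · refine (commutator_eq_bot_iff_le_centralizer'.1 (eq_bot_iff.2 ?_)).trans (centralizer_anti (zpowers_le.2 ha'))
      exact (commutator_le_inf_of_normalize (inf_le_right.trans (d.nA' h m t ch hb)) nA).trans
        ((inf_le_inf (cj_mono b inf_le_left) (inf_le_left.trans d.lQ)).trans q.le)
    · have := wv v (mem_zpowers v)
      rw [← mul_assoc, isElemAb_le_centralizer d.ea ha.1 v hv, mul_assoc, mul_assoc, mul_right_inj] at this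
      rw [centralizer_zpowers]
      exact mem_centralizer_singleton_iff.2 this
  have c := (commutator_mono le_rfl (zpowers_le.2 s)).trans (commutator_secCent_le _ _)
  have e2 := Coprime.commutator_sup_centralizer _ _ (zpowers_le.2 s.1) (cop23 pE (p3 o)).symm (.inr (isSolvable_of_isPGroup pE))
  rw [f, sup_bot_eq] at e2
  exact ⟨q, le_sup_left.trans (e2.ge.trans (commutator_mono lE le_rfl)), c, eq_bot_iff.2 ((inf_le_inf_right _ c).trans f.le)⟩

theorem no9 (a0 : V ⊓ 𝐎[2](N) ≠ ⊥) (hb : b ∈ N) (hc : c ∈ N) (o : orderOf b = 3) (o' : orderOf c = 3) (e : v * b * v⁻¹ = b⁻¹)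
    (e' : v * c * v⁻¹ = c⁻¹) (k : b * c = c * b) : c ∈ zpowers b := by_contra fun c0 => by
  have nY := le_normalizer_pCoreOf 2 N
  have cc : zpowers c ≤ 𝐂(zpowers b) := zpowers_le.2 (by rw [centralizer_zpowers]; exact mem_centralizer_singleton_iff.2 k.symm)
  have ab : zpowers b ⊔ zpowers c ≤ 𝐂(zpowers b ⊔ zpowers c) := by
    rw [centralizer_sup]
    exact sup_le (le_inf (le_centralizer _) (le_centralizer_comm.1 cc)) (le_inf cc (le_centralizer _))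
  have : IsMulCommutative ↥(zpowers b ⊔ zpowers c) := le_centralizer_iff_isMulCommutative.1 ab
  have nb := cc.trans (centralizer_le_normalizer _)
  have p := isPGroup_sup (p3 o) (p3 o') nb
  have l := sup_le (zpowers_le.2 hb) (zpowers_le.2 hc)
  obtain ⟨-, a1, a2, -⟩ := d.eb h m t ch hv i hb o e
  have nE : ∀ g ∈ zpowers b ⊔ zpowers c, zpowers b ⊔ zpowers c ≤ 𝐍(⁅𝐎[2](N), zpowers g⁆) := fun g hg =>
    le_normalizer_commutator (l.trans nY) (ab.trans (centralizer_le_normalizer_of_le (zpowers_le.2 hg)))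
  refine a0 (le_bot_iff.1 (a1.trans (Coprime.le_of_forall_centralizer_le _ _ (fun cy => ?_) (nE b (mem_sup_left (mem_zpowers b)))
    (cop23 ((isPGroup_pCoreOf 2 N).to_le (commutator_le_left_of_le_normalizer (zpowers_le.2 (nY hb)))) p).symm ⊥ fun g hg g1 => ?_)))
  · exact c0 (mem_of_cyc cy p le_sup_left (zp_ne o) o' (mem_sup_right (mem_zpowers c)))
  obtain ⟨-, b1, -, b3⟩ := d.eb h m t ch hv i (l hg) (orderOf_eq_prime (h.w.exp3 p hg) g1) (by
    obtain ⟨_, ⟨r, rfl⟩, _, ⟨s, rfl⟩, rfl⟩ := (mem_sup_of_le_normalizer nb).1 hg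
    beta_reduce
    rw [← conj_mul, ← conj_zpow, ← conj_zpow, e, e', inv_zpow, inv_zpow, ← mul_inv_rev, ((show Commute b c from k).zpow_zpow r s).eq])
  rw [← b3, centralizer_zpowers]
  exact inf_le_inf_right _ (a2.trans (sup_le b1 (cj_le_of_mem_normalizer (nE g hg (mem_sup_left (mem_zpowers b))) b1)))

theorem no9' (a0 : V ⊓ 𝐎[2](N) ≠ ⊥) (lY : 𝐎[2](N) ≤ F) (l : F ≤ N) (f : ∀ g ∈ F, g ^ 3 ∈ 𝐎[2](N)) (hb : b ∈ N) (hc : c ∈ F)
    (o : orderOf b = 3) (e : v * b * v⁻¹ = b⁻¹) (e' : v * c * v⁻¹ = c⁻¹) (k : ⁅c, b⁆ ∈ 𝐎[2](N)) : c ∈ 𝐎[2](N) ⊔ zpowers b := by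
  have nY := le_normalizer_pCoreOf 2 N
  obtain ⟨u, hu, e1⟩ := lift_c (isPGroup_pCoreOf 2 N) o (nY hb) (nY (l hc)) k
  have hu' := conj_mem_of_mem_normalizer (nY (t (d.lT h m hv))) (inv_mem hu)
  have e2 : ⁅u * c, v⁆ = u * (c * c) * (v * u⁻¹ * v⁻¹) := by
    rw [show c * c = c * (v * c * v⁻¹)⁻¹ by rw [e', inv_inv], commutatorElement_def]; group
  have kF : ⁅u * c, v⁆ ∈ F := e2 ▸ mul_mem (mul_mem (lY hu) (mul_mem hc hc)) (lY hu')
  have key : ⁅u * c, v⁆ ∈ 𝐎[2](N) ⊔ zpowers b → c ∈ 𝐎[2](N) ⊔ zpowers b := fun k => by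
    rw [e2, mul_mem_cancel_right (mem_sup_left hu'), mul_mem_cancel_left (mem_sup_left hu)] at k
    exact (mul_mem_cancel_left k).1 (pow_three' c ▸ mem_sup_left (f c hc))
  by_contra c0
  refine c0 (key ((mul_mem_cancel_left (mem_sup_left (f _ kF))).1 (pow_succ ⁅u * c, v⁆ 3 ▸ mem_sup_right (d.no9 h m t ch hv i a0 hb
    (l (pow_mem kF 4)) o (h.w.ord3 (f _ kF) fun k => c0 (key (mem_sup_left k))) e (inv_comm (sq_of d.ea hv) _) ?_))))
  refine (Commute.pow_right ?_ 4).eq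
  have e3 : Commute b (u * c) := e1
  have e4 : Commute b (v * (u * c)⁻¹ * v⁻¹) := by
    have := e3.inv_inv.conj v
    rwa [← conj_inv, e, inv_inv] at this
  rw [commutatorElement_def, mul_assoc, mul_assoc, ← mul_assoc v]
  exact e3.mul_right e4

omit hv i in
theorem casea (tt : T23 N) (n : ¬ N ≤ M) : 𝐎[2](M) ≤ V := by
  have nY := le_normalizer_pCoreOf 2 N
  have vT := d.lT h m
  have QT := m.syl.pCoreOf_le
  have yT := d.yT h m t ch
  have r := h.gg.qd4 N V tt ch (vT.trans t) d.ea (commutator_eq_bot_iff_le_centralizer'.2 ((isElemAb_le_centralizer d.ea).trans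
    (centralizer_anti (commutator_le_right_of_le_normalizer (yT.trans (m.syl.le.trans d.nV))))))
  obtain ⟨v, hv, v0⟩ := SetLike.not_le_iff_exists.1 (mt (d.le_M h m t ch) n)
  have i := fun a => or_of_rel (a := a) r hv v0
  have a0 : V ⊓ 𝐎[2](N) ≠ ⊥ := fun e =>
    let ⟨w, a, b, c⟩ := d.exY h m t ch ((cj_one V).le.trans (vT.trans t)); c (mem_bot.1 (e.le ⟨(cj_one V).le a, b⟩))
  have fin : ∀ g ∈ N, cj[g] V ⊓ 𝐎[2](M) = ⊥ → (∀ a ∈ 𝐎[2](M), a ∈ 𝐍(cj[g] (V ⊓ 𝐎[2](N))) ∨ a * v ∈ 𝐍(cj[g] (V ⊓ 𝐎[2](N)))) →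
      𝐎[2](M) ≤ V := fun g hg e => d.fin h m ((d.aY h m t ch hg).trans (yT.trans m.syl.le)) (mt cj_eq_bot_iff.1 a0)
    (eq_bot_iff.2 ((inf_le_inf_right _ (cj_mono g inf_le_left)).trans e.le)) hv
  obtain ⟨P, p⟩ := exists_isSyl 3 N
  have nF := h.gg.g1 N P tt ch p
  have lF := sup_le (pCoreOf_le 2 N) p.le
  have f := fun g => cube_mem (g := g) h.w p.isPGroup (p.le.trans nY)
  have nZ := le_normalizer_inf nF (le_normalizer_secCent nF nY)
  by_cases c : ∀ c ∈ (𝐎[2](N) ⊔ P) ⊓ secCent (𝐎[2](N) ⊔ P) 𝐎[2](N), ⁅c, v⁆ ∈ 𝐎[2](N)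
  · obtain ⟨y₀, y0, o0⟩ := h.w.exists3 tt fun k => n ((((d.syl h m).mono t le_top).eq_of_isPGroup k).ge.trans m.syl.le)
    obtain ⟨y, hy, o⟩ := exists_orderOf_eq_of_isPGroup p.isPGroup.to_inf_left
      (center_ne_bot p.isPGroup (p.ne_bot_iff.2 (o0 ▸ N.orderOf_dvd_natCard y0)))
    have yZ : y ∈ (𝐎[2](N) ⊔ P) ⊓ secCent (𝐎[2](N) ⊔ P) 𝐎[2](N) := ⟨mem_sup_right hy.1, zpowers_le.1 (le_secCent_iff.2
      ⟨zpowers_le.2 (nY (p.le hy.1)), commutator_sup_left_le le_normalizer (p.le.trans nY) (commutator_le_left_of_le_normalizer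
        (zpowers_le.2 (nY (p.le hy.1)))) ((commutator_eq_bot_iff_le_centralizer'.2 (zpowers_le.2 hy.2)).le.trans bot_le)⟩)⟩
    set Z := (𝐎[2](N) ⊔ P) ⊓ secCent (𝐎[2](N) ⊔ P) 𝐎[2](N)
    have ZN : Z ≤ N := inf_le_left.trans lF
    have yR : 𝐎[2](N) ≤ T ⊓ secCent Z 𝐎[2](N) :=
      le_inf yT (le_secCent_iff.2 ⟨le_normalizer, commutator_le_right_of_le_normalizer (ZN.trans nY)⟩)
    have l := d.le_M h m (N := Z ⊔ T) le_sup_right (ch.of_pCoreOf_le (yT.trans le_sup_right) (sup_le ZN t))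
      ((d.le_of h m t ch hv i (inf_le_right.trans yR) ⟨vT hv, nY (t (vT hv)), c⟩).trans (le_pCoreOf m.syl.isPGroup.to_inf_left
        (inf_le_left.trans le_sup_right) (sup_le (le_normalizer_of_commutator_le le_rfl ((commutator_comm _ _).le.trans
          (((commutator_mono le_rfl inf_le_right).trans (commutator_secCent_le _ _)).trans yR)))
            (le_normalizer_inf le_normalizer (le_normalizer_secCent (t.trans nZ) (t.trans nY))))))
    obtain ⟨k, hk, e⟩ := d.exk h m t ch n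
    exact fin k hk e fun a ha => (or_of_rel (h.gg.g3a N _ y tt ch (p.le hy.1) o (isPGroup_pCoreOf 2 M) (QT.trans t)
      (le_normalizer_pCoreOf 2 M (l (mem_sup_left yZ)))).2 (d.lQ hv) v0 ha).imp (d.nA' h m t ch hk ·) (d.nA' h m t ch hk ·)
  push Not at c
  obtain ⟨c, hc, c0⟩ := c
  have kZ := commutator_le_left_of_le_normalizer (vT.trans (t.trans nZ)) (commutator_mem_commutator hc hv)
  have o := h.w.ord3 (f _ kZ.1) c0
  have e := inv_comm (sq_of d.ea hv) c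
  have bZ := pow_mem kZ 4
  have b0 : ⁅c, v⁆ ^ 4 ∉ 𝐎[2](N) := fun k => c0 ((mul_mem_cancel_left (f _ kZ.1)).1 (pow_succ ⁅c, v⁆ 3 ▸ k))
  generalize ⁅c, v⁆ ^ 4 = b at o e bZ b0
  have bN := lF bZ.1
  have key : ∀ a ∈ T, ⁅a, b⁆ ∈ 𝐎[2](N) → a ∈ 𝐍(cj[b] (V ⊓ 𝐎[2](N))) := fun a ha k => by
    rw [← cj_eq_self_iff, ← cj_mul, show a * b = ⁅a, b⁆ * (b * a) by simp [commutatorElement_def], cj_mul, cj_mul,
      cj_eq_self (d.nA h m t ch ha), cj_eq_self (d.nA' h m t ch bN k)]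
  refine fin b bN (d.eb h m t ch hv i bN o e).1 fun a ha => ?_
  have aZ := conj_mem_of_mem_normalizer (nZ (t (QT ha))) bZ
  have av := d.qc ha v hv
  obtain ⟨y, hy, s, hs, e1⟩ := (mem_sup_of_le_normalizer (zpowers_le.2 (nY bN))).1 (d.no9' h m t ch hv i a0 le_sup_left lF f bN aZ.1 o e
    (by
      calc _ = v * a * b * (v * a)⁻¹ := by group
        _ = a * (v * b * v⁻¹) * a⁻¹ := by rw [av]; group
        _ = _ := by rw [e, conj_inv]) (bZ.2.2 _ aZ.1))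
  obtain rfl | rfl | rfl := mem_z3 o hs
  · refine (b0 ?_).elim
    have := conj_mem_of_mem_normalizer' (nY (t (QT ha))) hy
    rwa [← mul_one y, e1, ← mul_assoc, ← mul_assoc, inv_mul_cancel, one_mul, inv_mul_cancel_right] at this
  · exact .inl (key a (QT ha) (by rw [commutatorElement_def, ← e1, mul_inv_cancel_right]; exact hy))
  · refine .inr (key _ (mul_mem (QT ha) (vT hv)) ?_)
    rw [show ⁅a * v, b⁆ = a * (v * b * v⁻¹) * a⁻¹ * b⁻¹ by rw [commutatorElement_def]; group, e, ← conj_inv, ← e1, mul_inv_rev, inv_inv]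
    exact conj_mem_of_mem_normalizer (nY bN) (inv_mem hy)

end Td

theorem Td.le [IsSimpleGroup G] (h : Hy G) (m : Mx M T) (d : Td M T V) : IsSyl 2 T ⊤ ∧ 𝐎[2](M) ≤ V := by
  have s := d.syl h m
  obtain ⟨U, u, u0, n, k⟩ := h.gl T M s m.syl.le m.ne_top
  have t := le_normalizer.trans n
  have ch := h.lc U u u0
  refine ⟨s, ?_⟩
  obtain ⟨P, P', a, a', e, b, b'⟩ | ⟨a, b⟩ := h.tf _ T ch (d.o2 h m t ch) (s.mono t le_top)
  · by_cases l : P ≤ M
    · exact d.casea h m a' (ch.of_pCoreOf_le ((d.yT h m t ch).trans a') (le_sup_right.trans e.le)) b' fun l' => k (e.ge.trans (sup_le l l'))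
    · exact d.casea h m a (ch.of_pCoreOf_le ((d.yT h m t ch).trans a) (le_sup_left.trans e.le)) b l
  · exact d.caseb h m t ch k a b

end CF.W8
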