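import Cfsg.Agent.W8.P1

/-! A natural module for `L₃(2)`. -/

set_option autoImplicit false
set_option linter.unusedSectionVars false

namespace CF.W8

open Subgroup Cfsg CF.Loc CF.W7
open scoped commutatorElement

variable {G : Type*} [Group G] [Finite G] {A B D E F K L M N P Q R S T U V W X : Subgroup G} {a b c g k t u v w x y z : G}

theorem le_of_idx2 (p : IsPGroup 2 D) (o : orderOf y = 3) (nD : y ∈ 𝐍(D)) (nK : y ∈ 𝐍(K)) (i : K.relIndex D ≤ 2)
    (c : D ⊓ 𝐂(zpowers y) ≤ K) : D ≤ K := by_contra fun k => by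
  have e1 : K.relIndex D ≠ 0 := index_ne_zero_of_finite
  have e2 := mt relIndex_eq_one.1 k
  exact k ((dec3 p o nD).ge.trans (sup_le (commutator_le_of_relIndex_two (by omega) (zpowers_le.2 nK) (zpowers_le.2 nD)) c))

theorem mem_n_cent (c : y * a = a * y) : y ∈ 𝐍(centralizer {a}) := by
  rw [← cj_eq_self_iff, cj_centralizer_singleton, c, mul_inv_cancel_right]

namespace W8
variable (h : W8 G)
include h

theorem wiel (ox : orderOf x = 7) (oy : orderOf y = 3) (n : y ∈ 𝐍(zpowers x)) (p : IsPGroup 2 D) (nx : x ∈ 𝐍(D))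
    (ny : y ∈ 𝐍(D)) : Nat.card D = Nat.card ↥(D ⊓ 𝐂(zpowers y)) ^ 3 := by
  have o : P57 x := .inr ox
  have := Fact.mk o.pr
  have i0 := h.inf o (o.nd2 p)
  obtain ⟨k, e⟩ := p.exists_card_eq
  have w := BG2.wielandt (h.reg o (o.nd (.inr rfl) (p3 oy))).symm (zpowers_le.2 n) (isSolvable_of_isPGroup o.pz)
    (isSolvable_of_isPGroup p) (sup_le (zpowers_le.2 nx) (zpowers_le.2 ny)) (e ▸ Nat.Coprime.coprime_dvd_left
      ⟨_, (card_sup_mul_card_inf' (zpowers_le.2 n)).symm⟩ (by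
        rw [Nat.card_zpowers, ox, c3 oy]; exact Nat.Coprime.pow_right _ (by decide)))
  rwa [i0, eq_bot_iff.2 ((inf_le_inf_left D (centralizer_anti le_sup_left)).trans i0.le), card_bot, c3 oy, one_pow, one_mul,
    mul_one] at w

theorem mod7 (o : orderOf x = 7) (p : IsPGroup 2 D) (m : g ∈ zpowers x) (g1 : g ≠ 1) (n : g ∈ 𝐍(D)) : Nat.card D % 7 = 1 := by
  have : Fact (Nat.Prime 7) := ⟨by decide⟩
  have o' : orderOf g = 7 := orderOf_eq_prime (orderOf_dvd_iff_pow_eq_one.1 (o ▸ orderOf_dvd_of_mem_zpowers m)) g1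
  obtain ⟨c, e⟩ := h.mod (.inr o') (P57.nd2 (.inr o') p) n
  rw [e, o']; omega

theorem tr7 (o : orderOf x = 7) (p : IsPGroup 2 D) (l : K ≤ D) (nD : x ∈ 𝐍(D)) (nK : x ∈ 𝐍(K)) (i : K.relIndex D = 8)
    (hc : c ∈ D) (c0 : c ∉ K) (c2 : c * c ∈ K) (n : c ∈ 𝐍(K)) (ha : a ∈ D) (a0 : a ∉ K) :
    ∃ g ∈ zpowers x, (g * c * g⁻¹)⁻¹ * a ∈ K := by
  let f : Option (zpowers x) → D ⧸ K.subgroupOf D := fun o => ((o.elim 1 fun g =>
    ⟨g * c * (g : G)⁻¹, conj_mem_of_mem_normalizer (zpowers_le.2 nD g.2) hc⟩ : D) : D ⧸ K.subgroupOf D)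
  have nK' := zpowers_le.2 nK
  have k : ∀ g : zpowers x, f none ≠ f (some g) := fun g e => c0 (by
    simpa [mul_assoc] using conj_mem_of_mem_normalizer' (nK' g.2) (mem_subgroupOf.1 (QuotientGroup.eq.1 e)))
  have i' : Function.Injective f := by
    rintro (_ | a) (_ | b) e
    · rfl
    · exact (k b e).elim
    · exact (k a e.symm).elim
    refine congrArg some (Subtype.ext (by_contra fun e0 => ?_))
    have m := mul_mem (inv_mem a.2) b.2
    have e1 := h.mod7 o (p.to_le (sup_le l (zpowers_le.2 hc))) m (mt inv_mul_eq_one.1 e0) (mem_normalizer_of_cj_le (by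
      rw [cj_sup, cj_eq_self (nK' m), cj_zpowers]
      refine sup_le le_sup_left (zpowers_le.2 ?_)
      have := mul_mem (mem_sup_right (mem_zpowers c)) (mem_sup_left (T := zpowers c)
        (conj_mem_of_mem_normalizer' (nK' a.2) (mem_subgroupOf.1 (QuotientGroup.eq.1 e))))
      simpa [mul_assoc] using this))
    have e2 := h.mod7 o (p.to_le l) m (mt inv_mul_eq_one.1 e0) (nK' m)
    rw [card_sup_z n c0 c2] at e1
    omega
  obtain ⟨_ | g, e⟩ := (i'.bijective_of_nat_card_le (by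
    rw [Finite.card_option, Nat.card_zpowers, o]; exact i.le)).2 (⟨a, ha⟩ : D)
  · exact (a0 (by simpa using mem_subgroupOf.1 (QuotientGroup.eq.1 e))).elim
  · exact ⟨g, g.2, mem_subgroupOf.1 (QuotientGroup.eq.1 e)⟩

theorem norm_sum (o : orderOf x = 7) (p : IsPGroup 2 D) (n : x ∈ 𝐍(D)) (m : u ∈ D) (φ : G → ZMod 2)
    (add : ∀ a ∈ D, ∀ b ∈ D, φ (a * b) = φ a + φ b) : ∑ i ∈ Finset.range 7, φ (x ^ i * u * (x ^ i)⁻¹) = 0 := by
  have e0 : φ 1 = 0 := by simpa using add 1 (one_mem D) 1 (one_mem D)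
  have k : ∀ i, (u * x) ^ i * (x ^ i)⁻¹ ∈ D ∧ φ ((u * x) ^ i * (x ^ i)⁻¹) = ∑ i ∈ Finset.range i, φ (x ^ i * u * (x ^ i)⁻¹) := fun i => by
    induction i with
    | zero => simp [e0]
    | succ i ih =>
      have m' := conj_mem_of_mem_normalizer (pow_mem n i) m
      rw [show (u * x) ^ (i + 1) * (x ^ (i + 1))⁻¹ = (u * x) ^ i * (x ^ i)⁻¹ * (x ^ i * u * (x ^ i)⁻¹) by
        rw [pow_succ, pow_succ']; group, add _ ih.1 _ m', Finset.sum_range_succ, ih.2]
      exact ⟨mul_mem ih.1 m', rfl⟩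
  rw [← (k 7).2, ← o, h.pow (.inr o) (P57.nd2 (.inr o) p) n m, pow_orderOf_eq_one, inv_one, mul_one, e0]

end W8

namespace Ld
variable (d : Ld M V)
include d

theorem ea : IsElementaryAbelian 2 V := isElemAb_of_le (eV M) d.lV

theorem p2 : IsPGroup 2 V := isElemAb_isPGroup d.ea

theorem lQ : V ≤ 𝐎[2](M) := d.lV.trans (VQ M)

theorem qc : 𝐎[2](M) ≤ 𝐂(V) := (QV M).trans (centralizer_anti d.lV)

theorem card : Nat.card M = Nat.card 𝐎[2](M) * 168 := by rw [← d.idx, card_mul_relIndex (pCoreOf_le 2 M)]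

theorem exists_x : ∃ x ∈ M, orderOf x = 7 :=
  have : Fact (Nat.Prime 7) := ⟨by decide⟩
  exists_orderOf_eq_of_dvd_card (d.card ▸ Dvd.dvd.mul_left (by decide) _)

variable (h : Hy G)
include h

theorem tr (mx : x ∈ M) (o : orderOf x = 7) (hz : z ∈ V) (z1 : z ≠ 1) (hv : v ∈ V) (v1 : v ≠ 1) :
    ∃ g ∈ zpowers x, g * z * g⁻¹ = v :=
  let ⟨g, a, e⟩ := h.w.tr7 o d.p2 bot_le (d.nV mx) (by simp) ((relIndex_bot_eq V).trans d.cV) hz z1 (sq_of d.ea hz) (by simp) hv v1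
  ⟨g, a, inv_mul_eq_one.1 e⟩

theorem card_c (hz : z ∈ V) (z1 : z ≠ 1) : Nat.card ↥(M ⊓ centralizer {z}) = Nat.card 𝐎[2](M) * 24 := by
  have e1 := card_inf_mul_relIndex (centralizer {z}) M
  have e2 := rel_le (A := M) (D := centralizer {z}) (fun a => (⟨_, conj_mem_of_mem_normalizer (d.nV a.2) hz⟩ : V)) fun a b e => by
    have e' : (a : G) * z * (a : G)⁻¹ = b * z * (b : G)⁻¹ := congrArg Subtype.val e
    rw [mem_centralizer_singleton_iff, mul_assoc, inv_mul_eq_iff_eq_mul, ← mul_assoc, ← mul_assoc, e', inv_mul_cancel_right]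
  have e3 := (((by decide : Nat.Prime 7).dvd_mul).1 (e1 ▸ d.card ▸ Dvd.dvd.mul_left (by decide) _)).resolve_left
    ((h.w.t23z (sq_of d.ea hz) z1).mono (inf_le_left.trans fun g hg => mem_H (mem_centralizer_singleton_iff.1 hg))).2
  have e4 : (centralizer {z}).relIndex M ≠ 0 := index_ne_zero_of_finite
  rw [d.cV] at e2
  rw [show (centralizer {z}).relIndex M = 7 by omega, d.card, inf_comm] at e1
  omega

theorem cen3 (hz : z ∈ V) (z1 : z ≠ 1) (my : y ∈ M) (o : orderOf y = 3) (yz : y * z = z * y) (hw : w ∈ Dv M z)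
    (n : y ∈ 𝐍(𝐎[2](M) ⊓ centralizer {w})) : w ∈ 𝐂(𝐎[2](M)) := by
  have pQ := isPGroup_pCoreOf 2 M
  have cz := (card_z (sq_of d.ea hz) z1).le
  refine fun a ha => mem_centralizer_singleton_iff.1 (le_of_idx2 pQ o (le_normalizer_pCoreOf 2 M my) n
    ((inf_relIndex_left _ _).le.trans ((rel_cent hw.2.2).trans cz)) (fun a ha => ⟨ha.1, mem_centralizer_singleton_iff.2
      (mem_centralizer_singleton_iff.1 (le_of_idx2 pQ.to_inf_left o ?_ (mem_n_cent (mem_cz.1 ha.2))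
        ((rel_cent fun b (hb : b ∈ Dv M z) => swap_mem (hb.2.2 a ha.1)).trans cz) (fun b hb => mem_centralizer_singleton_iff.2
          (isElemAb_le_centralizer (h.w.ea3 o pQ.to_inf_left inf_le_right) ha b ⟨hb.1.1, hb.2⟩)) hw)).symm⟩) ha).2
  have := Dv.cj my z
  rw [yz, mul_inv_cancel_right] at this
  exact cj_eq_self_iff.1 this

theorem lin (mx : x ∈ M) (o : orderOf x = 7) (hz : z ∈ V) (z1 : z ≠ 1) (hw : w ∈ Dv M z) (hu : u ∈ V) (u0 : u ∉ zpowers z)
    (hg : g ∈ zpowers x) (hk : k ∈ zpowers x) (eg : g * z * g⁻¹ = u) (ek : k * z * k⁻¹ = z * u) (ha : a ∈ 𝐎[2](M)) :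
    a ∈ centralizer {k * w * k⁻¹} ↔ (a ∈ centralizer {w} ↔ a ∈ centralizer {g * w * g⁻¹}) := by
  classical
  have pQ := isPGroup_pCoreOf 2 M
  have nQ := le_normalizer_pCoreOf 2 M
  have z2 := sq_of d.ea hz
  have ab := isElemAb_le_centralizer d.ea
  have nu : u ∈ 𝐍(zpowers z) := centralizer_le_normalizer_of_le (zpowers_le.2 hz) (ab hu)
  have lL := sup_le (zpowers_le.2 hz) (zpowers_le.2 hu)
  have i : (zpowers z ⊔ zpowers u).relIndex V = 2 := by
    have := card_mul_relIndex lL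
    rw [card_sup_z nu u0 (sq_of d.ea hu ▸ one_mem _), card_z z2 z1, d.cV] at this
    omega
  have hV : ∀ i : ℕ, x ^ i * z * (x ^ i)⁻¹ ∈ V := fun i => conj_mem_of_mem_normalizer (d.nV (pow_mem mx i)) hz
  have hD : ∀ i : ℕ, x ^ i * w * (x ^ i)⁻¹ ∈ Dv M (x ^ i * z * (x ^ i)⁻¹) := fun i => Dv.conj (pow_mem mx i) hw
  have inj : ∀ i < 7, ∀ j < 7, x ^ i * z * (x ^ i)⁻¹ = x ^ j * z * (x ^ j)⁻¹ → i = j := fun i hi j hj e =>
    pow_injOn_Iio_orderOf (o ▸ hi) (o ▸ hj) (inv_mul_eq_one.1 (((h.w.reg (.inr o) (P57.nd2 (.inr o) pQ)).eq_one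
      (mul_mem (inv_mem (npow_mem_zpowers x i)) (npow_mem_zpowers x j)) (d.lQ hz) (by
        rw [mul_assoc, inv_mul_eq_iff_eq_mul, ← mul_assoc, ← mul_assoc, e, inv_mul_cancel_right])).resolve_right z1))
  have s1 := h.w.norm_sum o (D := 𝐎[2](M) ⊓ secCent 𝐎[2](M) V) pQ.to_inf_left (le_normalizer_inf nQ (le_normalizer_secCent nQ d.nV) mx)
    ⟨hw.1, d.nV (pCoreOf_le 2 M hw.1), fun b hb => zpowers_le.2 hz (hw.2.2 b hb)⟩
    (fun b => if ⁅a, b⁆ ∈ zpowers z ⊔ zpowers u then 0 else 1) fun b hb c hc => by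
      have := mul_mem_iff_of_index_two i (a := ⟨_, hb.2.2 a ha⟩) (b := ⟨_, hc.2.2 a ha⟩)
      simp only [mem_subgroupOf, coe_mul] at this
      beta_reduce
      rw [comm_mul, conj_eq_of_mem_centralizer (d.qc hb.1) (hc.2.2 a ha), this]
      by_cases k1 : ⁅a, b⁆ ∈ zpowers z ⊔ zpowers u <;> by_cases k2 : ⁅a, c⁆ ∈ zpowers z ⊔ zpowers u <;> simp [k1, k2]
      decide
  have s2 := h.w.norm_sum ((orderOf_inv x).trans o) pQ (nQ (inv_mem mx)) ha (fun b => if ⁅w, b⁆ = 1 then 0 else 1) fun b hb c hc => by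
    have k1 := swap_mem (hw.2.2 b hb)
    have k2 := swap_mem (hw.2.2 c hc)
    beta_reduce
    rw [comm_mul, conj_eq_of_mem_centralizer (d.qc hb) (zpowers_le.2 hz k2)]
    obtain e | e := (mem_z z2).1 k1 <;> obtain e' | e' := (mem_z z2).1 k2 <;> simp [e, e', z1, z2]
    decide
  replace hg := Finset.mem_image.1 (mem_zpowers_iff_mem_range_orderOf.1 hg)
  replace hk := Finset.mem_image.1 (mem_zpowers_iff_mem_range_orderOf.1 hk)
  obtain ⟨j, hj, rfl⟩ := hg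
  obtain ⟨k, hk, rfl⟩ := hk
  rw [o, Finset.mem_range] at hj hk
  have e0 : x ^ 0 * z * (x ^ 0)⁻¹ = z := by simp
  have j0 : 0 ≠ j := by rintro rfl; exact u0 (eg ▸ e0.symm ▸ mem_zpowers z)
  have k0 : 0 ≠ k := by rintro rfl; exact u0 (left_eq_mul.1 (e0.symm.trans ek) ▸ one_mem _)
  have jk : j ≠ k := by rintro rfl; exact z1 (right_eq_mul.1 (eg.symm.trans ek))
  have s3 := (Finset.sum_sub_distrib _ _).trans (sub_eq_zero.2 (s2.trans s1.symm))
  rw [Finset.sum_congr rfl (g := fun i => if i ∈ ({0, j, k} : Finset ℕ) then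
    (if a ∈ centralizer {x ^ i * w * (x ^ i)⁻¹} then 0 else 1) else 0) fun i hi => ?_, Finset.sum_ite_mem,
    Finset.inter_eq_right.2 (by simp [Finset.insert_subset_iff, hj, hk]), Finset.sum_insert (by simp [j0, k0]),
    Finset.sum_pair jk, pow_zero, one_mul, inv_one, mul_one] at s3
  · by_cases k1 : a ∈ centralizer {w} <;> by_cases k2 : a ∈ centralizer {x ^ j * w * (x ^ j)⁻¹} <;>
      by_cases k3 : a ∈ centralizer {x ^ k * w * (x ^ k)⁻¹} <;> simp only [k1, k2, k3, if_true, if_false] at s3 ⊢ <;>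
        first | exact absurd s3 (by decide) | simp
  have e1 : ⁅w, x⁻¹ ^ i * a * (x⁻¹ ^ i)⁻¹⁆ = 1 ↔ a ∈ centralizer {x ^ i * w * (x ^ i)⁻¹} := by
    rw [mem_centralizer_singleton_iff, eq_comm (a := a * _), ← commutatorElement_eq_one_iff_mul_comm,
      show ⁅x ^ i * w * (x ^ i)⁻¹, a⁆ = x ^ i * ⁅w, x⁻¹ ^ i * a * (x⁻¹ ^ i)⁻¹⁆ * (x ^ i)⁻¹ by
        simp only [commutatorElement_def]; group, conj_eq_one_iff]
  have e2 : x ^ i * z * (x ^ i)⁻¹ ∈ zpowers z ⊔ zpowers u ↔ i ∈ ({0, j, k} : Finset ℕ) := by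
    simp only [Finset.mem_insert, Finset.mem_singleton]
    refine ⟨fun m => ?_, ?_⟩
    · obtain ⟨b, hb, c, hc, e⟩ := (mem_sup_of_le_normalizer (zpowers_le.2 nu)).1 m
      have inj' := inj i (Finset.mem_range.1 hi)
      obtain rfl | rfl := (mem_z z2).1 hb <;> obtain rfl | rfl := (mem_z (sq_of d.ea hu)).1 hc
      · exact (z1 (by simpa using e.symm)).elim
      · exact .inr (.inl (inj' j hj (e.symm.trans ((one_mul _).trans eg.symm))))
      · exact .inl (inj' 0 (by decide) (e.symm.trans ((mul_one _).trans e0.symm)))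
      · exact .inr (.inr (inj' k hk (e.symm.trans ek.symm)))
    · rintro (rfl | rfl | rfl)
      exacts [e0.symm ▸ mem_sup_left (mem_zpowers z), eg ▸ mem_sup_right (mem_zpowers _),
        ek ▸ mul_mem_sup (mem_zpowers z) (mem_zpowers u)]
  simp only [← e2, e1, mem_centralizer_singleton_iff, ← commutatorElement_eq_one_iff_mul_comm]
  obtain e | e := (mem_z (sq_of d.ea (hV i))).1 ((hD i).2.2 a ha) <;> rw [e] <;>
    by_cases k1 : x ^ i * z * (x ^ i)⁻¹ ∈ zpowers z ⊔ zpowers u <;> simp [k1, z1]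

end Ld

end CF.W8
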