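import Cfsg.Agent.W8.L1

/-! A natural module for `L₃(2)`: the centralizers of its involutions. -/

set_option autoImplicit false
set_option linter.unusedSectionVars false

namespace CF.W8

open Subgroup Cfsg CF.Loc CF.W7
open scoped commutatorElement

variable {G : Type*} [Group G] [Finite G] {A B D E F K L M N P Q R S T U V W X : Subgroup G} {a b c g k t u v w x y z : G}

namespace Ld
variable (d : Ld M V) (h : Hy G)
include d h

theorem v0 : V ≠ ⊥ := fun e => by simpa [e] using d.cV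

theorem lk7 (m : Mx M T) (hz : z ∈ V) (z1 : z ≠ 1) : Dv M z ≤ 𝐂(𝐎[2](M)) := by_contra fun n0 => by
  have pQ := isPGroup_pCoreOf 2 M
  have nQ := le_normalizer_pCoreOf 2 M
  have z2 := sq_of d.ea hz
  have cz := card_z z2 z1
  have ab := isElemAb_le_centralizer d.ea
  have l : 𝐎[2](M) ≤ M ⊓ centralizer {z} := le_inf (pCoreOf_le 2 M) fun a ha => mem_centralizer_singleton_iff.2 (d.qc ha z hz).symm
  obtain ⟨S, s, lS⟩ := exists_isSyl_ge pQ l
  have SM := s.le.trans inf_le_left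
  have Sz : ∀ t ∈ S, t * z * t⁻¹ = z := fun t ht => mul_inv_eq_of_eq_mul (mem_centralizer_singleton_iff.1 (s.le ht).2)
  have e := card_mul_relIndex l
  rw [d.card_c h hz z1, Nat.mul_right_inj Nat.card_pos.ne', ← relIndex_mul_relIndex _ _ _ lS s.le] at e
  have e1 := two_part (m := 3) e (relIndex_eq_pow_of_isPGroup s.isPGroup _) s.not_dvd_relIndex (by decide)
  obtain ⟨w, hw, w0, cw⟩ := exists_fixed_mod pQ.to_inf_left s.isPGroup
    (fun t ht => cj_eq_self_iff.1 ((Dv.cj (SM ht) z).trans (congrArg _ (Sz t ht)))) n0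
  have SK : S ≤ 𝐍(𝐎[2](M) ⊓ centralizer {w}) := fun t ht => mem_normalizer_of_conj_mem fun a ha =>
    ⟨conj_mem_of_mem_normalizer (nQ (SM ht)) ha.1, by
      have := conj_mem_cj t (show a ∈ centralizer {w * ⁅w⁻¹, t⁻¹⁆} from mem_centralizer_singleton_iff.2
        ((show Commute a w from mem_centralizer_singleton_iff.1 ha.2).mul_right
          (cw (commutator_mem_commutator (inv_mem (mem_zpowers w)) (inv_mem ht)) a ha.1)))
      rwa [cj_centralizer_singleton, show t * (w * ⁅w⁻¹, t⁻¹⁆) * t⁻¹ = w by rw [commutatorElement_def]; group] at this⟩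
  obtain ⟨u, hu, u0, cu⟩ := exists_fixed_mod d.p2 s.isPGroup (SM.trans d.nV) fun l : V ≤ zpowers z => by
    have := card_le_card_of_le l
    rw [d.cV, cz] at this
    omega
  have u1 : u ≠ 1 := by rintro rfl; exact u0 (one_mem _)
  have zu : z * u ≠ 1 := fun e => u0 (eq_inv_of_mul_eq_one_right e ▸ inv_mem (mem_zpowers z))
  obtain ⟨x, mx, o⟩ := d.exists_x
  obtain ⟨g, hg, eg⟩ := d.tr h mx o hz z1 hu u1
  obtain ⟨k, hk, ek⟩ := d.tr h mx o hz z1 (mul_mem hz hu) zu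
  have xM := zpowers_le.2 mx
  obtain ⟨t, ⟨tg, tS, tu⟩, t0⟩ := SetLike.not_le_iff_exists.1 fun l' : cj[g] S ⊓ (S ⊓ centralizer {u}) ≤ 𝐎[2](M) => by
    have a1 := card_le_card_of_le l'
    have a2 := card_inf_mul_relIndex (cj[g] S) (S ⊓ centralizer {u})
    have a3 := relIndex_le_of_le_right (H := cj[g] S) (inf_le_inf_right (centralizer {u}) SM) index_ne_zero_of_finite
    have a4 := card_inf_mul_relIndex (centralizer {u}) S
    have a5 := rel_cent fun a ha => swap_mem (cu (commutator_mem_commutator (mem_zpowers u) ha))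
    have a6 := card_mul_relIndex lS
    have a7 := relIndex_cj g S (M ⊓ centralizer {z})
    rw [cj_inf, cj_centralizer_singleton, eg, cj_eq_self_of_mem (xM hg)] at a7
    have a8 := Nat.mul_le_mul a1 (a3.trans (show _ ≤ 3 by rw [a7]; rw [e1] at e; omega))
    have a9 := Nat.mul_le_mul_left (Nat.card ↥(centralizer {u} ⊓ S)) (cz ▸ a5)
    have : 0 < Nat.card 𝐎[2](M) := Nat.card_pos
    rw [a4, inf_comm] at a9
    rw [e1] at a6
    omega
  have nu : u ∈ 𝐍(zpowers z) := centralizer_le_normalizer_of_le (zpowers_le.2 hz) (ab hu)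
  have lL := sup_le (zpowers_le.2 hz) (zpowers_le.2 hu)
  have cL := card_sup_z nu u0 (sq_of d.ea hu ▸ one_mem _)
  have i := card_mul_relIndex lL
  rw [cL, cz, d.cV] at i
  have tz := mem_centralizer_singleton_iff.1 (s.le tS).2
  have tL : zpowers z ⊔ zpowers u ≤ centralizer {t} := sup_le (zpowers_le.2 (mem_centralizer_singleton_iff.2 tz.symm))
    (zpowers_le.2 (mem_centralizer_singleton_iff.2 (mem_centralizer_singleton_iff.1 tu).symm))
  have nL : ∀ g ∈ zpowers x, g * z * g⁻¹ ≠ z → g * z * g⁻¹ ∈ zpowers z ⊔ zpowers u → g * u * g⁻¹ ∉ zpowers z ⊔ zpowers u :=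
    fun g hg g1 a b => by
      have := h.w.mod7 o (d.p2.to_le lL) hg (by rintro rfl; simp at g1) (mem_normalizer_of_cj_le (by
        rw [cj_sup, cj_zpowers, cj_zpowers]; exact sup_le (zpowers_le.2 a) (zpowers_le.2 b)))
      omega
  have cc : ∀ g, cj[g] S ≤ secCent (zpowers (g * u * g⁻¹)) (zpowers (g * z * g⁻¹)) := fun g => by
    rw [← cj_zpowers, ← cj_zpowers, ← cj_secCent]
    exact cj_mono g (le_secCent_iff.2 ⟨fun t ht => mem_H (mem_centralizer_singleton_iff.1 (s.le ht).2), cu⟩)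
  have tk : t ∉ cj[k] S := fun tk => by
    have b0 := nL k hk (ek ▸ mt mul_eq_left.1 u1) (ek ▸ mul_mem_sup (mem_zpowers z) (mem_zpowers u))
    have hb := conj_mem_of_mem_normalizer (d.nV (xM hk)) hu
    have c := mem_centralizer_singleton_iff.1 (tL (mul_mem_of_relIndex_two (by omega) (conj_mem_of_mem_normalizer (d.nV (xM hg)) hu) hb
      (nL g hg (eg ▸ fun e => u0 (e ▸ mem_zpowers z)) (eg ▸ mem_sup_right (mem_zpowers _))) b0))
    have c1 := (cc g tg).2 _ (inv_mem (mem_zpowers _))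
    have c2 := (cc k tk).2 _ (mem_zpowers _)
    rw [eg] at c1
    rw [ek] at c2
    generalize g * u * g⁻¹ = a at c c1
    have e2 : ⁅a⁻¹, t⁆ = ⁅k * u * k⁻¹, t⁆ := by
      calc _ = a⁻¹ * (t * (a * (k * u * k⁻¹))) * (k * u * k⁻¹)⁻¹ * t⁻¹ := by rw [commutatorElement_def]; group
        _ = _ := by rw [← c, commutatorElement_def]; group
    have c3 := mem_centralizer_singleton_iff.2 (commutatorElement_eq_one_iff_mul_comm.1
      (z_inf (d.lV hu) (d.lV (mul_mem hz hu)) (mt right_eq_mul.1 z1) (e2 ▸ c1) c2))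
    exact t0 (h.cV m d.p2 (d.v0 h) d.nV fun v hv => mem_centralizer_singleton_iff.1 ((or_of_rel (by omega) hb b0 hv).elim (tL ·)
      fun k => (mul_mem_cancel_right c3).1 (tL k)))
  have cK : ∀ g ∈ M, cj[g] (𝐎[2](M) ⊓ centralizer {w}) = 𝐎[2](M) ⊓ centralizer {g * w * g⁻¹} := fun g hg => by
    rw [cj_inf, cj_eq_self (nQ hg), cj_centralizer_singleton]
  have iff : ∀ {C : Subgroup G}, t ∈ 𝐍(𝐎[2](M) ⊓ C) → ∀ a ∈ 𝐎[2](M), (t * a * t⁻¹ ∈ C ↔ a ∈ C) := fun n a ha =>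
    ⟨fun k => ((mem_normalizer_iff.1 n a).2 ⟨conj_mem_of_mem_normalizer (nQ (SM tS)) ha, k⟩).2,
      fun k => ((mem_normalizer_iff.1 n a).1 ⟨ha, k⟩).2⟩
  have n : t ∈ cj[k] 𝐍(𝐎[2](M) ⊓ centralizer {w}) := by
    rw [cj_normalizer, cK k (xM hk)]
    refine mem_normalizer_of_conj_mem fun a ha => ?_
    have ha' := conj_mem_of_mem_normalizer (nQ (SM tS)) ha.1
    refine ⟨ha', (d.lin h mx o hz z1 hw hu u0 hg hk eg ek ha').2 ?_⟩
    rw [iff (SK tS) a ha.1, iff (cK g (xM hg) ▸ cj_normalizer g _ ▸ cj_mono g SK tg) a ha.1]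
    exact (d.lin h mx o hz z1 hw hu u0 hg hk eg ek ha.1).1 ha.2
  obtain ⟨y, hy, oy⟩ := h.w.exists3 (N := M ⊓ centralizer {z} ⊓ 𝐍(𝐎[2](M) ⊓ centralizer {w})) ((h.w.t23z z2 z1).mono
    fun g hg => mem_H (mem_centralizer_singleton_iff.1 hg.1.2)) fun p => tk (mem_cj.2 ((s.eq_of_le p (le_inf s.le SK) inf_le_left).le
      ⟨⟨M.mul_mem (M.mul_mem (M.inv_mem (xM hk)) (SM tS)) (xM hk), mem_cj.1 (by
        rw [cj_centralizer_singleton, ek]
        exact mem_centralizer_singleton_iff.2 (mem_centralizer_singleton_iff.1 (tL (mul_mem_sup (mem_zpowers z) (mem_zpowers u)))).symm)⟩,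
        mem_cj.1 n⟩))
  exact w0 (d.cen3 h hz z1 hy.1.1 oy (mem_centralizer_singleton_iff.1 hy.1.2) hw hy.2)

theorem pd (m : Mx M T) (q : ¬ 𝐎[2](M) ≤ V) (hz : z ∈ V) (z1 : z ≠ 1) (my : y ∈ M) (o : orderOf y = 3) (yz : y * z = z * y) :
    Pd M V (secCent V (zpowers z)) y z := by
  have z2 := sq_of d.ea hz
  have cz := card_z z2 z1
  have lz := zpowers_le.2 hz
  have cV := h.cV m d.p2 (d.v0 h) d.nV
  have HC : Hz z ≤ 𝐂(zpowers z) := le_centralizer_of_card_two cz le_rfl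
  have QH := (d.qc.trans (centralizer_anti lz)).trans (centralizer_le_normalizer _)
  have lM := (le_normalizer_of_commutator_le le_rfl ((commutator_secCent_le V (zpowers z)).trans lz)).trans (m.eq V d.p2 (d.v0 h) d.nV).le
  have cy : V ⊓ 𝐂(zpowers y) ≤ zpowers z := by
    have e1 := Transfer.card_modEq_card_inf_centralizer (p3 o) (zpowers_le.2 (d.nV my))
    have e2 : Nat.card ↥(V ⊓ 𝐂(zpowers y)) ≠ 8 := fun e => zp_ne o (le_bot_iff.1 ((le_inf le_rfl ((le_centralizer_comm.1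
      (inf_eq_left.1 (eq_of_le_of_card_le inf_le_left (d.cV.trans e.symm).le))).trans cV)).trans
        (inf_eq_bot_of_ne (by decide) (p3 o) (isPGroup_pCoreOf 2 M)).le))
    obtain ⟨i, i3, e⟩ := (Nat.dvd_prime_pow Nat.prime_two (m := 3)).1 (d.cV ▸ card_dvd_of_le (inf_le_left : V ⊓ 𝐂(zpowers y) ≤ V))
    refine (eq_of_le_of_card_le (zpowers_le.2 (mem_inf.2 ⟨hz, mem_cz.2 yz⟩)) ?_).ge
    rw [d.cV, Nat.ModEq] at e1
    interval_cases i <;> omega
  refine ⟨d.lV, hz, z1, my, o, yz, d.nV my, cy, le_secCent_iff.2 ⟨QH, (commutator_eq_bot_iff_le_centralizer'.2 d.qc).le.trans bot_le⟩,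
    lM, secCent_le_normalizer _ _, isPGroup_iff_forall.2 fun g hg => ?_, le_normalizer_secCent (zpowers_le.2 (d.nV my))
      (zpowers_le.2 (mem_H yz)) (mem_zpowers y), fun D p l l' n => le_secCent_iff.2 ⟨l', comm8 d.cV cy z2 z1 o yz hz
        ((d.lQ.trans QH).trans HC) (d.nV my) p n (l.trans d.nV) (l'.trans HC)⟩, commutator_secCent_le _ _, inf_le_right.trans cV,
    fun g hg => cV fun v hv => mem_centralizer_singleton_iff.1 (cen8 d.cV cy z2 z1 o yz hz (d.nV my) (mem_cz.1 (HC hg.1.1)).symm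
      (mem_cz.1 hg.2) hg.1.2 hv), fun w hw c => d.lk7 h m hz z1 ⟨by_contra fun w0 =>
        q (h.k1 m d.nV (lM hw) w0 fun a ha => lz (c a ha)), hw.1, c⟩⟩
  obtain ⟨k, e⟩ := isPGroup_iff_forall.1 (isPGroup_pCoreOf 2 M) (g * g) (cV fun v hv => commutatorElement_eq_one_iff_mul_comm.1 (by
    rw [comm_mul, conj_eq_of_mem_centralizer (HC hg.1) (hg.2 v hv)]; exact sq_of d.ea (lz (hg.2 v hv))))
  exact ⟨k + 1, by rw [pow_succ', pow_mul, pow_two, e]⟩

omit d h in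
theorem alt (h : Hy G) (m : Mx M T) (d : Ld M V) : 𝐎[2](M) ≤ V ∨ ∀ v ∈ V, v ≠ 1 → centralizer {v} ≤ M := by
  refine or_iff_not_imp_left.2 fun q => ?_
  have pQ := isPGroup_pCoreOf 2 M
  have nQ := le_normalizer_pCoreOf 2 M
  obtain ⟨x, mx, o⟩ := d.exists_x
  have o' : P57 x := .inr o
  have i := (h.w.idx2 o' (h.w.syl o' mx (o'.nd2 pQ) m.o nQ) mx le_rfl le_normalizer (pCoreOf_le 2 M) (nQ mx) (o'.nd2 pQ) (r := 24)
    (by rw [d.idx, o])).1
  obtain ⟨y, my, oy⟩ := exists_orderOf_eq_of_dvd_card (p := 3) (H := M ⊓ 𝐍(zpowers x)) (by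
    rw [← card_mul_relIndex (le_inf (zpowers_le.2 mx) le_normalizer), i, o]; exact dvd_mul_left _ _)
  obtain ⟨⟨z, hz, yz⟩, z1⟩ := ne_bot_iff_exists_ne_one.1 fun e : V ⊓ 𝐂(zpowers y) = ⊥ => by
    have := Transfer.card_modEq_card_inf_centralizer (p3 oy) (zpowers_le.2 (d.nV my.1))
    rw [e, card_bot, d.cV] at this
    exact absurd this (by decide)
  replace z1 : z ≠ 1 := fun e => z1 (Subtype.ext e)
  obtain k | ⟨-, k⟩ := Pd.alt h m (d.pd h m q hz z1 my.1 oy (mem_cz.1 yz))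
  · intro v hv v1
    obtain ⟨g, hg, rfl⟩ := d.tr h mx o hz z1 hv v1
    rw [← cj_centralizer_singleton]
    exact cj_le_of_mem (zpowers_le.2 mx hg) k
  have ea := h.w.ea3 oy pQ.to_inf_left (inf_le_right : 𝐎[2](M) ⊓ 𝐂(zpowers y) ≤ _)
  have cV := omegaOneCenter_le_centralizer 2 𝐎[2](M)
  have e1 := card_inf_mul_relIndex 𝐂(𝐎[2](M)) (𝐎[2](M) ⊓ 𝐂(zpowers y))
  rw [k, show 𝐂(𝐎[2](M)) ⊓ (𝐎[2](M) ⊓ 𝐂(zpowers y)) = Vz M ⊓ 𝐂(zpowers y) from le_antisymm
    (fun c hc => ⟨mem_omegaOneCenter.2 ⟨hc.2.1, hc.1, ea.2 c hc.2⟩, hc.2.2⟩) fun c hc => ⟨cV hc.1, VQ M hc.1, hc.2⟩] at e1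
  have e2 := card_mul_relIndex (VQ M)
  rw [h.w.wiel o oy my.2 pQ (nQ mx) (nQ my.1), h.w.wiel o oy my.2 (isElemAb_isPGroup (eV M)) (W7.nV M mx) (W7.nV M my.1), ← e1,
    mul_pow, Nat.mul_right_inj (pow_pos Nat.card_pos 3).ne'] at e2
  obtain ⟨c, hc, c0⟩ := SetLike.not_le_iff_exists.1 (mt relIndex_eq_one.2 (k.trans_ne (by decide)))
  have c2 := sq_of ea hc
  have sq : ∀ a ∈ 𝐎[2](M), a * a = 1 := fun a ha => by
    by_cases a0 : a ∈ Vz M
    · exact sq_of (eV M) a0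
    obtain ⟨g, hg, e⟩ := h.w.tr7 o pQ (VQ M) (nQ mx) (W7.nV M mx) e2 hc.1 (fun k => c0 (cV k)) (c2 ▸ one_mem _)
      (W7.nV M (pCoreOf_le 2 M hc.1)) ha a0
    have := cV e _ (conj_mem_of_mem_normalizer (nQ (zpowers_le.2 mx hg)) hc.1)
    rw [← mul_inv_cancel_left (g * c * g⁻¹) a]
    generalize (g * c * g⁻¹)⁻¹ * a = v at this e
    rw [mul_assoc, ← mul_assoc v, ← this, ← mul_assoc, ← mul_assoc, conj_mul, c2, mul_one, mul_inv_cancel, one_mul, sq_of (eV M) e]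
  refine (c0 fun a ha => ?_).elim
  rw [← inv_eq_of_mul_eq_one_right (sq _ (mul_mem ha hc.1)), mul_inv_rev, inv_eq_of_mul_eq_one_right c2,
    inv_eq_of_mul_eq_one_right (sq a ha)]

end Ld

end CF.W8
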