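import Cfsg.Agent.W8.J2

/-! The centralizer of an involution in `Ω₁(Z(O₂(M)))`. -/

set_option autoImplicit false
set_option linter.unusedSectionVars false

namespace CF.W8

open Subgroup Cfsg CF.Loc CF.W7
open scoped commutatorElement

variable {G : Type*} [Group G] [Finite G] {A B D E F K L M N P Q R S T U V W X : Subgroup G} {a b c g k u v w x y z : G}

theorem mem_cz : g ∈ 𝐂(zpowers y) ↔ y * g = g * y := by
  rw [centralizer_zpowers, mem_centralizer_singleton_iff, eq_comm]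

theorem rel_cent (k : ∀ a ∈ A, ⁅a, w⁆ ∈ K) : (centralizer {w}).relIndex A ≤ Nat.card K :=
  rel_le (fun a => (⟨_, k _ a.2⟩ : K)) fun a b e => by
    have e' : ⁅(a : G), w⁆ = ⁅(b : G), w⁆ := congrArg Subtype.val e
    simp only [commutatorElement_def, mul_left_inj] at e'
    rw [mem_centralizer_singleton_iff, mul_assoc, inv_mul_eq_iff_eq_mul, ← mul_assoc, ← mul_assoc, e', inv_mul_cancel_right]

theorem dec3 (p : IsPGroup 2 D) (o : orderOf y = 3) (n : y ∈ 𝐍(D)) : ⁅D, zpowers y⁆ ⊔ D ⊓ 𝐂(zpowers y) = D :=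
  Coprime.commutator_sup_centralizer _ _ (zpowers_le.2 n) (cop23 p (p3 o)).symm (.inr (isSolvable_of_isPGroup p))

namespace Pd
variable (d : Pd M W R y z)
include d

theorem z2 : z * z = 1 := sq_of (eV M) (d.lW d.zW)

theorem HC : Hz z ≤ 𝐂(zpowers z) := le_centralizer_of_card_two (card_z d.z2 d.z1) le_rfl

theorem WR : W ≤ R := (d.lW.trans (VQ M)).trans d.lQ

theorem cmk (l : K ≤ R) (hk : k ∈ Hz z) (n : k ∈ 𝐍(K)) : ⁅K, cj[k] W⁆ ≤ zpowers z := by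
  have := cj_mono k ((commutator_mono le_rfl l).trans d.cm)
  rwa [cj_commutator, cj_eq_self n, cj_eq_self hk, commutator_comm] at this

theorem nR' (m : Mx M T) : Hz z ⊓ 𝐍(R) ≤ M := by
  have lR : ncl W (Hz z ⊓ 𝐍(R)) ≤ R := ncl_le d.WR inf_le_right
  have c : ncl W (Hz z ⊓ 𝐍(R)) ≤ 𝐂(𝐎[2](M)) := ncl_le_iff.2 fun k hk w hw => d.lk w (cj_le_of_mem_normalizer hk.2 d.WR hw)
    fun a ha => d.cmk le_rfl hk.1 hk.2 (commutator_mem_commutator (d.lQ ha) hw)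
  rw [← m.nq, ← ((inf_le_inf_left R (centralizer_anti (le_ncl W (Hz z ⊓ 𝐍(R))))).trans d.cr).antisymm
    (le_inf d.lQ (le_centralizer_comm.1 c))]
  exact le_normalizer_inf inf_le_right (le_normalizer_centralizer (le_normalizer_ncl _ _))

theorem YR (m : Mx M T) : 𝐎[2](Hz z) ≤ R := by
  have l := sup_le (pCoreOf_le 2 (Hz z)) d.lH
  refine le_sup_left.trans (eq_of_inf_normalizer_le (sup2 d.pR d.lH) le_sup_right (d.mx _ (sup2 d.pR d.lH).to_inf_left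
    ((inf_le_inf_right _ l).trans (d.nR' m)) (inf_le_left.trans l) ?_)).ge
  exact le_normalizer_inf (le_normalizer_sup (zpowers_le.2 (le_normalizer_pCoreOf 2 _ (mem_H d.yz))) (zpowers_le.2 d.nR))
    ((zpowers_le.2 d.nR).trans (normalizer_le_normalizer_normalizer R)) (mem_zpowers y)

theorem inY (h : Hy G) (m : Mx M T) (hc : c ∈ 𝐎[2](M) ⊓ 𝐂(𝐎[2](M)) ⊓ 𝐂(zpowers y)) : c ∈ 𝐎[2](Hz z) := by_contra fun c0 => by
  have ch := h.chz d.z2 d.z1
  have tt := h.w.t23z d.z2 d.z1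
  have nY := le_normalizer_pCoreOf 2 (Hz z)
  have pY := isPGroup_pCoreOf 2 (Hz z)
  have yH := mem_H d.yz
  have yc := mem_cz.1 hc.2
  obtain ⟨-, b, hb, o, yb, e⟩ := h.gg.g3b _ y c tt ch yH d.oy (d.lH (d.lQ hc.1.1)) (h.w.sq d.oy yc (isPGroup_pCoreOf 2 M) hc.1.1) yc c0
  have b2 : ∀ {K : Subgroup G}, b * b ∈ K → b ∈ K := fun k => mem_of_pow_mem_of_coprime (n := 2) (o ▸ by decide) (pow_two b ▸ k)
  have e' : b * c * b⁻¹ * c⁻¹ = b * b := by rw [show b * c * b⁻¹ * c⁻¹ = b * (c * b * c⁻¹)⁻¹ by group, e, inv_inv]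
  have cb : ∀ {K : Subgroup G}, b ∈ 𝐍(K) → K ≤ 𝐎[2](M) → b ∈ 𝐂(K) := fun n l => b2 (e' ▸ mul_mem
    (conj_mem_of_mem_normalizer (normalizer_le_normalizer_centralizer _ n) (centralizer_anti l hc.1.2)) (inv_mem (centralizer_anti l hc.1.2)))
  have zY : zpowers z ≤ 𝐎[2](Hz z) := ch.le_pCoreOf le_normalizer (le_centralizer_comm.1 ((pCoreOf_le 2 _).trans d.HC))
  have WY : W ≤ 𝐎[2](Hz z) := (dec3 (d.pR.to_le d.WR) d.oy d.nW).ge.trans (sup_le ((commutator_mono d.WR le_rfl).trans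
    (h.gg.g3a _ R y tt ch yH d.oy d.pR d.lH d.nR).1) (d.cy.trans zY))
  have bH := zpowers_le.2 hb
  have UY : ncl W (zpowers b) ≤ 𝐎[2](Hz z) := ncl_le WY (bH.trans nY)
  have cU : ⁅𝐎[2](Hz z), ncl W (zpowers b)⁆ ≤ zpowers z := (le_secCent_iff.1 (ncl_le_iff.2 fun k hk => le_secCent_iff.2
    ⟨(cj_le_of_mem (bH hk) (d.WR.trans d.lH)), d.cmk (d.YR m) (bH hk) (nY (bH hk))⟩)).2
  have ab := h.gg.e9 _ y b z (pY.to_le UY) d.z2 ((commutator_mono UY le_rfl).trans cU) d.oy o yb (fun k => by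
      rw [← hc.2 b k, mul_inv_cancel_right, eq_inv_iff_mul_eq_one, ← pow_two, ← orderOf_dvd_iff_pow_eq_one, o] at e
      omega)
    (le_normalizer_ncl' (zpowers_le.2 d.nW) (zpowers_le.2 (centralizer_le_normalizer _ (mem_cz.2 yb.symm))) (mem_zpowers y))
    (le_normalizer_ncl _ _ (mem_zpowers b)) d.yz (mem_cz.1 (d.HC hb)).symm
  have bW : zpowers b ≤ 𝐂(W) := zpowers_le.2 (centralizer_anti (le_ncl _ _) (cb (le_normalizer_ncl _ _ (mem_zpowers b))
    ((le_inf (UY.trans (d.YR m)) (ab.trans (centralizer_anti (le_ncl _ _)))).trans d.cr)))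
  have t := three_subgroups (A := zpowers b) (B := 𝐎[2](Hz z)) (C := W) (N := ⊥) (by simp) (by simp) (by simp)
    ((commutator_mono ((commutator_mono le_rfl (le_ncl _ _)).trans cU) le_rfl).trans
      (commutator_eq_bot_iff_le_centralizer'.2 (bH.trans d.HC)).le)
    (by rw [commutator_eq_bot_iff_le_centralizer'.2 bW, commutator_bot_left])
  have bY := Coprime.le_centralizer_of_stable (zpowers b) 𝐎[2](Hz z) (𝐎[2](Hz z) ⊓ 𝐂(W)) (cop23 pY.to_inf_left (p3 o)).symm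
    (le_inf (commutator_le_left_of_le_normalizer (bH.trans nY)) ((commutator_comm _ _).le.trans
      (le_centralizer_comm.1 (commutator_eq_bot_iff_le_centralizer'.1 (le_bot_iff.1 t)))))
    (le_centralizer_comm.1 (zpowers_le.2 (cb (le_normalizer_inf (bH.trans nY) (le_normalizer_centralizer
      (bW.trans (centralizer_le_normalizer _))) (mem_zpowers b)) ((inf_le_inf_right _ (d.YR m)).trans d.cr))))
  exact zp_ne o (le_bot_iff.1 ((le_inf le_rfl (ch.le_pCoreOf bH bY)).trans (inf_eq_bot_of_ne (by decide) (p3 o) pY).le))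

omit d in
theorem alt (h : Hy G) (m : Mx M T) (d : Pd M W R y z) : centralizer {z} ≤ M ∨
    (𝐎[2](M) ⊓ 𝐂(𝐎[2](M)) ⊓ 𝐂(zpowers y) ≤ 𝐂(R) ∧ 𝐂(𝐎[2](M)).relIndex (𝐎[2](M) ⊓ 𝐂(zpowers y)) = 2) := by
  have ch := h.chz d.z2 d.z1
  have tt := h.w.t23z d.z2 d.z1
  have yH := mem_H d.yz
  by_cases l : R ≤ 𝐎[2](Hz z)
  · exact .inl fun g hg => d.nR' m ⟨mem_H (mem_centralizer_singleton_iff.1 hg), l.antisymm (d.YR m) ▸
      le_normalizer_pCoreOf 2 _ (mem_H (mem_centralizer_singleton_iff.1 hg))⟩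
  obtain ⟨a1, a2⟩ := h.gg.g3a _ R y tt ch yH d.oy d.pR d.lH d.nR
  obtain ⟨c, hc, c0⟩ := SetLike.not_le_iff_exists.1 fun k => l ((dec3 d.pR d.oy d.nR).ge.trans (sup_le a1 k))
  have cQ := d.ry hc
  have yc := mem_cz.1 hc.2
  have f := (h.gg.g3b _ y c tt ch yH d.oy (d.lH hc.1) (h.w.sq d.oy yc d.pR hc.1) yc c0).1
  have key : ∀ u ∈ 𝐎[2](Hz z), u ∈ 𝐂(zpowers y) → u * c = c * u → u ∈ 𝐂(R) := fun u hu k e a ha =>
    (or_of_rel a2 hc.1 c0 ha).elim (f ⟨hu, k⟩ a) fun k' => by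
      have := f ⟨hu, k⟩ _ k'
      rwa [mul_assoc, ← e, ← mul_assoc, ← mul_assoc, mul_left_inj] at this
  refine .inr ⟨fun u hu => key u (d.inY h m hu) hu.2 (hu.1.2 c cQ).symm, ?_⟩
  rw [← inf_relIndex_right, show 𝐂(𝐎[2](M)) ⊓ (𝐎[2](M) ⊓ 𝐂(zpowers y)) = 𝐎[2](Hz z) ⊓ (𝐎[2](M) ⊓ 𝐂(zpowers y)) from le_antisymm
    (fun u hu => ⟨d.inY h m ⟨⟨hu.2.1, hu.1⟩, hu.2.2⟩, hu.2⟩) fun u hu => ⟨centralizer_anti d.lQ (key u hu.1 hu.2.2
      (isElemAb_le_centralizer (h.w.ea3 d.oy (isPGroup_pCoreOf 2 M).to_inf_left inf_le_right) ⟨cQ, hc.2⟩ u hu.2)), hu.2⟩,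
    inf_relIndex_right]
  refine relIndex_eq_two_of_le ?_ (inf_le_left.trans d.lQ) fun k => c0 (k ⟨cQ, hc.2⟩)
  have e1 : 𝐎[2](Hz z).relIndex R ≠ 0 := index_ne_zero_of_finite
  have e2 := mt relIndex_eq_one.1 l
  omega

end Pd

theorem W8.pow5 (h : W8 G) (o : orderOf x = 5) (q : IsPGroup 2 Q) (n : x ∈ 𝐍(Q)) (m : w ∈ Q) :
    w * (x * w * x⁻¹) * (x ^ 2 * w * (x ^ 2)⁻¹) * (x ^ 3 * w * (x ^ 3)⁻¹) * (x ^ 4 * w * (x ^ 4)⁻¹) = 1 := by
  have := h.pow (.inl o) (P57.nd2 (.inl o) q) n m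
  have e := pow_orderOf_eq_one x
  rw [o] at this e
  rw [← this, ← mul_one (_ ^ 5), ← inv_one, ← e]
  simp only [pow_succ, pow_zero]; group

theorem W8.lk5 (h : W8 G) (m : x ∈ M) (o : orderOf x = 5) (hz : z ∈ Vz M) (hw : w ∈ Dv M z) : w ∈ 𝐂(𝐎[2](M)) := by
  have nQ := le_normalizer_pCoreOf 2 M
  have pQ := isPGroup_pCoreOf 2 M
  have o' : P57 x := .inl o
  by_cases z1 : z = 1
  · exact fun a ha => commutatorElement_eq_one_iff_mul_comm.1 (by simpa [z1] using hw.2.2 a ha)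
  have hV : ∀ i : ℕ, x ^ i * z * (x ^ i)⁻¹ ∈ Vz M := fun i => conj_mem_of_mem_normalizer (nV M (pow_mem m i)) hz
  have hD : ∀ i : ℕ, x ^ i * w * (x ^ i)⁻¹ ∈ Dv M (x ^ i * z * (x ^ i)⁻¹) := fun i => Dv.conj (pow_mem m i) hw
  have n : x ∈ 𝐍(𝐎[2](M) ⊓ centralizer {w}) := by
    refine inv_mem_iff.1 (mem_normalizer_of_conj_mem fun a ha => ⟨conj_mem_of_mem_normalizer (nQ (inv_mem m)) ha.1, ?_⟩)
    by_contra k
    set U := zpowers (x ^ 2 * z * (x ^ 2)⁻¹) ⊔ zpowers (x ^ 3 * z * (x ^ 3)⁻¹) ⊔ zpowers (x ^ 4 * z * (x ^ 4)⁻¹)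
    have u : ∀ {a b c d : G}, b ∈ zpowers (x ^ 2 * z * (x ^ 2)⁻¹) → c ∈ zpowers (x ^ 3 * z * (x ^ 3)⁻¹) →
        d ∈ zpowers (x ^ 4 * z * (x ^ 4)⁻¹) → a * b * c * d = 1 → a ∈ U := fun b c d e =>
      (mul_mem_cancel_right (mem_sup_left (mem_sup_left b))).1 ((mul_mem_cancel_right (mem_sup_left (mem_sup_right c))).1
        ((mul_mem_cancel_right (mem_sup_right d)).1 (e ▸ one_mem _)))
    have h1 := hD 1
    have v1 := hV 1
    rw [pow_one] at h1 v1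
    have q : ∀ i : ℕ, x ^ i * w * (x ^ i)⁻¹ ∈ 𝐎[2](M) := fun i => (hD i).1
    have e := congrArg (⁅a, ·⁆) (h.pow5 o pQ (nQ m) hw.1)
    beta_reduce at e
    rw [Dv.mul (hV 4) (hD 4) ha.1 (mul_mem (mul_mem (mul_mem hw.1 h1.1) (q 2)) (q 3)), Dv.mul (hV 3) (hD 3) ha.1
      (mul_mem (mul_mem hw.1 h1.1) (q 2)), Dv.mul (hV 2) (hD 2) ha.1 (mul_mem hw.1 h1.1), Dv.mul v1 h1 ha.1 hw.1,
      commutatorElement_eq_one_iff_mul_comm.2 (mem_centralizer_singleton_iff.1 ha.2), one_mul, commutatorElement_one_right] at e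
    have u1 : x * z * x⁻¹ ∈ U := ((mem_z (sq_of (eV M) v1)).1 (h1.2.2 a ha.1)).resolve_left (fun e => k (by
      have := commutatorElement_eq_one_iff_mul_comm.1 e
      refine mem_centralizer_singleton_iff.2 ?_
      calc _ = x⁻¹ * (a * (x * w * x⁻¹)) * x := by group
        _ = _ := by rw [this]; group)) ▸ u ((hD 2).2.2 a ha.1) ((hD 3).2.2 a ha.1) ((hD 4).2.2 a ha.1) e
    have u0 : z ∈ U := (mul_mem_cancel_right u1).1 (u (mem_zpowers _) (mem_zpowers _) (mem_zpowers _) (h.pow5 o pQ (nQ m) (VQ M hz)))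
    have lU : U ≤ Vz M := sup_le (sup_le (zpowers_le.2 (hV 2)) (zpowers_le.2 (hV 3))) (zpowers_le.2 (hV 4))
    have pU := (isElemAb_isPGroup (eV M)).to_le lU
    obtain ⟨r, e1⟩ := h.mod o' (o'.nd2 pU) (mem_normalizer_of_cj_le (by
      have s : ∀ i : ℕ, x * (x ^ i * z * (x ^ i)⁻¹) * x⁻¹ = x ^ (i + 1) * z * (x ^ (i + 1))⁻¹ := fun i => by group
      rw [cj_sup, cj_sup, cj_zpowers, cj_zpowers, cj_zpowers, s, s, s, show 4 + 1 = orderOf x from o.symm, pow_orderOf_eq_one,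
        one_mul, inv_one, mul_one]
      exact sup_le (sup_le (le_sup_right.trans le_sup_left) le_sup_right) (zpowers_le.2 u0)))
    have c2 : ∀ i : ℕ, Nat.card (zpowers (x ^ i * z * (x ^ i)⁻¹)) = 2 := fun i => card_z (sq_of (eV M) (hV i)) (by simpa using z1)
    have nn : ∀ {A B : Subgroup G}, A ≤ Vz M → B ≤ Vz M → B ≤ 𝐍(A) := fun a b =>
      (b.trans (isElemAb_le_centralizer (eV M))).trans (centralizer_le_normalizer_of_le a)
    have e2 := card_sup_le_mul (nn (le_sup_left.trans lU) (zpowers_le.2 (hV 4)))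
    have e3 := card_sup_le_mul (nn (zpowers_le.2 (hV 2)) (zpowers_le.2 (hV 3)))
    have e4 := dvd_card_of_isPGroup pU fun k => z1 (mem_bot.1 (k.le u0))
    obtain ⟨j, e5⟩ := pU.exists_card_eq
    rw [c2] at e2
    rw [c2, c2] at e3
    change Nat.card U ≤ _ at e2
    have e6 : Nat.card U = 6 := by rw [o] at e1; omega
    exact absurd ((Nat.Coprime.pow_right j (by decide : Nat.Coprime 3 2)).eq_one_of_dvd (by rw [← e5, e6]; decide)) (by decide)
  obtain ⟨c, e1⟩ := h.mod o' (o'.nd2 pQ) (nQ m)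
  obtain ⟨d, e2⟩ := h.mod o' (o'.nd2 pQ.to_inf_left) n
  have e3 := card_inf_mul_relIndex (centralizer {w}) 𝐎[2](M)
  have e4 := rel_cent hw.2.2
  rw [card_z (sq_of (eV M) hz) z1] at e4
  rw [inf_comm, e1, e2, o] at e3
  refine fun a ha => mem_centralizer_singleton_iff.1 (relIndex_eq_one.1 ?_ ha)
  generalize (centralizer {w}).relIndex 𝐎[2](M) = r at *
  interval_cases r <;> omega

theorem Od.le (h : Hy G) (m : Mx M T) (d : Od M V R x y z) : centralizer {z} ≤ M := by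
  have z2 := sq_of (eV M) (d.lV d.zV)
  have cz := card_z z2 d.z1
  have pV := (isElemAb_isPGroup (eV M)).to_le d.lV
  have lz := zpowers_le.2 d.zV
  have VH : V ≤ Hz z := ((d.lV.trans (VQ M)).trans d.lQ).trans d.lH
  have QV' := (QV M).trans (centralizer_anti d.lV)
  have nW := le_normalizer_inf (zpowers_le.2 (d.nV d.my)) (le_normalizer_secCent (zpowers_le.2 d.nR) (zpowers_le.2 (mem_H d.yz)))
    (mem_zpowers y)
  have zW : z ∈ V ⊓ secCent R (zpowers z) := ⟨d.zV, le_normalizer (mem_zpowers z), fun a ha =>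
    commutator_le_right_of_le_normalizer d.lH (commutator_mem_commutator ha (mem_zpowers z))⟩
  have md : ∀ {K : Subgroup G}, z ∈ K → y ∈ 𝐍(K) → K ⊓ 𝐂(zpowers y) ≤ zpowers z → Nat.card K % 3 = 2 := fun a n l => by
    have := Transfer.card_modEq_card_inf_centralizer (p3 d.oy) (zpowers_le.2 n)
    rwa [l.antisymm (zpowers_le.2 ⟨a, mem_cz.2 d.yz⟩), cz] at this
  have cy : V ⊓ secCent R (zpowers z) ⊓ 𝐂(zpowers y) ≤ zpowers z := fun w hw => d.cvr ⟨hw.1.1, by_contra fun k => by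
    have e1 := rel_cent hw.1.2.2
    have e2 : (centralizer {w}).relIndex R ≠ 0 := index_ne_zero_of_finite
    have e3 : ¬ R ≤ centralizer {w} := fun l => k fun a ha => mem_centralizer_singleton_iff.1 (l ha)
    have e4 := mt relIndex_eq_one.1 e3
    refine e3 ((dec3 d.pR d.oy d.nR).ge.trans (sup_le (commutator_le_of_relIndex_two (by omega) (zpowers_le.2 ?_) (zpowers_le.2 d.nR))
      (d.ry.trans fun a ha => mem_centralizer_singleton_iff.2 (QV' ha w hw.1.1).symm)))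
    rw [← cj_eq_self_iff, cj_centralizer_singleton, mem_cz.1 hw.2, mul_inv_cancel_right]⟩
  refine (Pd.alt h m ⟨inf_le_left.trans d.lV, zW, d.z1, d.my, d.oy, d.yz, nW, cy, d.lQ, d.lM, d.lH, d.pR, d.nR, d.max,
    (commutator_comm _ _).le.trans ((commutator_mono le_rfl inf_le_right).trans (commutator_secCent_le _ _)),
    fun r hr => by_contra fun r0 => ?_, d.ry, fun w hw c => ?_⟩).resolve_right fun ⟨k, _⟩ => ?_
  · obtain ⟨v, hv, v0, c⟩ := exists_fixed_mod pV d.pR (d.lM.trans d.nV) fun l : V ≤ zpowers z => by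
      have := card_le_card_of_le l
      rw [d.cV, cz] at this
      omega
    have e1 := card_lt_card_of_lt (lt_of_le_of_ne (zpowers_le.2 zW) fun e => v0 (e.ge ⟨hv, VH hv, fun a ha =>
      swap_mem (c (commutator_mem_commutator (mem_zpowers v) ha))⟩))
    have e2 := (card_le_card_of_le (fun w hw => ⟨hw.1, mem_centralizer_singleton_iff.2 (hr.2 w hw)⟩ :
      V ⊓ secCent R (zpowers z) ≤ V ⊓ centralizer {r})).trans (d.four r hr.1 r0)
    have e3 := md zW nW cy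
    omega
  · by_cases w0 : w ∈ 𝐎[2](M)
    · exact h.w.lk5 d.mx d.ox (d.lV d.zV) ⟨w0, d.lH hw, c⟩
    have e1 := rel_cent fun a ha => c a (VQ M (d.lV ha))
    have e2 := card_inf_mul_relIndex (centralizer {w}) V
    have e3 := Nat.mul_le_mul (d.four w hw w0) e1
    rw [inf_comm, e2, d.cV, cz] at e3
    omega
  · have := md d.zV (d.nV d.my) fun v hv => d.cvr ⟨hv.1, k ⟨⟨VQ M (d.lV hv.1), omegaOneCenter_le_centralizer 2 _ (d.lV hv.1)⟩, hv.2⟩⟩
    rw [d.cV] at this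
    omega

end CF.W8
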