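import Cfsg.Agent.W8.I
import Cfsg.Agent.Comp.MatF
import Cfsg.Agent.Comp.Chain

/-! Certificates for the vanishing of modules, and the Frobenius group of order `42`. -/

set_option autoImplicit false
set_option linter.unusedSectionVars false

namespace CF.W8

open Subgroup Cfsg CF.Loc CF.W7 CF.Comp

variable {G : Type*} [Group G] [Finite G] {M N Q S V : Subgroup G} {g v x : G}

namespace Xp

/-- relations: a word, its order, and representatives of orbits -/
abbrev Rl : Type := List (List ℕ × ℕ × List (List ℕ))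

/-- toggling a key -/
noncomputable def tog (k : ℕ) (l : List ℕ) : List ℕ :=
  List.rec (motive := fun _ => List ℕ) [k] (fun j t r => Bool.rec (j :: r) t (Nat.beq j k)) l

/-- toggling an orbit -/
noncomputable def orb (key : List ℕ → ℕ) (r b : List ℕ) (n : ℕ) (l : List ℕ) : List ℕ :=
  Nat.rec (motive := fun _ => List ℕ) l (fun i t => force (key (lapp (wpow r i) b)) fun k => forceL (tog k t) fun u => u) n

/-- toggling several orbits -/
noncomputable def orbs (key : List ℕ → ℕ) (r : List ℕ) (n : ℕ) (bs : List (List ℕ)) : List ℕ → List ℕ :=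
  List.rec (motive := fun _ => List ℕ → List ℕ) (fun l => l) (fun b _ ih l => forceL (orb key r b n l) ih) bs

/-- toggling all orbits -/
noncomputable def run (key : List ℕ → ℕ) (rs : Rl) : List ℕ → List ℕ :=
  List.rec (motive := fun _ => List ℕ → List ℕ) (fun l => l) (fun p _ ih l => forceL (orbs key p.1 p.2.1 p.2.2 l) ih) rs

theorem un (g v : G) (n : ℕ) : g ^ (n + 1) * (g⁻¹ * v) ^ (n + 1) = g ^ n * v * (g ^ n)⁻¹ * (g ^ n * (g⁻¹ * v) ^ n) := by
  simp only [pow_succ g, pow_succ' (g⁻¹ * v), mul_assoc, inv_mul_cancel_left, mul_inv_cancel_left]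

theorem kill (a : IsElementaryAbelian 2 V) (p : IsPGroup 2 S) (nS : S ≤ 𝐍(V)) {E : List ℕ → G} (e0 : E [] = 1)
    (e1 : ∀ u w, E (lapp u w) = E u * E w) (n : ∀ u, E u ∈ 𝐍(V)) {key : List ℕ → ℕ}
    (K : ∀ u w, key u = key w → (E w)⁻¹ * E u ∈ S) {rs : Rl} (R : ∀ p ∈ rs, ∀ v ∈ V, ((E p.1)⁻¹ * v) ^ p.2.1 = 1)
    (c : (run key rs [key []]).isEmpty = true) : V = ⊥ := by
  by_contra v0
  obtain ⟨⟨z, m, k⟩, z1⟩ := ne_bot_iff_exists_ne_one.1 (inf_centralizer_ne_bot (isElemAb_isPGroup a) p nS v0)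
  obtain ⟨ψ, mψ, e⟩ : ∃ ψ : ℕ → G, (∀ k, ψ k ∈ V) ∧ ∀ u, ψ (key u) = E u * z * (E u)⁻¹ := by
    classical
    refine ⟨fun k => if h : ∃ u, key u = k then E h.choose * z * (E h.choose)⁻¹ else 1, fun k => ?_, fun u => ?_⟩
    · dsimp only
      split_ifs
      exacts [conj_mem_of_mem_normalizer (n _) m, one_mem _]
    · have h : ∃ w, key w = key u := ⟨u, rfl⟩
      have := k _ (K _ _ h.choose_spec)
      refine (dif_pos h).trans ?_
      rw [← mul_inv_cancel_left (E u) (E h.choose), mul_assoc (E u), this]; group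
  have t : ∀ k l, ((tog k l).map ψ).prod = ψ k * (l.map ψ).prod := fun k l => by
    induction l with
    | nil => rfl
    | cons j l ih =>
      show ((Bool.rec (j :: tog k l) l (Nat.beq j k) : List ℕ).map ψ).prod = _
      cases b : Nat.beq j k
      · rw [List.map_cons, List.prod_cons, ih, List.map_cons, List.prod_cons, ← mul_assoc, ← mul_assoc,
          isElemAb_le_centralizer a (mψ k) _ (mψ j)]
      · rw [beq_iff.1 b, List.map_cons, List.prod_cons, ← mul_assoc, ← pow_two, a.2 _ (mψ k), one_mul]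
  have w : ∀ r n, E (wpow r n) = E r ^ n := fun r n => by
    induction n with
    | zero => exact e0.trans (pow_zero _).symm
    | succ n ih => exact (e1 r (wpow r n)).trans (by rw [ih, pow_succ'])
  have o : ∀ r b n l, ((orb key r b n l).map ψ).prod = E r ^ n * ((E r)⁻¹ * ψ (key b)) ^ n * (l.map ψ).prod := fun r b n l => by
    induction n with
    | zero => simp [orb]
    | succ n ih =>
      show ((force _ fun k => forceL (tog k (orb key r b n l)) fun u => u).map ψ).prod = _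
      rw [force_eq, forceL_eq, t, ih, un, e, e, e1, w]; group
  have os : ∀ p ∈ rs, ∀ bs l, ((orbs key p.1 p.2.1 bs l).map ψ).prod = (l.map ψ).prod := fun p hp bs => by
    induction bs with
    | nil => exact fun _ => rfl
    | cons b _ ih =>
      refine fun l => (congrArg (fun l => (List.map ψ l).prod) (forceL_eq _ _)).trans ((ih _).trans ?_)
      have := R p hp 1 (one_mem _)
      rw [mul_one, inv_pow, inv_eq_one] at this
      rw [o, this, R p hp _ (mψ _), one_mul, one_mul]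
  have r : ∀ l, ((run key rs l).map ψ).prod = (l.map ψ).prod := by
    clear c R
    induction rs with
    | nil => exact fun _ => rfl
    | cons p _ ih =>
      exact fun l => (congrArg (fun l => (List.map ψ l).prod) (forceL_eq _ _)).trans
        ((ih (fun q m => os q (List.mem_cons_of_mem _ m)) _).trans (os p List.mem_cons_self _ _))
  have := r [key []]
  rw [List.isEmpty_iff.1 c] at this
  exact z1 (Subtype.ext (by simpa [e, e0] using this.symm))

/-- the test -/
noncomputable def chk (nets : List Net) (n k : ℕ) (key : List ℕ → ℕ) (rs : Rl) : Bool :=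
  lall (fun p => lall (fun j => Nat.beq j p.2.1 || !sameW nets n k (wpow p.1 j) []) [1, 2, 3, 4, 5, 6, 7, 8]) rs &&
    (run key rs [key []]).isEmpty

variable {Y Ω : Type*} [Group Y] [MulAction Y Ω] {n k : ℕ} {D : Dom Ω n} {nets : List Net} {y : ℕ → Y}

theorem kill' (h : W8 G) {Φ : N →* Y} (r : Reps D nets y) (hn : 0 < n) (sy : ∀ i, ∃ s, Φ s = y i) (q : IsPGroup 2 Q)
    (nQ : N ≤ 𝐍(Q)) (lQ : Q ≤ N) (kQ : ∀ v : N, v.1 ∈ Q → Φ v = 1) {T : Subgroup Y} (p : IsPGroup 2 (T.comap Φ))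
    {key : List ℕ → ℕ} (K : ∀ u w, key u = key w → (ev y w)⁻¹ * ev y u ∈ T) {rs : Rl} (c : chk nets n k key rs = true) :
    Q = ⊥ := by
  choose s hs using sy
  have e : ∀ u, Φ (ev s u) = ev y u := fun u => by rw [map_ev, funext hs]
  have n' := nQ.trans (normalizer_le_normalizer_omegaOneCenter 2 Q)
  rw [chk, Bool.and_eq_true, lall_iff] at c
  refine by_contra fun q0 => omegaOneCenter_ne_bot q q0 (kill (isElemAb_omegaOneCenter 2 Q) (p.map N.subtype)
    ((map_subtype_le _).trans n') (E := fun u => (ev s u).1) rfl (fun u w => by rw [ev_lapp]; rfl) (fun u => n' (ev s u).2)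
    (fun u w k => ⟨(ev s w)⁻¹ * ev s u, by simpa [e] using K u w k, rfl⟩) (fun p m v hv => ?_) c.2)
  have hv := omegaOneCenter_le 2 Q hv
  have o := pow_orderOf_eq_one ((ev s p.1)⁻¹ * ⟨v, lQ hv⟩)
  have := lall_iff.1 (c.1 p m) _ ((by decide : ∀ j ≤ 8, 0 < j → j ∈ [1, 2, 3, 4, 5, 6, 7, 8]) _ (h.sub N _)
    (orderOf_pos ((ev s p.1)⁻¹ * ⟨v, lQ hv⟩)))
  rw [Bool.or_eq_true, beq_iff, Bool.not_eq_true'] at this
  refine congrArg Subtype.val (this.resolve_right (fun c => r.ne_of_sameW hn c ?_) ▸ o)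
  have := congrArg Φ o
  rwa [map_pow, map_mul, kQ ⟨v, lQ hv⟩ hv, mul_one, map_inv, e, inv_pow, map_one, inv_eq_one, ← ev_wpow] at this

/-- the conjugate of a fixed element -/
noncomputable def ck (nets : List Net) (n k : ℕ) (u a : List ℕ) : ℕ :=
  imgW nets (repl n k) (lapp a (lapp u (winv a))) (planes n k)

theorem kill2 (h : W8 G) {f : M →* Y} (e : Ex M Q f) (r : Reps D nets y) (hn : 0 < n) (hk : n ≤ 2 ^ k) (F : Faithful D (⊤ : Subgroup Y))
    {u : List ℕ} (p : IsPGroup 2 (centralizer {ev y u})) {rs : Rl} (c : chk nets n k (ck nets n k u) rs = true) : Q = ⊥ :=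
  kill' h r hn (fun _ => e.sj _) e.q e.n e.l (fun v => (e.mem v).2) (p.comap_of_ker_isPGroup f e.pk) (fun a b k => by
    have := r.eq_of_sameW hk F (mem_top _) (mem_top _) (beq_iff.2 k)
    simp only [ev_lapp, ev_winv] at this
    rw [mem_centralizer_singleton_iff, mul_assoc, inv_mul_eq_iff_eq_mul, ← mul_assoc, ← mul_assoc, mul_assoc (ev y b), ← this]
    group) c

/-- normal forms in the Frobenius group -/
def nf : List ℕ → ℕ × ℕ
  | [] => (0, 0)
  | 0 :: w => ((nf w).1.succ % 7, (nf w).2)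
  | _ :: w => (3 * (nf w).1 % 7, (nf w).2.succ % 6)

theorem x42' (h : W8 G) (a : IsElementaryAbelian 2 V) (ox : orderOf x = 7) (e : g * x * g⁻¹ = x ^ 3) (nx : x ∈ 𝐍(V))
    (ng : g ∈ 𝐍(V)) : V = ⊥ := by
  have o : P57 x := .inr ox
  have nd := o.nd2 (isElemAb_isPGroup a)
  have R : ∀ j, ∀ v ∈ V, ((x ^ j * g)⁻¹ * v) ^ 6 = 1 := fun j v hv => by
    have n := mul_mem (pow_mem nx j) ng
    have e : x ^ j * g * x * (x ^ j * g)⁻¹ = x ^ 3 := by rw [mul_inv_rev, ← mul_assoc, mul_assoc _ g, mul_assoc _ _ g⁻¹, e]; group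
    generalize x ^ j * g = g at n e
    have c : ∀ m, g ^ m * x * (g ^ m)⁻¹ = x ^ 3 ^ m ∧ g ^ m * (g⁻¹ * v) ^ m ∈ V := fun m => by
      induction m with
      | zero => simp
      | succ m ih => exact ⟨by rw [pow_succ, pow_succ, pow_mul, ← ih.1, conj_pow, ← e]; group,
          un g v m ▸ mul_mem (conj_mem_of_mem_normalizer (pow_mem n m) hv) ih.2⟩
    obtain ⟨c1, c2⟩ := c (orderOf (g⁻¹ * v))
    rw [pow_orderOf_eq_one, mul_one] at c2
    have c3 := mul_mem c2 (conj_mem_of_mem_normalizer nx (inv_mem c2))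
    rw [← mul_assoc, ← mul_assoc, c1] at c3
    have := h.fix o nd c3 (by group)
    have := pow_eq_pow_iff_modEq.1 ((mul_inv_eq_one.1 this).trans (pow_one x).symm)
    rw [← (by decide : ∀ m ≤ 8, 0 < m → 3 ^ m ≡ 1 [MOD 7] → m = 6) _ (h _) (orderOf_pos _) (ox ▸ this), pow_orderOf_eq_one]
  have g6 : g ^ 6 = 1 := by simpa using R 0 1 (one_mem _)
  let E : List ℕ → G := fun w => (w.map fun i => if i = 0 then x else g).prod
  have N : ∀ w, E w = x ^ (nf w).1 * g ^ (nf w).2 := fun w => by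
    induction w with
    | nil => simp [E, nf]
    | cons i w ih =>
      refine (congrArg (_ * ·) ih).trans ?_
      cases i
      · rw [nf, ← pow_eq_pow_mod _ (ox ▸ pow_orderOf_eq_one x), pow_succ', mul_assoc]; rfl
      · rw [nf, ← pow_eq_pow_mod _ (ox ▸ pow_orderOf_eq_one x), ← pow_eq_pow_mod _ g6, pow_mul, ← e, conj_pow, pow_succ']
        · simp [mul_assoc]
        · simp
  refine kill a .of_bot bot_le (E := E) rfl (fun u w => by simp [E, lapp_eq]) (fun u => N u ▸ mul_mem (pow_mem nx _) (pow_mem ng _))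
    (key := fun w => (nf w).1.pair (nf w).2) (fun u w k => by
      obtain ⟨k1, k2⟩ := Nat.pair_eq_pair.1 k
      rw [N, N, k1, k2, inv_mul_cancel]; exact one_mem _)
    (rs := ([0], 7, [[1], [1, 1], [1, 1, 1], [1, 1, 1, 1], [1, 1, 1, 1, 1]]) ::
      (List.range 7).map fun j => (List.replicate j 0 ++ [1], 6, [[]])) (fun p m v hv => ?_) (by decide +kernel)
  rcases List.mem_cons.1 m with rfl | m
  · have := h.pow o nd nx (inv_mem hv)
    rw [ox, ← inv_eq_one, ← inv_pow] at this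
    simpa [E] using this
  · obtain ⟨j, -, rfl⟩ := List.mem_map.1 m
    simpa [E] using R j v hv

end Xp

theorem x42 (h : W8 G) (v : IsPGroup 2 V) (ox : orderOf x = 7) (og : orderOf g = 6) (n : g ∈ 𝐍(zpowers x)) (nx : x ∈ 𝐍(V))
    (ng : g ∈ 𝐍(V)) : V = ⊥ := by
  have l := normalizer_le_normalizer_omegaOneCenter 2 V
  obtain ⟨k, k7, e⟩ : ∃ k < 7, x ^ k = g * x * g⁻¹ := by
    classical
    simpa only [ox, Finset.mem_image, Finset.mem_range] using mem_zpowers_iff_mem_range_orderOf.1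
      (conj_mem_of_mem_normalizer n (mem_zpowers x))
  have c : ∀ m, g ^ m * x * (g ^ m)⁻¹ = x ^ k ^ m := fun m => by
    induction m with
    | zero => simp
    | succ m ih => rw [pow_succ, pow_succ, pow_mul, ← ih, conj_pow, e]; group
  have d : ∀ m, k ^ m ≡ 1 [MOD 7] ↔ 6 ∣ m := fun m => by
    rw [← ox, ← pow_eq_pow_iff_modEq, ← c, pow_one, mul_inv_eq_iff_eq_mul, ← og, orderOf_dvd_iff_pow_eq_one]
    exact ⟨fun t => h.fix1 (.inr ox) t.symm fun t => by
      have := t.trans (orderOf_pow_dvd m)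
      rw [ox, og] at this; omega, fun t => by simp [t]⟩
  refine by_contra fun v0 => omegaOneCenter_ne_bot v v0 ?_
  obtain rfl | rfl := (by decide : ∀ k < 7, k ^ 6 ≡ 1 [MOD 7] → ¬ k ^ 2 ≡ 1 [MOD 7] → ¬ k ^ 3 ≡ 1 [MOD 7] → k = 3 ∨ k = 5) k k7
    ((d 6).2 dvd_rfl) (mt (d 2).1 (by decide)) (mt (d 3).1 (by decide))
  · exact Xp.x42' h (isElemAb_omegaOneCenter 2 V) ox e.symm (l nx) (l ng)
  · exact Xp.x42' h (isElemAb_omegaOneCenter 2 V) ox ((c 5).trans (pow_eq_pow_iff_modEq.2 (ox ▸ by decide))) (l nx) (l (pow_mem ng 5))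

end CF.W8
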