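import Cfsg.Agent.W8.XA
import Cfsg.Agent.Comp.Inc
import Cfsg.Agent.Perm.SymAut
import Cfsg.Agent.Recog.Stem

/-! The groups `A₇` and `A₆.2` have no suitable module. -/

set_option autoImplicit false
set_option maxRecDepth 100000
set_option linter.unusedSectionVars false

namespace CF.W8

open Subgroup Cfsg CF.Loc CF.Comp Equiv

variable {G : Type*} [Group G] [Finite G] {L M N Q : Subgroup G}

namespace Xp

/-- data -/
noncomputable def N7_0 : Net := (Net.cons (nat_lit 1) (nat_lit 21) (Net.cons (nat_lit 4) (nat_lit 4) (Net.cons (nat_lit 2) (nat_lit 17) Net.nil)))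
/-- data -/
noncomputable def N7_1 : Net := (Net.cons (nat_lit 1) (nat_lit 16) (Net.cons (nat_lit 2) (nat_lit 2) (Net.cons (nat_lit 4) (nat_lit 2) (Net.cons (nat_lit 1) (nat_lit 21) Net.nil))))
/-- data -/
noncomputable def N7_2 : Net := (Net.cons (nat_lit 1) (nat_lit 16) (Net.cons (nat_lit 2) (nat_lit 16) (Net.cons (nat_lit 4) (nat_lit 4) (Net.cons (nat_lit 2) (nat_lit 17) (Net.cons (nat_lit 1) (nat_lit 16) Net.nil)))))
/-- data -/
noncomputable def N7_3 : Net := (Net.cons (nat_lit 1) (nat_lit 20) (Net.cons (nat_lit 2) (nat_lit 2) (Net.cons (nat_lit 4) (nat_lit 6) (Net.cons (nat_lit 1) (nat_lit 16) Net.nil))))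
/-- data -/
noncomputable def N7 : List Net := [N7_0, N7_1, N7_2, N7_3]

/-- data -/
def C7 : Rl := [([3], 5, [[5], [8], [5, 1], [6, 1], [7, 1], [8, 1], [6, 2], [1, 3], [2, 3], [5, 3], [7, 3], [8, 3], [2, 4], [2, 5], [1, 7], [7, 7], [1, 1, 1], [5, 1, 1], [7, 1, 1], [8, 1, 1], [2, 3, 1], [7, 3, 1], [2, 4, 1], [1, 6, 1], [6, 8, 1], [7, 2, 2], [1, 3, 2], [2, 4, 2], [5, 4, 2], [8, 4, 2], [1, 7, 2], [7, 7, 2], [1, 7, 3], [1, 8, 3], [6, 2, 4], [7, 7, 4], [8, 8, 4], [6, 1, 5], [2, 2, 5], [5, 2, 5], [7, 4, 5], [2, 2, 7], [7, 2, 7], [8, 2, 7], [8, 4, 7], [6, 8, 8], [2, 4, 1, 1], [1, 8, 1, 1], [8, 2, 4, 1], [2, 3, 6, 1], [7, 4, 6, 1], [7, 3, 7, 1], [1, 6, 7, 1], [1, 6, 8, 1], [6, 2, 6, 2], [1, 3, 6, 2]]),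
  ([1], 7, [[4], [5], [8], [3, 1], [6, 1], [7, 1], [3, 2], [4, 2], [5, 2], [6, 2], [8, 2], [3, 3], [6, 3], [7, 3], [7, 4], [4, 5], [5, 7], [6, 7], [5, 8], [7, 1, 1], [8, 3, 1], [5, 4, 1], [7, 4, 1], [6, 7, 1], [8, 8, 1], [5, 2, 2], [8, 2, 2], [6, 3, 2], [5, 7, 2], [5, 8, 2], [8, 1, 3], [8, 2, 3], [7, 3, 3], [8, 2, 4], [7, 4, 5], [6, 1, 7], [8, 1, 7], [8, 1, 8], [8, 2, 4, 1], [3, 1, 7, 1]]),
  ([7], 5, [[], [1], [2], [4], [5], [1, 1], [5, 1], [2, 2], [3, 2], [5, 2], [1, 3], [2, 3], [5, 3], [1, 4], [2, 4], [4, 4], [1, 5], [3, 7], [4, 7], [1, 1, 1], [3, 1, 1], [5, 1, 1], [1, 3, 1], [3, 3, 1], [2, 4, 1], [1, 6, 1], [3, 6, 1], [4, 6, 1], [3, 7, 1], [3, 8, 1], [5, 8, 1], [3, 3, 2], [5, 3, 2], [1, 6, 2], [3, 6, 2], [4, 7, 2], [1, 8, 2], [3, 8, 2], [5, 2, 3], [6, 2, 3], [2, 3, 3], [6, 3, 3], [3, 5, 3], [3, 6, 3], [4, 6, 3], [1, 7, 3], [3, 7, 3], [2, 2, 4], [5, 4, 4], [3, 7, 4], [5,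 2, 5], [3, 7, 5], [3, 8, 5], [3, 1, 8], [3, 8, 8], [2, 3, 1, 1], [3, 3, 1, 1], [4, 2, 4, 1], [5, 2, 4, 1], [5, 2, 5, 1], [5, 1, 6, 1], [2, 3, 6, 1], [4, 8, 8, 1], [4, 5, 4, 2], [4, 2, 5, 2]]),
  ([1, 3], 7, [[], [1], [2], [8], [3, 1], [5, 1], [6, 1], [8, 1], [6, 2], [8, 2], [3, 3], [7, 3], [3, 5], [7, 5], [1, 7], [8, 4, 1], [8, 5, 1], [3, 6, 1], [1, 8, 1], [5, 8, 1], [6, 2, 2], [1, 4, 2], [5, 4, 2], [6, 4, 2], [8, 4, 2], [7, 7, 2], [1, 8, 2], [8, 8, 2], [3, 1, 5], [3, 3, 5], [3, 8, 5], [8, 2, 7], [1, 1, 8], [2, 5, 8], [1, 8, 1, 1], [7, 2, 3, 1]]),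
  ([2, 5], 6, [[3], [7], [8], [7, 1], [2, 2], [3, 2], [8, 2], [1, 3], [3, 3], [7, 3], [8, 4], [1, 5], [4, 5], [8, 5], [2, 7], [3, 7], [5, 7], [7, 7], [1, 1, 1], [3, 1, 1], [7, 1, 1], [1, 3, 1], [3, 3, 1], [8, 3, 1], [2, 4, 1], [4, 4, 1], [8, 4, 1], [4, 5, 1], [8, 5, 1], [8, 6, 1], [7, 7, 1], [2, 8, 1], [3, 8, 1], [4, 8, 1], [2, 2, 2], [3, 2, 2], [2, 3, 2], [5, 3, 2], [2, 4, 2], [8, 5, 2], [3, 7, 2], [5, 1, 3], [8, 2, 3], [1, 3, 3], [8, 5, 3], [4, 8, 3], [8, 1, 4], [7, 7, 4], [2, 3, 5]]),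
  ([5, 7], 7, [[2], [7], [5, 1], [6, 1], [5, 2], [3, 3], [6, 3], [4, 5], [4, 1, 1], [2, 3, 1], [2, 4, 1], [7, 5, 1], [1, 6, 1], [4, 6, 1], [4, 7, 1], [5, 2, 2], [1, 3, 2], [6, 3, 2], [4, 6, 2], [2, 7, 2], [1, 8, 2], [2, 8, 2]]),
  ([1, 6], 6, [[1], [4], [7], [7, 1], [8, 1], [2, 2], [6, 2], [8, 2], [1, 3], [8, 4], [2, 7], [4, 7], [7, 7]]),
  ([5, 8], 7, [[], [1], [2], [8], [1, 1], [5, 1], [8, 1], [2, 2], [4, 2], [5, 2], [6, 2], [1, 3], [6, 3], [1, 4]]),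
  ([1, 7], 7, [[2], [3], [5]]),
  ([2, 6], 7, [[2]])]

theorem c7 : chk N7 7 3 (ck N7 7 3 [3, 6]) C7 = true := by decide +kernel

/-- the points -/
def D7 : Dom (Fin 7) 7 := ⟨Fin.ofNat 7, by decide⟩

theorem f7 : D7.Full := fun x => ⟨x, x.2, Fin.ext (Nat.mod_eq_of_lt x.2)⟩

theorem fa7 {X : Type*} [Group X] [MulAction X (Fin 7)] [FaithfulSMul X (Fin 7)] : Faithful D7 (⊤ : Subgroup X) :=
  fun _ _ k => eq_of_smul_eq_smul fun x : Fin 7 => let ⟨i, a, e⟩ := f7 x; e ▸ (k i a).trans (one_smul _ _).symm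

end Xp

open Xp in
theorem xa7 (h : W8 G) {f : M →* A7} (e : Ex M Q f) : Q = ⊥ := by
  have r := f7.reps (wf_of_wfAll (nets := N7) (by decide +kernel))
  have m : ∀ i, D7.els N7 i ∈ A7 := fun i => by
    rcases lt_or_ge i 4 with l | l
    · have := congrArg Perm.sign (r.eq_one_of_idW (k := 3) (by decide) fa7 trivial
        ((by decide +kernel : ∀ i < 4, idW N7 7 3 (wpow [2 * i + 1] 105) = true) i l))
      rw [ev_wpow, ev_single, map_pow] at this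
      exact (Int.units_eq_one_or _).resolve_right fun k => absurd (k ▸ this) (by decide)
    · exact f7.els_eq_one (nets := N7) l ▸ one_mem _
  have r' : Reps D7 N7 fun i => (⟨_, m i⟩ : A7) := ⟨r.wf, r.act⟩
  refine kill2 h e r' (by decide) (by decide) fa7 (isPGroup_of_forall_coprime fun a k c => ?_) c7
  have o : orderOf (ev _ [3, 6]) = 2 ^ (1 + 1) := orderOf_eq_prime_pow (fun t => r'.ne_of_sameW (k := 3) (w := [])
    (by decide) (by decide +kernel) ((ev_wpow _ _ 2).trans t))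
    ((ev_wpow _ _ 4).symm.trans (r'.eq_one_of_idW (k := 3) (by decide) fa7 trivial (by decide +kernel)))
  have := ((h.sub M).map e.sj).mul_le (mem_centralizer_singleton_iff.1 k) (by rw [o]; exact c.pow_right _)
  rw [o] at this
  have := orderOf_pos a
  have := Nat.odd_iff.1 (Nat.coprime_two_right.1 c)
  exact orderOf_eq_one_iff.1 (by omega)

namespace Xp

/-- data -/
def CW : List (List (Fin 5)) := [[], [1], [3], [0, 1], [3, 1], [2, 3], [4, 3], [3, 0, 1], [2, 3, 1], [4, 3, 1], [1, 2, 3], [4, 2, 3], [2, 3, 0, 1], [4, 3, 0, 1], [1, 2, 3, 1], [4, 2, 3, 1], [0, 1, 2, 3], [4, 1, 2, 3], [3, 4, 2, 3], [1, 2, 3, 0, 1], [4, 2, 3, 0, 1], [0, 1, 2, 3, 1], [4, 1, 2, 3, 1], [3, 4, 2, 3, 1], [4, 0, 1, 2, 3], [3, 4, 1, 2, 3], [0, 1, 2, 3, 0, 1], [4, 1, 2, 3, 0, 1], [3, 4, 2, 3, 0, 1], [4, 0, 1, 2, 3, 1], [3, 4, 1, 2, 3, 1], [3, 4, 0, 1, 2, 3], [2, 3, 4, 1, 2, 3], [4, 0, 1, 2, 3, 0, 1],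 [3, 4, 1, 2, 3, 0, 1], [3, 4, 0, 1, 2, 3, 1], [2, 3, 4, 1, 2, 3, 1], [2, 3, 4, 0, 1, 2, 3], [3, 4, 0, 1, 2, 3, 0, 1], [2, 3, 4, 1, 2, 3, 0, 1], [2, 3, 4, 0, 1, 2, 3, 1], [1, 2, 3, 4, 0, 1, 2, 3], [2, 3, 4, 0, 1, 2, 3, 0, 1], [1, 2, 3, 4, 0, 1, 2, 3, 1], [1, 2, 3, 4, 0, 1, 2, 3, 0, 1]]

/-- data -/
noncomputable def Na : Net := (Net.cons (nat_lit 1) (nat_lit 0x1151041150) (Net.cons (nat_lit 2) (nat_lit 0x31011110130) (Net.cons (nat_lit 4) (nat_lit 0x10405020408) (Net.cons (nat_lit 8) (nat_lit 0x2000800e0) (Net.cons (nat_lit 16) (nat_lit 1656) (Net.cons (nat_lit 32) (nat_lit 5880) (Net.cons (nat_lit 16) (nat_lit 48827) (Net.cons (nat_lit 8) (nat_lit 0x1900400042) (Net.cons (nat_lit 4) (nat_lit 0x1090a020b03) (Net.cons (nat_lit 2) (nat_lit 286400770) (Net.cons (nat_lit 1) (nat_lit 0x40115044054) Net.nil)))))))))))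
/-- data -/
noncomputable def Nb : Net := (Net.cons (nat_lit 1) (nat_lit 0x54054051551) (Net.cons (nat_lit 2) (nat_lit 0x13010010120) (Net.cons (nat_lit 4) (nat_lit 0xb03060c00) (Net.cons (nat_lit 8) (nat_lit 0x400400080) (Net.cons (nat_lit 16) (nat_lit 2147) (Net.cons (nat_lit 32) (nat_lit 3299) (Net.cons (nat_lit 16) (nat_lit 11003) (Net.cons (nat_lit 8) (nat_lit 0x600e50053) (Net.cons (nat_lit 4) (nat_lit 0x10d0a090907) (Net.cons (nat_lit 2) (nat_lit 0x20300213210) (Net.cons (nat_lit 1) (nat_lit 0x54115114115) Net.nil)))))))))))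
/-- data -/
noncomputable def Ns : Net := (Net.cons (nat_lit 1) (nat_lit 0x40145000040) (Net.cons (nat_lit 2) (nat_lit 19988480) (Net.cons (nat_lit 4) (nat_lit 0x10800000000) (Net.cons (nat_lit 8) (nat_lit 0x100c40000) (Net.cons (nat_lit 16) (nat_lit 384) (Net.cons (nat_lit 32) (nat_lit 384) (Net.cons (nat_lit 16) (nat_lit 50560) (Net.cons (nat_lit 8) (nat_lit 0x1900fe0000) (Net.cons (nat_lit 4) (nat_lit 0x10e04000300) (Net.cons (nat_lit 2) (nat_lit 19988498) (Net.cons (nat_lit 1) (nat_lit 0x40155504040) Net.nil)))))))))))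
/-- data -/
def Cs : Rl := [([5, 1, 5], 5, [[3], [3, 1]]),
  ([3, 5], 6, [[2, 4, 1]]),
  ([1], 5, [[4, 1]]),
  ([2, 3], 5, [[], [2], [3], [1, 1], [3, 2]]),
  ([2, 4, 5], 6, [[1, 1]]),
  ([1, 5, 1], 6, [[]]),
  ([4, 5, 1, 5], 5, [[]]),
  ([1, 5, 1, 3], 6, [[2]]),
  ([2, 5, 2, 3], 6, [[1]])]
/-- data -/
noncomputable def Np : Net := (Net.cons (nat_lit 1) (nat_lit 0x4104405151) (Net.cons (nat_lit 2) (nat_lit 0x33102230330) (Net.cons (nat_lit 4) (nat_lit 0x107010a04) (Net.cons (nat_lit 8) (nat_lit 0x6000000c0) (Net.cons (nat_lit 16) (nat_lit 1588) (Net.cons (nat_lit 32) (nat_lit 5878) (Net.cons (nat_lit 16) (nat_lit 59878) (Net.cons (nat_lit 8) (nat_lit 0x1700300093) (Net.cons (nat_lit 4) (nat_lit 0xc0b040a03) (Net.cons (nat_lit 2) (nat_lit 0x22331331110) (Net.cons (nat_lit 1) (nat_lit 0x1105151414) Net.nil)))))))))))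
/-- data -/
def Cp : Rl := [([1, 6], 1, [[]])]
/-- data -/
noncomputable def Nm : Net := (Net.cons (nat_lit 1) (nat_lit 0x54544401550) (Net.cons (nat_lit 2) (nat_lit 0x22000233011) (Net.cons (nat_lit 4) (nat_lit 0x1080a0c0400) (Net.cons (nat_lit 8) (nat_lit 0x1c009a0080) (Net.cons (nat_lit 16) (nat_lit 4139) (Net.cons (nat_lit 32) (nat_lit 6575) (Net.cons (nat_lit 16) (nat_lit 30366) (Net.cons (nat_lit 8) (nat_lit 0x1500f100a9) (Net.cons (nat_lit 4) (nat_lit 0x10f0b02010c) (Net.cons (nat_lit 2) (nat_lit 0x2223022122) (Net.cons (nat_lit 1) (nat_lit 0x51101505014) Net.nil)))))))))))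
/-- data -/
def Cm : Rl := [([1], 5, [[], [3], [5, 4]]),
  ([5], 8, [[1], [3]]),
  ([2, 6], 8, [[2], [3], [1, 1]]),
  ([4, 1, 3], 5, [[], [5]]),
  ([3, 6, 3], 8, [[2]]),
  ([1, 1, 6], 8, [[2]]),
  ([1, 1, 4, 5], 8, [[]])]

/-- products of transpositions -/
def ws (l : List (Fin 5)) : Perm (Fin 6) := (l.map fun i => swap i.castSucc i.succ).prod

/-- their images under an outer automorphism -/
def wt (l : List (Fin 5)) : Perm (Fin 6) :=
  (l.map ![swap 0 1 * swap 2 3 * swap 4 5, swap 0 2 * swap 1 4 * swap 3 5, swap 0 1 * swap 2 5 * swap 3 4,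
    swap 0 2 * swap 1 3 * swap 4 5, swap 0 1 * swap 2 4 * swap 3 5]).prod

/-- an involution -/
def t0 : A6 := ⟨ws [0, 2], show Perm.sign _ = 1 by decide⟩

/-- all involutions -/
def pv (j : ℕ) : Perm (Fin 6) := ws (CW.getD j []) * ws [0, 2] * (ws (CW.getD j []))⁻¹

/-- the points -/
def D6 : Dom A6 45 := ⟨fun j => MulAut.conjNormal (ws (CW.getD j [])) t0, fun i a j c e =>
  (by decide +kernel : ∀ i < 45, ∀ j < 45, pv i = pv j → i = j) i a j c (congrArg Subtype.val e)⟩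

theorem r6 {ω : MulAut A6} {ν : Net} (w : wfAll [Na, Nb, ν] 45 = true) (k : ∀ j < 45, (ω (D6.pt j)).1 = pv (ν.app j)) :
    Reps D6 [Na, Nb, ν] (nth 1 [MulAut.conjNormal (ws [0, 1, 2, 3]), MulAut.conjNormal (ws [2, 4, 3, 4]), ω]) := by
  have w := wf_of_wfAll w
  refine ⟨w, fun i j l => ?_⟩
  rw [pf, ← Net.app_eq (w i) l]
  obtain _ | _ | _ | i := i
  · exact Subtype.ext ((by decide +kernel : ∀ j < 45, ws [0, 1, 2, 3] * pv j * (ws [0, 1, 2, 3])⁻¹ = pv (Na.app j)) j l)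
  · exact Subtype.ext ((by decide +kernel : ∀ j < 45, ws [2, 4, 3, 4] * pv j * (ws [2, 4, 3, 4])⁻¹ = pv (Nb.app j)) j l)
  · exact Subtype.ext (k j l)
  · exact congrArg D6.pt ((by decide +kernel : ∀ j < 45, j = Net.nil.app j) j l)

end Xp

open Xp in
theorem xa62 (h : W8 G) {f : L →* A6} (e : Ex L Q f) (l : L ≤ N) (n : N ≤ 𝐍(L)) (nQ : N ≤ 𝐍(Q)) (i : L.relIndex N = 2) :
    Q = ⊥ := by
  have ex : ∀ g : N, ∃ γ : MulAut A6, ∀ a, γ (f a) = f (L.normalizerMonoidHom ⟨g, n g.2⟩ a) := fun g =>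
    Recog.exists_equiv_of_ker (ψ₂ := f.comp (L.normalizerMonoidHom ⟨g, n g.2⟩).toMonoidHom) e.sj
      (e.sj.comp (MulEquiv.surjective _)) (Subgroup.ext fun a =>
        (e.mem a).trans ((mem_normalizer_iff.1 (nQ g.2) a).trans (e.mem (L.normalizerMonoidHom ⟨g, n g.2⟩ a)).symm))
  choose Φ hΦ using ex
  obtain ⟨Φ, hΦ⟩ : ∃ Φ : N →* MulAut A6, ∀ g a, Φ g (f a) = f (L.normalizerMonoidHom ⟨g, n g.2⟩ a) :=
    ⟨.mk' Φ fun a b => MulEquiv.ext fun y => by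
      obtain ⟨y, rfl⟩ := e.sj y
      rw [MulAut.mul_apply, hΦ, hΦ, hΦ, ← MulAut.mul_apply, ← map_mul]; rfl, hΦ⟩
  have iL : ∀ a : L, Φ ⟨a, l a.2⟩ = MulAut.conjNormal (f a).1 := fun a => MulEquiv.ext fun y => by
    obtain ⟨y, rfl⟩ := e.sj y
    rw [hΦ, show L.normalizerMonoidHom ⟨a, _⟩ y = a * y * a⁻¹ from rfl, map_mul, map_mul, map_inv]; rfl
  have sL : ∀ σ : Perm (Fin 6), Perm.sign σ = 1 → ∃ a : N, a.1 ∈ L ∧ Φ a = MulAut.conjNormal σ := fun σ s =>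
    (e.sj ⟨σ, s⟩).elim fun a k => ⟨_, a.2, by rw [iL, k]⟩
  have K : ∀ {ω ν rs}, (∃ g, Φ g = ω) → wfAll [Na, Nb, ν] 45 = true → (∀ j < 45, (ω (D6.pt j)).1 = pv (ν.app j)) →
      chk [Na, Nb, ν] 45 6 (fun a => appW [Na, Nb, ν] a 0) rs = true → Q = ⊥ := fun {ω ν rs} g w k c => by
    have r := r6 w k
    refine kill' (Φ := Φ) h r (by decide) (fun i => ?_) e.q nQ (e.l.trans l) (fun v m => ?_)
      (T := MulAction.stabilizer _ (D6.pt 0)) (fun ⟨a, m⟩ => ?_) (fun u w k => ?_) c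
    · obtain _ | _ | _ | i := i
      exacts [(sL _ (by decide)).imp fun _ => And.right, (sL _ (by decide)).imp fun _ => And.right, g, ⟨1, map_one Φ⟩]
    · rw [iL ⟨v, e.l m⟩, (e.mem _).2 m]; exact map_one _
    · have m2 := mul_mem m m
      rw [mem_comap, show Φ (a * a) = _ from iL ⟨_, mul_self_mem_of_index_two i a⟩] at m2
      have := (by decide +kernel : ∀ σ : Perm (Fin 6), σ * pv 0 * σ⁻¹ = pv 0 → σ ^ 4 = 1) _ (congrArg Subtype.val m2)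
      obtain ⟨j, t⟩ := e.q ⟨_, (e.mem (_ ^ 4)).1 ((map_pow f _ 4).trans (Subtype.ext this))⟩
      have t : (((a : G) * a) ^ 4) ^ 2 ^ j = 1 := congrArg Subtype.val t
      rw [← pow_two, ← pow_mul, ← pow_mul, ← mul_assoc] at t
      exact ⟨3 + j, Subtype.ext (Subtype.ext (by rw [pow_add]; exact t))⟩
    · rw [MulAction.mem_stabilizer_iff, mul_smul, inv_smul_eq_iff, r.smul_pt u (by decide), r.smul_pt w (by decide)]
      exact congrArg D6.pt k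
  obtain ⟨g, g0⟩ : ∃ g : N, g ∉ L.subgroupOf N := by_contra fun k => by
    push Not at k
    rw [relIndex, index_eq_one.2 ((eq_top_iff' _).2 k)] at i
    omega
  obtain ⟨θ, h0, h1, h2, h3, h4⟩ := Perm.exists_outer_fin_six
  have hθ : ∀ l, θ (ws l) = wt l := fun l => by
    rw [ws, map_list_prod, List.map_map]
    refine congrArg List.prod (List.map_congr_left fun i _ => ?_)
    fin_cases i
    exacts [h0, h1, h2, h3, h4]
  obtain ⟨σ, t⟩ := Perm.aut_alt_six (θ := Perm.resAlt θ) (by simp) (fun c hc h => by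
    have h2 : (swap (0 : Fin 6) 1 * swap 1 2).IsThreeCycle := card_support_eq_three_iff.1 (by decide)
    have h3 := θ.toMonoidHom.map_isConj (Perm.isConj_iff_cycleType_eq.2 (h2.trans hc.symm))
    have h4 := (Perm.isConj_iff_cycleType_eq.1 h3).trans h
    rw [map_mul, MulEquiv.coe_toMonoidHom, h0, h1] at h4
    exact absurd (Perm.IsThreeCycle.card_support h4) (by decide)) (Φ g)
  have k : ∀ {ω}, Φ g = ω * MulAut.conjNormal σ → ∀ τ, Perm.sign σ = Perm.sign τ →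
      ∃ a ∉ L.subgroupOf N, Φ a = ω * MulAut.conjNormal τ := fun t τ s =>
    (sL (σ⁻¹ * τ) (by simp [s])).elim fun a k => ⟨g * a, fun m => g0 ((Subgroup.mul_mem_cancel_right _ k.1).1 m),
      by rw [map_mul, t, k.2, mul_assoc, ← map_mul, mul_inv_cancel_left]⟩
  have u : ∀ m j, ((Perm.resAlt θ * MulAut.conjNormal (ws m) : MulAut A6) (D6.pt j)).1 =
      wt m * (wt (CW.getD j []) * wt [0, 2] * (wt (CW.getD j []))⁻¹) * (wt m)⁻¹ := fun m j => by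
    simp only [← hθ, ← map_inv, ← map_mul]; rfl
  rcases t with t | t <;> rcases Int.units_eq_one_or (Perm.sign σ) with s | s
  · obtain ⟨a, a0, t⟩ := k (t.trans (one_mul _).symm) (ws [0, 1, 2, 3]) (s.trans (by decide))
    have := Fact.mk Nat.prime_five
    have o : orderOf (Φ a) = 5 := orderOf_eq_prime (by
      rw [t, one_mul, ← map_pow, (by decide : ws [0, 1, 2, 3] ^ 5 = 1), map_one]) fun z =>
        absurd (congrArg (fun ω : MulAut A6 => (ω t0).1) (t.symm.trans z)) (by decide)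
    have := pow_orderOf_eq_one a
    rw [(h.sub N).ord_map Φ o.ge, o, pow_succ, show 4 = 2 * 2 from rfl, pow_mul] at this
    exact (a0 ((Subgroup.mul_mem_cancel_left _ (pow_mem (sq_mem_of_index_two i a) 2)).1 (this ▸ one_mem _))).elim
  · exact K (ν := Ns) (rs := Cs) ((k (t.trans (one_mul _).symm) (ws [0]) (s.trans (by decide))).imp fun _ => And.right)
      (by decide +kernel) (by decide +kernel : ∀ j < 45, ws [0] * pv j * (ws [0])⁻¹ = pv (Ns.app j)) (by decide +kernel)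
  · exact K (ν := Np) (rs := Cp) ((k t (ws []) (s.trans (by decide))).imp fun _ => And.right)
      (by decide +kernel) (by simp only [u]; decide +kernel) (by decide +kernel)
  · exact K (ν := Nm) (rs := Cm) ((k t (ws [0]) (s.trans (by decide))).imp fun _ => And.right)
      (by decide +kernel) (by simp only [u]; decide +kernel) (by decide +kernel)

end CF.W8
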